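import Cfsg.Agent.FGS.Ord8.Defs

/-! `F₂A₆`-modules on which the elements of order five have no fixed points. -/

set_option autoImplicit false
set_option linter.unusedSectionVars false
set_option synthInstance.maxSize 2048

namespace CL.Ord8.B6

open Subgroup Equiv

attribute [local instance high] List.decidableBAll List.decidableBEx

def ap (c i : ℕ) : ℕ := (c.div (Nat.pow (nat_lit 8) i)).mod (nat_lit 8)

def e8 (a b : ℕ) : ℕ := a.add (Nat.mul (nat_lit 8) b)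

def en (a b c d e f : ℕ) : ℕ := e8 a (e8 b (e8 c (e8 d (e8 e f))))

def cd (g : Sy 6) : ℕ := en (g 0) (g 1) (g 2) (g 3) (g 4) (g 5)

def mu (a b : ℕ) : ℕ :=
  en (ap a (ap b (nat_lit 0))) (ap a (ap b (nat_lit 1))) (ap a (ap b (nat_lit 2))) (ap a (ap b (nat_lit 3)))
    (ap a (ap b (nat_lit 4))) (ap a (ap b (nat_lit 5)))

def iv (c : ℕ) : ℕ := 8 ^ ap c 1 + 2 * 8 ^ ap c 2 + 3 * 8 ^ ap c 3 + 4 * 8 ^ ap c 4 + 5 * 8 ^ ap c 5

def sg (c : ℕ) : Bool := ([(0,1),(0,2),(0,3),(0,4),(0,5),(1,2),(1,3),(1,4),(1,5),(2,3),(2,4),(2,5),(3,4),(3,5),(4,5)].countP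
  fun p : ℕ × ℕ => Nat.blt (ap c p.2) (ap c p.1)) % 2 == 0

def PL : List ℕ := [0, 1, 2, 3, 4, 5].permutations'.map fun l => l.foldr e8 0

def EL : List ℕ := PL.filter sg

theorem ap_cd (g : Sy 6) (i : Fin 6) : ap (cd g) i = g i := by
  have := (g 0).2; have := (g 1).2; have := (g 2).2; have := (g 3).2; have := (g 4).2; have := (g 5).2
  change (g 0 + 8 * (g 1 + 8 * (g 2 + 8 * (g 3 + 8 * (g 4 + 8 * g 5)))) : ℕ) / 8 ^ (i : ℕ) % 8 = _
  fin_cases i <;> simp only [Fin.zero_eta, Fin.mk_one, Fin.reduceFinMk] <;> norm_num <;> omega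

theorem cd_inj {g h : Sy 6} : cd g = cd h ↔ g = h :=
  ⟨fun e => Equiv.ext fun i => Fin.ext (by rw [← ap_cd, e, ap_cd]), congrArg cd⟩

theorem cd_mul (g h : Sy 6) : cd (g * h) = mu (cd g) (cd h) := by
  rw [mu, show ap (cd h) 0 = _ from ap_cd h 0, show ap (cd h) 1 = _ from ap_cd h 1, show ap (cd h) 2 = _ from ap_cd h 2,
    show ap (cd h) 3 = _ from ap_cd h 3, show ap (cd h) 4 = _ from ap_cd h 4, show ap (cd h) 5 = _ from ap_cd h 5]
  simp only [ap_cd]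
  rfl

theorem cd_inv (g : Sy 6) : cd g⁻¹ = iv (cd g) := by
  have := Equiv.sum_comp g fun j => (g⁻¹ j : ℕ) * 8 ^ (j : ℕ)
  simp only [Fin.sum_univ_six, Perm.coe_inv, symm_apply_apply] at this
  rw [iv, show ap (cd g) 1 = _ from ap_cd g 1, show ap (cd g) 2 = _ from ap_cd g 2,
    show ap (cd g) 3 = _ from ap_cd g 3, show ap (cd g) 4 = _ from ap_cd g 4, show ap (cd g) 5 = _ from ap_cd g 5]
  simp only [cd, en, e8, Nat.add_eq, Nat.mul_eq, Perm.coe_inv]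
  norm_num at this
  omega

theorem mem_PL (g : Sy 6) : cd g ∈ PL :=
  List.mem_map.2 ⟨_, List.mem_permutations'.2 (g.map_finRange_perm.map Fin.val), rfl⟩

theorem sg_aux : ∀ i : Fin 5, ∀ c ∈ PL, sg (mu c (cd (swap i.castSucc i.succ))) = !sg c := by decide +kernel

theorem sign_iff (g : Sy 6) : Perm.sign g = 1 ↔ sg (cd g) = true := by
  induction (Perm.mclosure_swap_castSucc_succ 5 ▸ Submonoid.mem_top g : g ∈ Submonoid.closure _)
    using Submonoid.closure_induction_right with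
  | one => decide +kernel
  | mul_right x _ y hy ih =>
    obtain ⟨i, rfl⟩ := hy
    rw [cd_mul, sg_aux i _ (mem_PL x), Bool.not_eq_true', ← Bool.not_eq_true, ← ih, map_mul,
      Perm.sign_swap i.castSucc_lt_succ.ne]
    rcases Int.units_eq_one_or (Perm.sign x) with e | e <;> simp [e]

theorem mem_EL {g : Sy 6} (h : Perm.sign g = 1) : cd g ∈ EL := List.mem_filter.2 ⟨mem_PL g, (sign_iff g).1 h⟩

def pw (c : ℕ) : ℕ → ℕ
  | 0 => 181896
  | n + 1 => mu (pw c n) c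

theorem cd_one : cd 1 = 181896 := rfl

theorem cd_pow (g : Sy 6) : ∀ n, cd (g ^ n) = pw (cd g) n
  | 0 => by rw [pow_zero]; rfl
  | n + 1 => by rw [pow_succ, cd_mul, cd_pow g n]; rfl

/-- fast equality test -/
@[reducible] def deq : DecidableEq (Sy 6) := fun _ _ => decidable_of_iff _ cd_inj

attribute [local instance high] deq

abbrev K6 := Sy 6 × Sy 6

def cy (l : List (List (Fin 6))) : Sy 6 := (l.map List.formPerm).prod

def cj (g : Sy 6) (k : K6) : K6 := (g * k.1 * g⁻¹, g * k.2 * g⁻¹)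

theorem cj_mul (g h : Sy 6) (k : K6) : cj (g * h) k = cj g (cj h k) := by simp [cj, mul_assoc]

theorem cj_one (k : K6) : cj 1 k = k := by simp [cj]

def evn {K : Type} [DecidableEq K] (l : List K) : Bool := l.all fun k => l.count k % 2 == 0

def evl (l : List K6) : Bool := evn (l.map (Prod.map cd cd))

def o5 (k : K6) (p : Sy 6 × Sy 6) : List K6 :=
  [cj p.2 k, cj (p.1 * p.2) k, cj (p.1 ^ 2 * p.2) k, cj (p.1 ^ 3 * p.2) k, cj (p.1 ^ 4 * p.2) k]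

def o3 (k : K6) (p : Sy 6 × Sy 6) : List K6 := [cj p.2 k, cj (p.2 * p.1) k, cj (p.2 * (p.1 * p.1)) k]

/-- the two classes of odd involutions -/
def dd (b : Bool) : Sy 6 := cond b (cy [[4,5]]) (cy [[0,1],[2,3],[4,5]])

def xx (b : Bool) : Sy 6 := cond b (cy [[0,1,2]]) (cy [[0,2,4],[1,3,5]])

def k1 : K6 := (dd true, dd false)

def k2 (b : Bool) : K6 := (dd b, 1)

def c5 : List (Sy 6 × Sy 6) :=
  [(cy [[0,1,2,4,5]], 1), (cy [[0,1,5,4,2]], cy [[0,1,4]]), (cy [[1,2,3,4,5]], cy [[0,1],[2,5]])]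

def c3 : List (Bool × Sy 6) := [(true, cy [[0,1],[3,4]]), (true, cy [[0,1,4]]), (true, cy [[1,4],[2,5]]),
  (false, cy [[0,1],[2,5]]), (false, cy [[0,2],[3,4]]), (false, cy [[0,3],[2,5]])]

theorem cert1 : (∀ p ∈ c5, p.1 ^ 5 = 1 ∧ p.1 ≠ 1) ∧ (∀ p ∈ c3, Perm.sign p.2 = 1) ∧
    evl (k1 :: (c5.flatMap (o5 k1) ++ c3.flatMap fun p => o3 k1 (xx p.1, p.2))) = true := by decide +kernel

/-- representatives `g, k` with `z · g z = k z`, their certificates and conjugators -/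
def gk (b e : Bool) : Sy 6 × Sy 6 := cond b
  (cond e (cy [[0,1],[2,4]], cy [[0,1],[2,5]]) (cy [[0,4],[1,5]], cy [[2,4],[3,5]]))
  (cond e (cy [[0,2],[1,4]], cy [[0,2],[3,4]]) (cy [[0,1],[2,4]], cy [[0,1],[2,5]]))

def ck (b e : Bool) : List (Sy 6 × Sy 6) := cond b
  (cond e [(cy [[0,1,2,3,4]], cy [[0,1],[2,5]]), (cy [[0,1,2,4,3]], cy [[0,1,5]]), (cy [[0,2,4,3,5]], 1)]
    [(cy [[0,1,2,3,4]], 1), (cy [[0,1,2,5,3]], cy [[0,1],[2,4]]), (cy [[0,1,3,5,2]], cy [[0,1,4]])])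
  (cond e [(cy [[0,1,2,3,4]], 1), (cy [[0,1,3,4,5]], 1), (cy [[1,2,5,3,4]], 1)]
    [(cy [[0,1,2,3,4]], cy [[0,1],[2,5]]), (cy [[0,2,3,4,5]], 1), (cy [[1,2,5,4,3]], cy [[0,1],[2,4]])])

def cc (b e : Bool) : List (Sy 6) := cond b
  (cond e [1, cy [[0,1],[2,3]], cy [[0,1],[4,5]], cy [[0,1,2]], cy [[0,2],[4,5]], cy [[0,2,1]], cy [[1,2],[4,5]],
    cy [[2,3],[4,5]]] [1, cy [[0,1,2]], cy [[0,1,3]], cy [[0,2],[1,3]], cy [[0,2,1]], cy [[0,3,1]]])
  (cond e [1, cy [[0,1],[2,3]], cy [[0,1],[4,5]], cy [[0,2],[1,3]], cy [[0,3],[1,2]], cy [[0,4],[1,5]],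
    cy [[2,3],[4,5]], cy [[2,4],[3,5]]] [1, cy [[0,1],[2,3]], cy [[0,2],[1,3]], cy [[0,3],[1,2]], cy [[0,4],[1,5]],
    cy [[0,5],[1,4]]])

theorem cert3 : ∀ b e, (∀ p ∈ ck b e, p.1 ^ 5 = 1 ∧ p.1 ≠ 1) ∧
    evl (k2 b :: cj (gk b e).1 (k2 b) :: cj (gk b e).2 (k2 b) :: (ck b e).flatMap (o5 (k2 b))) = true ∧
    ∀ c ∈ cc b e, Perm.sign c = 1 ∧ cj c (k2 b) = k2 b := by decide +kernel

/-- the fourteen products `z · r z = s z` -/
def WW (b : Bool) : List (Sy 6 × Sy 6) :=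
  [true, false].flatMap fun e => (cc b e).map fun c => (c * (gk b e).1, c * (gk b e).2)

def uu : Sy 6 := cy [[0,1],[2,3]]

def uv (b : Bool) : Sy 6 := xx b * uu * (xx b)⁻¹

/-- membership in the four-group -/
def V4 (b : Bool) (g : Sy 6) : Prop := g = 1 ∨ g = uu ∨ g = uv b ∨ g = uu * uv b

instance (b : Bool) (g : Sy 6) : Decidable (V4 b g) := by unfold V4; infer_instance

def TL : List (Sy 6) := [1, uu, cy [[0,1],[4,5]], cy [[0,2],[1,3]], cy [[0,3],[1,2]], cy [[2,3],[4,5]],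
  cy [[0,2,1,3],[4,5]], cy [[0,3,1,2],[4,5]]]

def HL : List (Sy 6) := [cy [[0,1,2,3,4]], cy [[0,2,4,1,3]], cy [[0,1],[2,4]], cy [[0,1,2,4,3]], cy [[0,1,3,2,5]]]

theorem fP (b : Bool) {g : Sy 6} (s : Perm.sign g = 1) : g * dd b = dd b * g →
    evl (o3 k1 (xx b, g) ++ o3 k1 (xx b, 1)) = true ∧ V4 b (g * uu * g⁻¹) ∧ V4 b (g * uv b * g⁻¹) ∧
    (g ^ 8 = 1 → (g * (xx b * g * (xx b)⁻¹)) ^ 8 = 1 → V4 b g) ∧ (g * dd (!b) = dd (!b) * g → g ∈ TL) := by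
  simp only [evl, o3, cj, V4, TL, List.cons_append, List.nil_append, List.map_cons, List.map_nil, Prod.map,
    List.mem_cons, List.not_mem_nil, ← cd_inj, cd_mul, cd_inv, cd_pow]
  have := mem_EL s
  generalize cd g = c at this ⊢
  revert c b
  decide +kernel

theorem fG {g : Sy 6} (s : Perm.sign g = 1) :
    (∀ b, g * dd b * g⁻¹ = dd b ∨ ∃ p ∈ WW b, g * dd b * g⁻¹ = p.1 * dd b * p.1⁻¹) ∧
    (g ≠ 1 → ∃ h ∈ HL, (g * (h * g * h⁻¹)) ^ 5 = 1 ∧ g * (h * g * h⁻¹) ≠ 1) := by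
  simp only [Ne, ← cd_inj, cd_mul, cd_inv, cd_pow]
  have := mem_EL s
  generalize cd g = c at this ⊢
  revert c
  decide +kernel

theorem rk_aux : ∀ a ∈ EL.filter (pw · 2 == cd 1), ∀ b ∈ EL.filter (pw · 2 == cd 1), mu a b = mu b a → a ≠ cd 1 →
    b ≠ cd 1 → b ≠ a → ∀ c ∈ EL.filter (pw · 2 == cd 1), mu a c = mu c a → mu b c = mu c b →
      c = cd 1 ∨ c = a ∨ c = b ∨ c = mu a b := by decide +kernel

theorem fR {a b c : Sy 6} (sa : Perm.sign a = 1) (sb : Perm.sign b = 1) (sc : Perm.sign c = 1) (a2 : a ^ 2 = 1)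
    (b2 : b ^ 2 = 1) (c2 : c ^ 2 = 1) : a * b = b * a → a ≠ 1 → b ≠ 1 → b ≠ a → a * c = c * a → b * c = c * b →
      c = 1 ∨ c = a ∨ c = b ∨ c = a * b := by
  have k : ∀ {g : Sy 6}, Perm.sign g = 1 → g ^ 2 = 1 → cd g ∈ EL.filter (pw · 2 == cd 1) := fun s e =>
    List.mem_filter.2 ⟨mem_EL s, by rw [← cd_pow, e]; rfl⟩
  simp only [Ne, ← cd_inj, cd_mul]
  exact fun h1 h2 h3 h4 => rk_aux _ (k sa a2) _ (k sb b2) h1 h2 h3 h4 _ (k sc c2)

/-- `r z · s z = t z` -/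
def Th (b : Bool) (r s t : Sy 6) : Prop :=
  ∃ p ∈ WW b, cj s (k2 b) = cj (r * p.1) (k2 b) ∧ cj t (k2 b) = cj (r * p.2) (k2 b)

instance (b : Bool) (r s t : Sy 6) : Decidable (Th b r s t) := by unfold Th; infer_instance

def g0 (b : Bool) : Sy 6 := cond b (cy [[0,4],[1,5]]) (cy [[0,1],[2,4]])

def g1 (b : Bool) : Sy 6 := cond b (cy [[0,4],[2,5]]) (cy [[0,1,2]])

theorem fS : ∀ b, (xx b ^ 3 = 1 ∧ xx b ≠ 1 ∧ Perm.sign (xx b) = 1 ∧ xx b * dd b = dd b * xx b) ∧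
    (uu * uu = 1 ∧ uv b * uv b = 1 ∧ uv b * uu = uu * uv b) ∧
    (∀ v ∈ [1, uu, uv b, uu * uv b], v ∈ TL ∧
      (∀ r ∈ [g1 b, xx b * g1 b], cj (v * r) (k2 b) = cj r (k2 b) ∨ Th b r (v * r) 1) ∧
      (v = 1 ∨ ∃ r ∈ [g1 b, xx b * g1 b], cj (v * r) (k2 b) ≠ cj r (k2 b))) ∧
    (Perm.sign (g0 b) = 1 ∧ Perm.sign (g1 b) = 1 ∧ Th b (g0 b) (xx b * g0 b) (g1 b) ∧
      cj (uu * uv b * xx b * (uu * uv b)⁻¹ * (xx b)⁻¹ * g1 b) (k2 b) ≠ cj (g1 b) (k2 b)) ∧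
    (WW b).length = 14 ∧ (∀ p ∈ WW b, Perm.sign p.1 = 1 ∧ Perm.sign p.2 = 1) ∧ ∃ t ∈ TL, ¬ V4 b t := by
  decide +kernel

theorem fT : TL.Nodup ∧ (∀ t ∈ TL, Perm.sign t = 1 ∧ t ^ 4 = 1 ∧ ∀ b, t * dd b = dd b * t) ∧
    ∀ h ∈ HL, Perm.sign h = 1 := by decide +kernel

variable {M Y : Type*} [Group M] [CommGroup Y] {a : M →* MulAut Y} {π : M →* Sy 6}

theorem evn_prod {K : Type} [DecidableEq K] (sq : ∀ y : Y, y * y = 1) (κ : K → Y) {l : List K} (h : evn l = true) :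
    (l.map κ).prod = 1 := by
  rw [Finset.prod_list_map_count]
  refine Finset.prod_eq_one fun k hk => ?_
  have := List.all_eq_true.1 h k (List.mem_toFinset.1 hk)
  rw [← Nat.div_add_mod (l.count k) 2, beq_iff_eq.1 this, add_zero, pow_mul, pow_two, sq, one_pow]

theorem evl_prod (sq : ∀ y : Y, y * y = 1) (κ : K6 → Y) {l : List K6} (h : evl l = true) : (l.map κ).prod = 1 := by
  have i : Function.Injective (Prod.map cd cd) := Function.Injective.prodMap (fun _ _ => cd_inj.1) fun _ _ => cd_inj.1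
  rw [← evn_prod sq (κ ∘ Function.invFun (Prod.map cd cd)) h, List.map_map]
  congr 2
  ext k
  simp [Function.leftInverse_invFun i k]

/-- an `F₂A₆`-module on which the elements of order five have no fixed points -/
structure Ac (a : M →* MulAut Y) (π : M →* Sy 6) : Prop where
  sq : ∀ y : Y, y * y = 1
  lift : ∀ g, Perm.sign g = 1 → ∃ m, π m = g
  even : ∀ m, Perm.sign (π m) = 1
  ker : ∀ m, π m = 1 → a m = 1
  fpf : ∀ m, π m ^ 5 = 1 → π m ≠ 1 → ∀ y, a m y = y → y = 1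

theorem ex_k (a : M →* MulAut Y) {k : K6} {z : Y} (hz : ∀ m, cj (π m) k = k → a m z = z) :
    ∃ κ : K6 → Y, κ k = z ∧ ∀ m j, a m (κ j) = κ (cj (π m) j) := by
  classical
  let κ : K6 → Y := fun j => if h : ∃ m, cj (π m) k = j then a h.choose z else 1
  have e : ∀ m, κ (cj (π m) k) = a m z := fun m => by
    have h : ∃ n, cj (π n) k = cj (π m) k := ⟨m, rfl⟩
    have := hz (m⁻¹ * h.choose) (by rw [map_mul, cj_mul, h.choose_spec, ← cj_mul, ← map_mul, inv_mul_cancel, map_one,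
      cj_one])
    simp only [κ, dif_pos h]
    conv_rhs => rw [← this, ← MulAut.mul_apply, ← map_mul, mul_inv_cancel_left]
  refine ⟨κ, by simpa [cj_one] using e 1, fun m j => ?_⟩
  by_cases h : ∃ n, cj (π n) k = j
  · obtain ⟨n, rfl⟩ := h
    rw [← cj_mul, ← map_mul, e, e, map_mul, MulAut.mul_apply]
  · simp only [κ, dif_neg h, map_one]
    rw [dif_neg]
    rintro ⟨n, hn⟩
    exact h ⟨m⁻¹ * n, by rw [map_mul, cj_mul, hn, ← cj_mul, ← map_mul, inv_mul_cancel, map_one, cj_one]⟩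

theorem prod_flat {α : Type} (κ : K6 → Y) {f : α → List K6} {c : List α} (h : ∀ p ∈ c, ((f p).map κ).prod = 1) :
    ((c.flatMap f).map κ).prod = 1 := by
  induction c with
  | nil => rfl
  | cons p c ih =>
    rw [List.flatMap_cons, List.map_append, List.prod_append, h p (by simp), ih fun q hq => h q (by simp [hq]), one_mul]

theorem Ac.five (h : Ac a π) {κ : K6 → Y} (hκ : ∀ m j, a m (κ j) = κ (cj (π m) j)) (k : K6) {p : Sy 6 × Sy 6}
    (c : p.1 ^ 5 = 1 ∧ p.1 ≠ 1) : ((o5 k p).map κ).prod = 1 := by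
  obtain ⟨m, hm⟩ := h.lift p.1 (by
    have := congrArg Perm.sign c.1
    rcases Int.units_eq_one_or (Perm.sign p.1) with e | e
    · exact e
    · rw [map_pow, e, map_one] at this; exact absurd this (by decide))
  refine h.fpf m (hm ▸ c.1) (hm ▸ c.2) _ ?_
  simp only [o5, List.map_cons, List.map_nil, List.prod_cons, List.prod_nil, map_mul, hκ, hm, ← cj_mul, ← mul_assoc,
    ← pow_two, ← pow_succ', c.1, one_mul, mul_one]
  ac_rfl

theorem Ac.core (h : Ac a π) {z : Y} (z1 : z ≠ 1) (hz : ∀ m, (∀ b, π m * dd b = dd b * π m) → a m z = z) :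
    ∃ b, ∃ κ : K6 → Y, κ (k2 b) ≠ 1 ∧ (∀ m j, a m (κ j) = κ (cj (π m) j)) ∧
      ∀ p ∈ WW b, κ (k2 b) * κ (cj p.1 (k2 b)) = κ (cj p.2 (k2 b)) := by
  obtain ⟨κ, e, hκ⟩ := ex_k (π := π) a (k := k1) (z := z) fun m c => hz m fun b => by
    cases b
    exacts [mul_inv_eq_iff_eq_mul.1 (congrArg Prod.snd c), mul_inv_eq_iff_eq_mul.1 (congrArg Prod.fst c)]
  have t : ∀ m b, a m ((o3 k1 (xx b, 1)).map κ).prod = ((o3 k1 (xx b, π m)).map κ).prod := fun m b => by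
    simp only [o3, List.map_cons, List.map_nil, List.prod_cons, List.prod_nil, map_mul, hκ, ← cj_mul, one_mul, mul_one]
  obtain ⟨b, hb⟩ : ∃ b, ((o3 k1 (xx b, 1)).map κ).prod ≠ 1 := by
    by_contra! c
    have := evl_prod h.sq κ cert1.2.2
    rw [List.map_cons, List.prod_cons, List.map_append, List.prod_append,
      prod_flat κ fun p hp => h.five hκ _ (cert1.1 p hp), prod_flat κ fun p hp => ?_, mul_one, mul_one, e] at this
    · exact z1 this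
    · obtain ⟨m, hm⟩ := h.lift _ (cert1.2.1 p hp)
      rw [← hm, ← t, c, map_one]
  obtain ⟨κ', e', hκ'⟩ := ex_k (π := π) a (k := k2 b) (z := ((o3 k1 (xx b, 1)).map κ).prod) fun m c => by
    have := evl_prod h.sq κ (fP b (h.even m) (mul_inv_eq_iff_eq_mul.1 (congrArg Prod.fst c))).1
    rw [List.map_append, List.prod_append, ← t] at this
    exact mul_right_cancel (this.trans (h.sq _).symm)
  refine ⟨b, κ', e' ▸ hb, hκ', fun p hp => ?_⟩
  obtain ⟨j, -, hp⟩ := List.mem_flatMap.1 hp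
  obtain ⟨c, hc, rfl⟩ := List.mem_map.1 hp
  obtain ⟨c1, c2, c3⟩ := cert3 b j
  obtain ⟨m, hm⟩ := h.lift _ (c3 c hc).1
  have := congrArg (a m) (evl_prod h.sq κ' c2)
  simp only [List.map_cons, List.prod_cons, prod_flat κ' fun p hp => h.five hκ' _ (c1 p hp), map_mul, hκ', hm,
    (c3 c hc).2, ← cj_mul, mul_one, map_one, ← mul_assoc] at this
  exact mul_right_cancel (this.trans (h.sq _).symm)

end CL.Ord8.B6
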