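import Cfsg.Agent.FGS.Ord8.R1
import Cfsg.Agent.FGS.Ord8.Bld6p
import Cfsg.Agent.FGS.Ord6C
import Cfsg.Agent.FGS.PrimSub

set_option autoImplicit false
set_option linter.unusedSectionVars false

namespace CL.Ord8

open Subgroup Cfsg CL.MSS CL.Ord6
open scoped commutatorElement

universe u

variable {G : Type*} [Group G] [Finite G]

variable {M Q : Subgroup G}

namespace B6

open Equiv

/-- `Ω₁Z(Q)` -/
def Yz (Q : Subgroup G) : Subgroup G where
  carrier := {y | y ∈ Q ∧ y * y = 1 ∧ ∀ q ∈ Q, y * q = q * y}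
  one_mem' := ⟨one_mem _, one_mul _, by simp⟩
  mul_mem' := fun {a b} ha hb => ⟨mul_mem ha.1 hb.1,
    by rw [mul_assoc, ← mul_assoc b, hb.2.2 a ha.1, mul_assoc, hb.2.1, mul_one, ha.2.1],
    fun q hq => by rw [mul_assoc, hb.2.2 q hq, ← mul_assoc, ha.2.2 q hq, mul_assoc]⟩
  inv_mem' := fun {a} ha => by rwa [inv_of_sq ha.2.1]

/-- a conjugacy class together with the identity -/
def Vz (M : Subgroup G) {z : G} (z2 : z * z = 1)
    (zz : ∀ n ∈ M, z * (n * z * n⁻¹) = 1 ∨ ∃ k ∈ M, z * (n * z * n⁻¹) = k * z * k⁻¹) : Subgroup G where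
  carrier := {v | v = 1 ∨ ∃ m ∈ M, v = m * z * m⁻¹}
  one_mem' := .inl rfl
  mul_mem' := by
    rintro a b (rfl | ⟨m, hm, rfl⟩) hb
    · rwa [one_mul]
    rcases hb with rfl | ⟨n, hn, rfl⟩
    · exact .inr ⟨m, hm, mul_one _⟩
    rw [show m * z * m⁻¹ * (n * z * n⁻¹) = m * (z * (m⁻¹ * n * z * (m⁻¹ * n)⁻¹)) * m⁻¹ by group]
    rcases zz _ (mul_mem (inv_mem hm) hn) with e | ⟨k, hk, e⟩ <;> rw [e]
    · exact .inl (by simp)
    · exact .inr ⟨m * k, mul_mem hm hk, by group⟩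
  inv_mem' := by
    rintro a (rfl | ⟨m, hm, rfl⟩)
    · exact .inl inv_one
    · exact .inr ⟨m, hm, by rw [conj_inv, inv_of_sq z2]⟩

def pre (π : M →* Sy 6) (D : Subgroup (Sy 6)) : Subgroup G := (D.comap π).map M.subtype

theorem mem_pre {π : M →* Sy 6} {D : Subgroup (Sy 6)} (m : M) : m.1 ∈ pre π D ↔ π m ∈ D :=
  mem_map_iff_mem M.subtype_injective

def D8 : Subgroup (Sy 6) := alternatingGroup (Fin 6) ⊓ (𝐜 (dd true) ⊓ 𝐜 (dd false))

theorem mem_D8 {g : Sy 6} : g ∈ D8 ↔ g ∈ TL :=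
  ⟨fun c => (fP true c.1 (mem_c.1 c.2.1)).2.2.2.2 (mem_c.1 c.2.2), fun c =>
    ⟨(fT.2.1 g c).1, mem_c.2 ((fT.2.1 g c).2.2 _), mem_c.2 ((fT.2.1 g c).2.2 _)⟩⟩

theorem card_D8 : ♯D8 = 8 :=
  (Nat.subtype_card TL.toFinset (by simp [mem_D8])).trans (List.toFinset_card_of_nodup fT.1)

theorem card_le (A : Subgroup G) (l : List G) (h : ∀ x ∈ A, x ∈ l) : ♯A ≤ l.length := by
  classical
  refine le_trans ?_ l.toFinset_card_le
  rw [← Set.ncard_coe_finset]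
  exact Set.ncard_le_ncard fun x hx => by simpa using h x hx

theorem k2_iff {b : Bool} {g h : Sy 6} : cj g (k2 b) = cj h (k2 b) ↔ g * dd b * g⁻¹ = h * dd b * h⁻¹ := by
  simp [cj, k2]

theorem rk {π : M →* Sy 6} (l : Loc M Q π) (ev : ∀ m, Perm.sign (π m) = 1) (A : Subgroup G) (hA : A ≤ M)
    (el : ∀ a ∈ A, a * a = 1) (c : A ⊓ Q = ⊥) : ♯A ≤ 4 := by
  let φ : A →* Sy 6 := π.comp (inclusion hA)
  have i : Function.Injective φ := (injective_iff_map_eq_one _).2 fun a e =>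
    Subtype.ext (c.le ⟨a.2, (l.ker _).1 e⟩)
  have p : ∀ l : List G, l.length ≤ 4 → ¬ ♯A ≤ 4 → ∃ x ∈ A, x ∉ l := fun l a b => by
    by_contra! d
    exact b ((card_le A l d).trans a)
  by_contra n
  obtain ⟨a, ha, a1⟩ := p [1] (by simp) n
  obtain ⟨b, hb, b1⟩ := p [1, a] (by simp) n
  obtain ⟨d, hd, d1⟩ := p [1, a, b, a * b] (by simp) n
  have s : ∀ x : A, φ x ^ 2 = 1 := fun x => by
    rw [← map_pow, pow_two, show x * x = 1 from Subtype.ext (el _ x.2), map_one]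
  have m : ∀ x y : A, φ x * φ y = φ y * φ x := fun x y => by
    rw [← map_mul, ← map_mul, show x * y = y * x from Subtype.ext (comm_sq el x.2 y.2)]
  have := fR (a := φ ⟨a, ha⟩) (b := φ ⟨b, hb⟩) (c := φ ⟨d, hd⟩) (ev _) (ev _) (ev _) (s _) (s _) (s _) (m _ _)
  simp only [← map_one φ, ← map_mul, Ne, i.eq_iff, Subtype.ext_iff, coe_mul, coe_one, comm_sq el ha hd,
    comm_sq el hb hd, forall_const] at this
  simp only [List.mem_cons, List.not_mem_nil, or_false, not_or] at a1 b1 d1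
  rcases this a1 b1.1 b1.2 with e | e | e | e
  exacts [d1.1 e, d1.2.1 e, d1.2.2.1 e, d1.2.2.2 e]

/-- the module generated by a suitable involution -/
theorem exists_md (h : H8 G) {π : M →* Sy 6} (l : Loc M Q π) (ev : ∀ m, Perm.sign (π m) = 1)
    (lift : ∀ g, Perm.sign g = 1 → ∃ m, π m = g)
    (five : ∀ m : M, π m ^ 5 = 1 → π m ≠ 1 → m.1 ^ 5 = 1 ∧ m.1 ≠ 1) (pT : IsPGroup 2 (pre π D8))
    (q : Q ≤ pre π D8) : ∃ b, ∃ κ : K6 → G, κ (k2 b) ≠ 1 ∧ (∀ j, κ j ∈ Yz Q) ∧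
      (∀ (m : M) j, m * κ j * m⁻¹ = κ (cj (π m) j)) ∧
      ∀ p ∈ WW b, κ (k2 b) * κ (cj p.1 (k2 b)) = κ (cj p.2 (k2 b)) := by
  have hM : M ≤ 𝐍 Q := l.nQ.ge
  have nY : M ≤ 𝐍 (Yz Q) := le_normalizer_of_cj_le fun m hm => cj_le_iff_forall.2 fun y hy =>
    ⟨conj_mem_of_normalizes hM hm hy.1, by rw [conj_mul, hy.2.1, mul_one, mul_inv_cancel], fun q hq => by
      have := hy.2.2 _ (conj_mem_of_normalizes' hM hm hq)
      calc _ = m * (y * (m⁻¹ * q * m)) * m⁻¹ := by group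
        _ = _ := by rw [this]; group⟩
  let _ : CommGroup (Yz Q) := { (inferInstance : Group (Yz Q)) with
    mul_comm := fun a b => Subtype.ext (a.2.2.2 b b.2.1) }
  let a : M →* MulAut (Yz Q) := (Yz Q).normalizerMonoidHom.comp (inclusion nY)
  have ac : Ac a π := ⟨fun y => Subtype.ext y.2.2.1, lift, ev, fun m c => by
      ext y
      exact mul_inv_eq_iff_eq_mul.2 (y.2.2.2 _ ((l.ker m).1 c)).symm,
    fun m c d y e => Subtype.ext (h.fpf2 (.inl rfl) (five m c d).1 (five m c d).2 l.pQ y.2.1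
      (mul_inv_eq_iff_eq_mul.1 (congrArg Subtype.val e)))⟩
  obtain ⟨w, hw⟩ := exists_prime_orderOf_dvd_card' (G := (Q ⊓ 𝐂 (pre π D8) : Subgroup G)) 2
    ((l.pQ.to_inf_left.card_eq_or_dvd).resolve_left
      (mt card_eq_one.1 (inf_centralizer_ne_bot pT l.pQ ((map_subtype_le _).trans hM) l.ne)))
  obtain ⟨b, κ, k1, k2, k3⟩ := ac.core (z := ⟨w, w.2.1, by
      rw [← coe_mul, ← pow_two, ← hw, pow_orderOf_eq_one, coe_one], fun x hx => (w.2.2 x (q hx)).symm⟩)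
    (fun e => by
      have e' : (w : G) = 1 := congrArg Subtype.val e
      rw [show w = 1 from Subtype.ext e'] at hw
      simp at hw)
    fun m c => Subtype.ext (mul_inv_eq_iff_eq_mul.2
      (w.2.2 m ((mem_pre m).2 ⟨ev m, mem_c.2 (c _), mem_c.2 (c _)⟩)))
  exact ⟨b, fun j => κ j, fun e => k1 (Subtype.ext e), fun j => (κ j).2, fun m j => congrArg Subtype.val (k2 m j),
    fun p hp => congrArg Subtype.val (k3 p hp)⟩

end B6

open B6 Equiv in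
/-- **`M / Q = A₆`.** PLAN. `Y = Ω₁Z(Q) ≠ 1` is an `F₂A₆`-module on which `N(f) = 1 + f + .. + f⁴` is `0` for all `f` of order `5`
(`H8.lift`, `H8.fpf2`). Let `T` be the preimage of `D₈ = ⟨(01)(23), (02)(13), (01)(45)⟩`, `1 ≠ z' ∈ C_Y(T)`, `x₁ = (012)`,
`x₂` an element of order `3` normalizing `⟨(01)(23), (01)(45)⟩`, e.g. `(024)(135)`. CERTIFICATE (permutation module on the
`45` cosets of `D₈`; find by linear algebra over `F₂`, check by `decide`): `N(x₁) z' = 0 = N(x₂) z'` implies `z' = 0`. So some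
`z = N(xᵢ) z' ≠ 1` is centralized by the preimage of `Pᵢ = ⟨D₈, xᵢ⟩ ≅ S₄`. An outer automorphism of `S₆`
(`SymIdx.exists_outer_six`, or the action on the six totals) swaps the two cases; or run the same argument on synthemes.
Case `i = 1`: `z_{ij}` for pairs (`z = z₄₅`). `N(f) = 0` gives: pentagons, hence `4`-cycles and triangles have product `1`,
`∏_i z_{i5} = 1`, hence `z₀₁ z₂₃ z₄₅ = 1`. `V = {1} ∪ {z_{ij}}` is a subgroup, of order `16` (`card5`), the `z_{ij}` are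
distinct, `M ⊓ 𝐜 z` is the preimage of `P₁`, `Q1` the preimage of `⟨(01)(23), (02)(13)⟩`, `x` a lift of `(012)` (`lift3`).
`nV` by `max`; `cV`, `sq` by simplicity of `A₆` (a normal subgroup of `M` above `Q` is `Q` or `M`; for `sq`: an element of
order `5` centralizes `Q / V`, but every `q` is `u⁻¹ · y u y⁻¹`); `r1` is `r1_five`; `ty`: `t²` centralizes `V`, an involution
of `A₆` inverts an element of order `5`, `nt`. `bd`: `b = z₀₁`, `d ↦ (02)(13)` or another element of the four-group. -/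
theorem cf6 (h : H8 G) {π : M →* Sy 6} (l : Loc M Q π) (r : π.range = alternatingGroup (Fin 6)) :
    ∃ V T Q1 z x, Cf M Q V T Q1 z x := by
  have hM : M ≤ 𝐍 Q := l.nQ.ge
  have QM : Q ≤ M := l.nQ ▸ le_normalizer
  have ev : ∀ m, Perm.sign (π m) = 1 := fun m => Perm.mem_alternatingGroup.1 (r.le ⟨m, rfl⟩)
  have lift : ∀ g, Perm.sign g = 1 → ∃ m, π m = g := fun g s => r.ge (Perm.mem_alternatingGroup.2 s)
  have five : ∀ m : M, π m ^ 5 = 1 → π m ≠ 1 → m.1 ^ 5 = 1 ∧ m.1 ≠ 1 := fun m a b =>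
    ⟨congrArg Subtype.val ((h.subgroup M).lift π (ord5 a b) le_rfl),
      fun e => b (by rw [show m = 1 from Subtype.ext e, map_one])⟩
  have big : ∀ t ∈ M, t ∉ Q → ∃ n ∈ M, (t * (n * t * n⁻¹)) ^ 5 = 1 ∧ t * (n * t * n⁻¹) ≠ 1 := fun t ht c => by
    obtain ⟨g, hg, a⟩ := (fG (ev ⟨t, ht⟩)).2 (mt (l.ker _).1 c)
    obtain ⟨n, rfl⟩ := lift g (fT.2.2 g hg)
    simp only [← map_inv, ← map_mul] at a
    exact ⟨n, n.2, five _ a.1 a.2⟩
  have lq : ∀ D, Q ≤ pre π D := fun D q hq => (mem_pre ⟨q, QM hq⟩).2 ((l.ker ⟨q, QM hq⟩).2 hq ▸ one_mem D)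
  have lm : ∀ D, pre π D ≤ M := fun D => map_subtype_le _
  have pT : IsPGroup 2 (pre π D8) := isPGroup_iff_forall_mem.2 fun t ht => ⟨5, by
    have := (fT.2.1 _ (mem_D8.1 ((mem_pre ⟨t, lm _ ht⟩).1 ht))).2.1
    rw [← map_pow, l.ker] at this
    rw [show 2 ^ 5 = 4 * 8 from rfl, pow_mul]
    exact h.p8 l.pQ this⟩
  obtain ⟨b, κ, z1, kY, act, mul⟩ := exists_md h l ev lift five pT (lq _)
  obtain ⟨⟨x3, x1, xs, xd⟩, ⟨u1, u2, u3⟩, s3, ⟨s4, s5, s6, s7⟩, s8, s9, t0, ht0, t1⟩ := fS b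
  generalize hk : k2 b = k at *
  have ki : ∀ {g h : Sy 6}, cj g k = cj h k ↔ g * dd b * g⁻¹ = h * dd b * h⁻¹ := hk ▸ k2_iff
  have sq : ∀ j, κ j * κ j = 1 := fun j => (kY j).2.1
  have inj : ∀ m : M, m.1 * κ k = κ k * m ↔ π m * dd b = dd b * π m := fun m => by
    rw [← mul_inv_eq_iff_eq_mul, ← mul_inv_eq_iff_eq_mul, ← coe_inv, act]
    refine ⟨fun e => (((fG (ev m)).1 b).resolve_right ?_), fun e => by
      rw [ki.2 (e.trans (by simp : _ = 1 * dd b * 1⁻¹)), B6.cj_one]⟩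
    rintro ⟨p, hp, c⟩
    obtain ⟨n, hn⟩ := lift _ (s9 p hp).2
    have := mul p hp
    rw [← ki.2 c, e, sq, ← hn, ← act] at this
    exact z1 (by simpa using this.symm)
  have inj2 : ∀ {g g'}, Perm.sign g = 1 → Perm.sign g' = 1 → κ (cj g' k) = κ (cj g k) → cj g' k = cj g k :=
    fun {g g'} c d e => by
      obtain ⟨m, rfl⟩ := lift g c
      obtain ⟨n, rfl⟩ := lift g' d
      rw [← act, ← act] at e
      have := (inj (m⁻¹ * n)).1 (by
        calc _ = (m : G)⁻¹ * (n * κ k * (n⁻¹ : M)) * n := by simp [mul_assoc]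
          _ = _ := by rw [e]; simp [mul_assoc])
      rw [map_mul, map_inv] at this
      refine ki.2 ?_
      calc _ = π m * ((π m)⁻¹ * π n * dd b) * (π n)⁻¹ := by group
        _ = _ := by rw [this]; group
  have th : ∀ {g s t}, Perm.sign g = 1 → Th b g s t → κ (cj g k) * κ (cj s k) = κ (cj t k) := by
    rintro g s t c ⟨p, hp, d, e⟩
    obtain ⟨m, rfl⟩ := lift g c
    rw [hk] at d e
    rw [d, e, B6.cj_mul, B6.cj_mul, ← act, ← act, ← act m, ← mul p hp, coe_inv, conj_mul]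
  have zz : ∀ n ∈ M, κ k * (n * κ k * n⁻¹) = 1 ∨ ∃ m ∈ M, κ k * (n * κ k * n⁻¹) = m * κ k * m⁻¹ := fun n hn => by
    rw [show n * κ k * n⁻¹ = _ from act ⟨n, hn⟩ k]
    refine ((fG (ev ⟨n, hn⟩)).1 b).imp (fun e => ?_) fun ⟨p, hp, c⟩ => ?_
    · rw [ki.2 (e.trans (by simp : _ = 1 * dd b * 1⁻¹)), B6.cj_one, sq]
    · obtain ⟨m, hm⟩ := lift _ (s9 p hp).2
      exact ⟨m, m.2, by rw [ki.2 c, mul p hp, ← hm, ← act]; rfl⟩
  obtain ⟨V, mV⟩ : ∃ V : Subgroup G, ∀ v, v ∈ V ↔ v = 1 ∨ ∃ m ∈ M, v = m * κ k * m⁻¹ :=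
    ⟨Vz M (sq k) zz, fun _ => Iff.rfl⟩
  have kV : ∀ {g}, Perm.sign g = 1 → κ (cj g k) ∈ V := fun c => by
    obtain ⟨m, rfl⟩ := lift _ c
    exact (mV _).2 (.inr ⟨m, m.2, (act m k).symm⟩)
  have zV : κ k ∈ V := (mV _).2 (.inr ⟨1, one_mem _, by simp⟩)
  have VY : V ≤ Yz Q := fun v hv => by
    rcases (mV v).1 hv with rfl | ⟨m, hm, rfl⟩
    exacts [one_mem _, act ⟨m, hm⟩ k ▸ kY _]
  have pV : IsPGroup 2 V := l.pQ.to_le fun v hv => (VY hv).1
  have V0 : V ≠ ⊥ := fun e => z1 (e.le zV)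
  have nV : 𝐍 V = M := l.max V pV V0 (le_normalizer_of_cj_le fun m hm => cj_le_iff_forall.2 fun v hv => by
    rcases (mV v).1 hv with rfl | ⟨n, hn, rfl⟩
    · simp
    · exact (mV _).2 (.inr ⟨m * n, mul_mem hm hn, by group⟩))
  obtain ⟨x', hx'⟩ := lift _ xs
  obtain ⟨x, x3', hx⟩ : ∃ x : M, x ^ 3 = 1 ∧ π x = xx b :=
    ⟨_, hx' ▸ (h.subgroup M).lift3 π (hx' ▸ x3) (hx' ▸ x1)⟩
  obtain ⟨y, hy, y5, y1⟩ : ∃ y ∈ M, y ^ 5 = 1 ∧ y ≠ 1 := by
    obtain ⟨n, hn, c⟩ := big x x.2 (mt (l.ker x).2 (hx ▸ x1))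
    exact ⟨_, mul_mem x.2 (mul_mem (mul_mem hn x.2) (inv_mem hn)), c⟩
  have cV : ♯V = 16 := by
    obtain ⟨m, hm⟩ := card5 h pV (nV.ge hy) y5 y1
    have := card_le V (1 :: κ k :: (WW b).map fun p => κ (cj p.1 k)) fun v hv => by
      rcases (mV v).1 hv with rfl | ⟨n, hn, rfl⟩
      · simp
      rw [show n * κ k * n⁻¹ = _ from act ⟨n, hn⟩ k]
      rcases (fG (ev ⟨n, hn⟩)).1 b with e | ⟨p, hp, c⟩
      · rw [ki.2 (e.trans (by simp : _ = 1 * dd b * 1⁻¹)), B6.cj_one]; simp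
      · exact .tail _ (.tail _ (List.mem_map.2 ⟨p, hp, by rw [ki.2 c]⟩))
    rw [List.length_cons, List.length_cons, List.length_map, s8, hm] at this
    rcases m with _ | _ | m
    · exact absurd (card_eq_one.1 hm) V0
    · exact hm
    · rw [pow_succ, pow_succ] at this
      have := Nat.pow_pos (n := m) (show 0 < 16 by norm_num)
      omega
  have nt : ∀ t ∈ M, ∀ N : Subgroup G, N ≤ V → ♯V ≤ 2 * ♯N → (∀ n ∈ N, t * n = n * t) → t ∈ Q := fun t ht N a c d => by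
    by_contra e
    obtain ⟨n, hn, f5, f1⟩ := big t ht e
    have := PrimSub.card_mul_card_le a (cj_le_of_mem_normalizer a (nV.ge hn))
    rw [show N ⊓ n •ᶜ N = ⊥ from eq_bot_iff.2 fun w hw => h.fpf2 (.inl rfl) f5 f1 pV (a hw.1) (by
      have := d _ (mem_cj.1 hw.2)
      calc _ = t * (n * (t * (n⁻¹ * w * n)) * n⁻¹) := by group
        _ = t * w * (n * t * n⁻¹) := by rw [this]; group
        _ = _ := by rw [d w hw.1, mul_assoc]), card_bot, card_cj, cV] at this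
    nlinarith
  have cm : ∀ g (m : M), ⁅κ (cj g k), m.1⁆ = κ (cj g k) * κ (cj (π m * g) k) := fun g m => by
    rw [B6.cj_mul, ← act, commutatorElement_def, inv_of_sq (sq _)]
    simp [mul_assoc]
  have mQ : ∀ m : M, m.1 ∈ pre π (v4 uu (uv b) u1 u2 u3) ↔ V4 b (π m) := mem_pre
  have mL : ∀ {g}, V4 b g → g ∈ [1, uu, uv b, uu * uv b] := fun c => by simpa [V4] using c
  have sg : ∀ g ∈ [g1 b, xx b * g1 b], Perm.sign g = 1 := by simp [s5, xs]
  have cq : ∀ g ∈ [g1 b, xx b * g1 b], ∀ q ∈ pre π (v4 uu (uv b) u1 u2 u3), ⁅κ (cj g k), q⁆ ∈ zpowers (κ k) :=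
    fun g hg q hq => by
      rw [cm g ⟨q, lm _ hq⟩]
      rcases (s3 _ (mL ((mQ ⟨q, lm _ hq⟩).1 hq))).2.1 g hg with e | e
      · rw [e, sq]; exact one_mem _
      · rw [th (sg g hg) e, B6.cj_one]; exact mem_zpowers _
  have xz : x.1 * κ k = κ k * x := (inj x).2 (hx ▸ xd)
  refine ⟨V, pre π D8, pre π (v4 uu (uv b) u1 u2 u3), κ k, x, l.pQ, l.nQ, l.max,
    sylIn_of_not_dvd_relIndex pT (lm _) ?_, ?_, fun v hv => (VY hv).2.1, nV, le_antisymm
      (fun t ht => nt t (nV.le (centralizer_le_normalizer _ ht)) V le_rfl (by omega) fun n hn => (ht n hn).symm)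
      fun q hq v hv => (VY hv).2.2 q hq, zV, z1, fun a ha a1 => ((mV a).1 ha).resolve_left a1,
    fun t ht => mem_c.2 ((inj ⟨t, lm _ ht⟩).2 ((fT.2.1 _ (mem_D8.1 ((mem_pre ⟨t, lm _ ht⟩).1 ht))).2.2 b)),
    congrArg Subtype.val x3', fun e => x1 (by rw [← hx, show x = 1 from Subtype.ext e, map_one]), x.2, xz, lq _,
    fun q hq => (mem_pre ⟨q, lm _ hq⟩).2 (mem_D8.2 (s3 _ (mL ((mQ ⟨q, lm _ hq⟩).1 hq))).1), fun c => ?_,
    fun g hg => mem_normalizer_of_cj_le (cj_le_iff_forall.2 fun q hq => ?_), fun D pD a c g hg => ?_, ?_,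
    fun t ht c => ?_, fun a ha c => r1_five h l.pQ (hM hy) y5 y1 (kY k).1 (sq k) (kY k).2.2 ha c,
    fun t ht c d q hq => ?_, rk l ev, .inr ⟨cV, nt⟩⟩
  · have := card_mul_relIndex_of_le (show D8 ≤ _ from inf_le_left)
    rw [card_D8, nat_card_alternatingGroup, Nat.card_eq_fintype_card, Fintype.card_fin] at this
    rw [relIndex, subgroupOf, pre, comap_map_eq_self_of_injective M.subtype_injective, index_comap, r]
    norm_num [Nat.factorial] at this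
    omega
  · have : Q = π.ker.map M.subtype := by
      ext a
      exact ⟨fun c => ⟨⟨a, QM c⟩, (l.ker _).2 c, rfl⟩, by rintro ⟨a, c, rfl⟩; exact (l.ker a).1 c⟩
    rw [← card_mul_relIndex_of_le (lq D8), mul_comm]
    congr 1
    conv_lhs => rw [this]
    rw [pre, relIndex_map_map_of_injective _ _ M.subtype_injective, relIndex_ker,
      map_comap_eq_self (r ▸ inf_le_left), card_D8]
  · obtain ⟨t, rfl⟩ := lift t0 (fT.2.1 _ ht0).1
    exact t1 ((mQ t).1 (c ((mem_pre t).2 (mem_D8.2 ht0))))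
  · obtain ⟨-, a, c, -⟩ := fP b (ev ⟨g, hg.1⟩) ((inj _).1 (mem_c.1 hg.2))
    refine (mem_pre (⟨g, hg.1⟩ * ⟨q, lm _ hq⟩ * ⟨g, hg.1⟩⁻¹)).2 ?_
    rw [map_mul, map_mul, map_inv]
    rcases (mQ ⟨q, lm _ hq⟩).1 hq with e | e | e | e <;> rw [e]
    · simp
    · exact a
    · exact c
    · rw [← conj_mul]; exact mul_mem a c
  · refine (mQ ⟨g, (a hg).1⟩).2 ((fP b (ev _) ((inj _).1 (mem_c.1 (a hg).2))).2.2.2.1 ?_ ?_)
    · rw [← map_pow, show (⟨g, (a hg).1⟩ : M) ^ 8 = 1 from Subtype.ext (h.p8 pD hg), map_one]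
    · rw [← hx, ← map_inv, ← map_mul, ← map_mul, ← map_mul, ← map_pow,
        show (⟨g, (a hg).1⟩ * (x * ⟨g, (a hg).1⟩ * x⁻¹) : M) ^ 8 = 1 from Subtype.ext
          (h.p8 pD (mul_mem hg (conj_mem_of_normalizes c ⟨x.2, mem_c.2 xz⟩ hg))), map_one]
  · obtain ⟨d, hd⟩ := lift _ (fT.2.1 _ (s3 (uu * uv b) (by simp)).1).1
    have e : ⁅κ (cj (g0 b) k), x.1⁆ = κ (cj (g1 b) k) := by rw [cm, hx, th s4 s6]
    refine ⟨_, kV s4, d, (mQ d).2 (hd ▸ .inr (.inr (.inr rfl))), e ▸ cq _ (by simp), fun c => s7 ?_⟩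
    rw [e, show ⁅d.1, x.1⁆ = (d * x * d⁻¹ * x⁻¹ : M) from rfl, cm, mul_eq_one_iff_inv_eq, inv_of_sq (sq _)] at c
    have := inj2 s5 (by simp [ev, s5]) c.symm
    simpa only [map_mul, map_inv, hd, hx] using this
  · rcases (s3 _ (mL ((mQ ⟨t, lm _ ht⟩).1 ht))).2.2 with e | ⟨g, hg, e⟩
    · exact (l.ker _).1 e
    · refine absurd (inj2 (sg g hg) (by simp [ev, sg g hg]) ?_) e
      rw [B6.cj_mul, ← act]
      exact mul_inv_eq_iff_eq_mul.2 (c _ (kV (sg g hg)) (cq g hg)).symm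
  · obtain ⟨n, hn, f5, f1⟩ := big t ht c
    obtain ⟨u, hu, rfl⟩ := surj_comm (fun q hq => conj_mem_of_normalizes hM
      (mul_mem ht (mul_mem (mul_mem hn ht) (inv_mem hn))) hq) (fun q hq e => h.fpf2 (.inl rfl) f5 f1 l.pQ hq e) hq
    have := mul_mem (d _ (inv_mem hu)) (conj_mem_of_normalizes nV.ge (mul_mem ht hn)
      (d _ (conj_mem_of_normalizes' hM hn (inv_mem hu))))
    convert this using 1
    simp only [commutatorElement_def]
    group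

end CL.Ord8
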