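import Cfsg.Agent.FGS.Ord8.Sol4

set_option autoImplicit false
set_option linter.unusedSectionVars false

namespace CL.Ord8

open Subgroup Cfsg CL.MSS CL.Ord6
open scoped commutatorElement

universe u

variable {G : Type*} [Group G] [Finite G]

variable {M Q V T Q1 : Subgroup G} {z x : G}

namespace CfA

theorem idx2 {V N : Subgroup G} (hN : N ≤ V) (h : ∀ a ∈ V, a ∉ N → ∀ b ∈ V, b ∉ N → a⁻¹ * b ∈ N) : ♯V ≤ 2 * ♯N := by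
  classical
  rw [← index_mul_card (N.subgroupOf V), Nat.card_congr (subgroupOfEquivOfLe hN).toEquiv]
  refine Nat.mul_le_mul_right _ ?_
  have := Nat.card_le_card_of_injective (fun q : V ⧸ N.subgroupOf V => decide (q = ((1 : V) : V ⧸ N.subgroupOf V)))
    fun p q e => by
      obtain ⟨a, rfl⟩ := QuotientGroup.mk_surjective p
      obtain ⟨b, rfl⟩ := QuotientGroup.mk_surjective q
      simp only [decide_eq_decide, QuotientGroup.eq, mul_one, inv_mem_iff, mem_subgroupOf] at e ⊢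
      by_cases c : a.1 ∈ N
      · exact mul_mem (inv_mem c) (e.1 c)
      · exact h a a.2 c b b.2 fun c' => c (e.2 c')
  simpa [index] using this

theorem cm_cj (g a b : G) : ⁅g * a * g⁻¹, b⁆ = g * ⁅a, g⁻¹ * b * g⁆ * g⁻¹ := by
  simp only [commutatorElement_def]; group

end CfA
open CfA

/-- **Step 1.** PROOF. `H = 𝐜 z` has `Ch` (`C2.cen`), `N57` (`H8.n57`); `O = 𝐎 H`, `O ⊓ M ≤ Q1` by `o2`.
(a) `O ≤ M`. With `b, d` from `bd`, `⁅b, x⁆, ⁅d, x⁆ ∈ O` by `tc` (`D = Q1`). If `E9 H e f`, `lemE` makes `⁅b, x⁆` central in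
`O`, contradiction. So `|H| ∣ 6 |O|` (`sm`); `O ≤ Q1 < T ≤ M ⊓ H` and `x ∈ M ⊓ H` give `6 |O| ∣ |M ⊓ H|`-type bound
`|M ⊓ H| ≥ 3 |T| ≥ 6 |O|`, so `H ≤ M`.
(b) `¬ O ≤ M`. `O ⊔ Q1` is a `2`-group `> Q1`, so some `g ∈ O - Q1` normalizes `Q1`; `g ∉ M`, `g z = z g`. For `b ∈ V` with
`⁅b, Q1⁆ ≤ ⟨z⟩`, `b' = g b g⁻¹ ∈ Q1` has `⁅b', Q1⁆ ≤ ⟨z⟩`. If some `b' ∉ Q`, `sq` gives `Q ≤ V`, so `Q = V`; `|V| = 16` is
impossible by `ty` (`N = C_V(b')`, kernel of `V → ⟨z⟩`). Otherwise all `b'` are central in `Q` (`r1`), so for `q ∈ Q`,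
`g⁻¹ q g ∈ Q1` commutes with all `b` and lies in `Q` (`v1`): `g ∈ 𝐍 Q = M`, contradiction. -/
theorem Cf.cz (h : H8 G) (c2 : C2 G) (k : Cf M Q V T Q1 z x) : 𝐜 z ≤ M ∨ (Q = V ∧ ♯V = 8) := by
  have z2 := k.el z k.zV
  have ch := c2.cen z2 k.z1
  have n := h.n57 z2 k.z1
  have pO : IsPGroup 2 (𝐎 (𝐜 z)) := oP_isPGroup _
  have p1 : IsPGroup 2 Q1 := k.syl.pgroup.to_le k.q2
  have QH : Q1 ≤ 𝐜 z := k.q2.trans k.zT
  have VQ : V ≤ Q := k.cV ▸ fun a ha b hb => comm_sq k.el hb ha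
  have OM : 𝐎 (𝐜 z) ⊓ M ≤ Q1 := k.o2 _ (pO.to_le inf_le_left) (le_inf inf_le_right (inf_le_left.trans (oP_le _)))
    (CL.MSS.le_normalizer_inf (inf_le_right.trans (oP_normal _)) (inf_le_left.trans le_normalizer))
  have xH : x ∈ 𝐜 z := mem_c.2 k.xz
  by_cases c : 𝐎 (𝐜 z) ≤ M
  · have OQ : 𝐎 (𝐜 z) ≤ Q1 := (le_inf le_rfl c).trans OM
    obtain ⟨b, hb, d, hd, e1, e2⟩ := k.bd
    have t : ∀ {u}, u ∈ Q1 → ⁅u, x⁆ ∈ 𝐎 (𝐜 z) := fun hu => tc h ch n QH p1 xH k.x3 (k.nQ1 ⟨k.xM, xH⟩) hu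
    have d6 := sm h ch n fun e f E => e2 (commutatorElement_eq_one_iff_mul_comm.2 (lemE h ch E (mem_c.2 rfl) z2
      (mem_c.1 E.he).symm (mem_c.1 E.hf).symm (t (k.q1 (VQ hb))) (fun q hq => e1 q (OQ hq)) _ (t hd)))
    have d1 : ♯T ∣ ♯(M ⊓ 𝐜 z) := card_dvd_of_le (le_inf k.syl.le k.zT)
    have d2 : 3 ∣ ♯(M ⊓ 𝐜 z) := ord3 k.x3 k.x1 ▸ (M ⊓ 𝐜 z).orderOf_dvd_natCard ⟨k.xM, xH⟩
    obtain ⟨a, ha⟩ := k.syl.pgroup.exists_card_eq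
    have d3 := Nat.le_of_dvd Nat.card_pos (Nat.Coprime.mul_dvd_of_dvd_of_dvd
      (ha ▸ Nat.Coprime.pow_right a (by norm_num)) d2 d1)
    obtain ⟨m, hm⟩ : ♯(𝐎 (𝐜 z)) ∣ ♯T := card_dvd_of_le (OQ.trans k.q2)
    have d4 : 2 * ♯(𝐎 (𝐜 z)) ≤ ♯T := by
      have : ♯(𝐎 (𝐜 z)) < ♯T := lt_of_le_of_ne (card_le_of_le (OQ.trans k.q2)) fun e =>
        k.q3 ((eq_of_le_of_card_ge (OQ.trans k.q2) e.ge).ge.trans OQ)
      rcases m with _ | _ | m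
      · have := Nat.card_pos (α := T); omega
      · omega
      · nlinarith
    have d5 := Nat.le_of_dvd (Nat.mul_pos (by norm_num) Nat.card_pos) d6
    exact .inl ((eq_of_le_of_card_ge (inf_le_right : M ⊓ 𝐜 z ≤ _) (by omega)).ge.trans inf_le_left)
  have nO : Q1 ≤ 𝐍 (𝐎 (𝐜 z)) := QH.trans (oP_normal _)
  obtain ⟨g', ⟨h1, h2⟩, h3⟩ := SetLike.exists_of_lt (lt_inf_normalizer_of_lt (isPGroup_sup_of_normalizes' pO p1 nO)
    (lt_of_le_not_ge le_sup_right fun e => c (le_sup_left.trans (e.trans (k.q2.trans k.syl.le)))))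
  obtain ⟨g, hg, q0, hq0, rfl⟩ := (mem_sup_of_normalizes_left nO).1 h1
  have gn : zpowers g ≤ 𝐍 Q1 := zpowers_le.2 (by simpa using (𝐍 Q1).mul_mem h2 ((𝐍 Q1).inv_mem (le_normalizer hq0)))
  have gM : g ∉ M := fun e => h3 (mul_mem (OM ⟨hg, e⟩) hq0)
  have gz : g * z * g⁻¹ = z := mul_inv_eq_iff_eq_mul.2 (mem_c.1 (oP_le _ hg))
  have k1 : ∀ b ∈ V, (∀ q ∈ Q1, ⁅b, q⁆ ∈ zpowers z) → ∀ q ∈ Q1, ⁅g * b * g⁻¹, q⁆ ∈ zpowers z := fun b _ e q hq => by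
    rw [cm_cj, ← gz, ← cj_zpowers]
    exact conj_mem_cj (e _ (conj_mem_of_normalizes' gn (mem_zpowers g) hq))
  by_cases c' : ∀ b ∈ V, (∀ q ∈ Q1, ⁅b, q⁆ ∈ zpowers z) → g * b * g⁻¹ ∈ Q
  · refine absurd (k.nQ ▸ inv_mem_iff.1 (mem_normalizer_of_cj_le (cj_le_iff_forall.2 fun q hq => ?_))) gM
    rw [inv_inv]
    refine k.v1 _ (conj_mem_of_normalizes' gn (mem_zpowers g) (k.q1 hq)) fun b hb e => ?_
    have := k.r1 _ (c' b hb e) (fun q hq => k1 b hb e q (k.q1 hq)) q hq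
    calc _ = g⁻¹ * (g * b * g⁻¹ * q) * g := by group
      _ = _ := by rw [this]; group
  push Not at c'
  obtain ⟨b, hb, e, hn⟩ := c'
  have bM := k.syl.le (k.q2 (conj_mem_of_normalizes gn (mem_zpowers g) (k.q1 (VQ hb))))
  have e' := k1 b hb e
  generalize g * b * g⁻¹ = t at *
  refine .inr ⟨le_antisymm (k.sq t bM hn fun q hq => ?_) VQ, k.ty.resolve_right fun c => hn
    (c.2 t bM (V ⊓ 𝐜 t) inf_le_left (idx2 inf_le_left fun u hu nu v hv nv => ?_) fun n hn => (mem_c.1 hn.2).symm)⟩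
  · rw [← commutatorElement_inv]
    exact inv_mem (zpowers_le.2 k.zV (e' q (k.q1 hq)))
  · have k2 : ∀ u ∈ V, u ∉ V ⊓ 𝐜 t → t * u * t⁻¹ = z * u := fun u hu nu =>
      mul_inv_eq_iff_eq_mul.1 ((Sol1.zp2 z2 (e' u (k.q1 (VQ hu)))).resolve_left fun e =>
        nu ⟨hu, mem_c.2 (commutatorElement_eq_one_iff_mul_comm.1 e).symm⟩)
    refine ⟨V.mul_mem (V.inv_mem hu) hv, mem_c.2 (mul_inv_eq_iff_eq_mul.1 ?_).symm⟩
    calc _ = (t * u * t⁻¹)⁻¹ * (t * v * t⁻¹) := by group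
      _ = _ := by rw [k2 u hu nu, k2 v hv nv]; group

end CL.Ord8
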