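import Cfsg.Agent.FGS.Ord8.Defs

set_option autoImplicit false
set_option linter.unusedSectionVars false

namespace CL.Ord8

open Subgroup Cfsg CL.MSS CL.Ord6
open scoped commutatorElement

universe u

variable {G : Type*} [Group G] [Finite G]

variable {M Q V T Q1 : Subgroup G} {z x : G}

namespace CfB

/-- the weak closure of `V` in `Y` -/
def Wc (V Y : Subgroup G) : Subgroup G := ⨆ (g : G) (_ : g •ᶜ V ≤ Y), g •ᶜ V

theorem Wc_le (V Y : Subgroup G) : Wc V Y ≤ Y := iSup₂_le fun _ h => h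

theorem le_Wc {V Y : Subgroup G} {g : G} (h : g •ᶜ V ≤ Y) : g •ᶜ V ≤ Wc V Y := le_iSup₂_of_le g h le_rfl

theorem norm_Wc (V Y : Subgroup G) : 𝐍 Y ≤ 𝐍 (Wc V Y) := by
  refine le_normalizer_of_cj_le fun n hn => ?_
  rw [cj_le_iff]
  refine iSup₂_le fun g h => ?_
  rw [← cj_le_iff, ← cj_mul]
  refine le_Wc ?_
  rw [cj_mul]
  exact cj_le_of_mem_normalizer h hn

theorem Wc_eq {V Y Y' : Subgroup G} (h : ∀ g : G, g •ᶜ V ≤ Y ↔ g •ᶜ V ≤ Y') : Wc V Y = Wc V Y' :=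
  le_antisymm (iSup₂_le fun g c => le_Wc ((h g).1 c)) (iSup₂_le fun g c => le_Wc ((h g).2 c))

end CfB

open CfB

theorem TI.cj {V : Subgroup G} (h : TI V) (g : G) : TI (g •ᶜ V) := by
  refine ⟨?_, fun n a ha a1 c => ?_⟩
  · rintro _ ⟨v, hv, rfl⟩
    show g * v * g⁻¹ * (g * v * g⁻¹) = 1
    rw [show g * v * g⁻¹ * (g * v * g⁻¹) = g * (v * v) * g⁻¹ by group, h.el v hv]
    group
  · rw [← cj_normalizer, mem_cj]
    rw [mem_cj] at ha c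
    refine h.ti _ _ ha (fun e => a1 ?_) ?_
    · have := congrArg (fun y => g * y * g⁻¹) e
      simpa [mul_assoc] using this
    · convert c using 1
      group

theorem TI.cen {V : Subgroup G} (h : TI V) {a : G} (ha : a ∈ V) (a1 : a ≠ 1) : 𝐜 a ≤ 𝐍 V := by
  intro c hc
  refine h.ti c a ha a1 ?_
  rw [mem_c.1 hc, mul_inv_cancel_right]
  exact ha

namespace Cf

theorem le (k : Cf M Q V T Q1 z x) : V ≤ Q := by
  intro v hv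
  rw [← k.cV]
  exact mem_centralizer_iff.2 fun w hw => comm_sq k.el hw hv

/-- PROOF. `a = m z m⁻¹`, `g a g⁻¹ = m' z m'⁻¹` (`tr`), so `m'⁻¹ g m ∈ 𝐜 z ≤ M`. -/
theorem ti (k : Cf M Q V T Q1 z x) (hz : 𝐜 z ≤ M) : TI V := by
  refine ⟨k.el, fun g a ha a1 c => ?_⟩
  obtain ⟨m, hm, e⟩ := k.tr a ha a1
  obtain ⟨m', hm', e'⟩ := k.tr _ c (fun e => a1 (by
    have := congrArg (fun y => g⁻¹ * y * g) e
    simpa [mul_assoc] using this))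
  have : m'⁻¹ * g * m ∈ M := hz (mem_c.2 (by
    calc m'⁻¹ * g * m * z = m'⁻¹ * (g * (m * z * m⁻¹) * g⁻¹) * (g * m) := by group
      _ = z * (m'⁻¹ * g * m) := by rw [← e, e']; group))
  rw [k.nV]
  exact (M.mul_mem_cancel_left (inv_mem hm')).1 ((M.mul_mem_cancel_right hm).1 this)

/-- PROOF. `V' = g V g⁻¹` meets `Q` (`rk`, `|V| ≥ 8`) in some `a ≠ 1`, so `V ≤ 𝐜 a ≤ 𝐍 V'` and `⁅V, V'⁆ ≤ V ⊓ V'`, which is
trivial unless `V' = V`. -/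
theorem wq (k : Cf M Q V T Q1 z x) (hz : 𝐜 z ≤ M) {g : G} (c : g •ᶜ V ≤ M) : g •ᶜ V ≤ Q := by
  have t := k.ti hz
  have t' := t.cj g
  have ne : g •ᶜ V ⊓ Q ≠ ⊥ := fun e => by
    have := k.rk _ c t'.el e
    rw [card_cj] at this
    rcases k.ty with e | ⟨e, -⟩ <;> omega
  obtain ⟨⟨a, ha, aQ⟩, a1⟩ := ne_bot_iff_exists_ne_one.1 ne
  have a1' : a ≠ 1 := fun e => a1 (Subtype.ext e)
  have n1 : V ≤ 𝐍 (g •ᶜ V) := fun v hv => t'.cen ha a1' (mem_c.2 (by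
    rw [← k.cV] at aQ
    exact mem_centralizer_iff.1 aQ v hv))
  have n2 : g •ᶜ V ≤ 𝐍 V := k.nV ▸ c
  by_cases gn : g ∈ 𝐍 V
  · rw [cj_eq_of_mem_normalizer gn]
    exact k.le
  intro w hw
  rw [← k.cV]
  refine mem_centralizer_iff.2 fun v hv => ?_
  by_contra nc
  have m1 : v * w * v⁻¹ * w⁻¹ ∈ g •ᶜ V := mul_mem (conj_mem_of_normalizes n1 hv hw) (inv_mem hw)
  have m2 : v * w * v⁻¹ * w⁻¹ ∈ V := by
    rw [show v * w * v⁻¹ * w⁻¹ = v * (w * v⁻¹ * w⁻¹) by group]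
    exact mul_mem hv (conj_mem_of_normalizes n2 hw (inv_mem hv))
  refine gn (t.ti g _ (mem_cj.1 m1) (fun e => nc ?_) (by simpa [mul_assoc] using m2))
  have := congrArg (fun y => g * y * g⁻¹ * w * v) e
  simpa [mul_assoc] using this

/-- PROOF. `W = ⨆ {g V g⁻¹ ≤ T} = ⨆ {g V g⁻¹ ≤ Q} = ⨆ {g V g⁻¹ ≤ X}` is a non-trivial `2`-group normalized by `M = 𝐍 Q` and by
`𝐍 X`; `𝐍 W = M` by `max`. -/
theorem wk (k : Cf M Q V T Q1 z x) (hz : 𝐜 z ≤ M) {X : Subgroup G} (hX : X ≤ T)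
    (c : ∀ g : G, g •ᶜ V ≤ T → g •ᶜ V ≤ X) : 𝐍 X ≤ M := by
  have qT : Q ≤ T := k.q1.trans k.q2
  have e : Wc V Q = Wc V X := Wc_eq fun g =>
    ⟨fun a => c g (a.trans qT), fun a => k.wq hz ((a.trans hX).trans k.syl.le)⟩
  have ne : Wc V Q ≠ ⊥ := fun b => by
    have : V ≤ Wc V Q := by
      have := le_Wc (V := V) (Y := Q) (g := 1) (by rw [cj_one]; exact k.le)
      rwa [cj_one] at this
    exact k.z1 (mem_bot.1 (b ▸ this k.zV))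
  have := k.max _ (k.pQ.to_le (Wc_le V Q)) ne (k.nQ ▸ norm_Wc V Q)
  rw [← this, e]
  exact norm_Wc V X

/-- PROOF. `𝐍 T ≤ M` by `wk`. -/
theorem top (k : Cf M Q V T Q1 z x) (hz : 𝐜 z ≤ M) : SylIn 2 T ⊤ := by
  have := Fact.mk Nat.prime_two
  exact k.syl.of_normalizer_le le_top (inf_le_right.trans (k.wk hz le_rfl fun _ h => h))

/-- **Minimal choice.** PROOF. Take `H` minimal with `T ≤ H ≤ H0`, `¬ H ≤ M`. `𝐎 H0 ≤ T` (`top`, `oP_le_sylIn`), so `Ch H`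
(`Ch.of_le`). `z ∈ Z = Z(𝐎 H)` (`z ∈ T` centralizes `𝐎 H ≤ T`). `K = H ⊓ 𝐂 Z ≤ 𝐜 z ≤ M` is normal in `H`, `T₀ = T ⊓ K` is
Sylow in `K`, and Frattini gives `H = K (H ⊓ 𝐍 T₀)`; `T ≤ H ⊓ 𝐍 T₀`, which is not in `M`, so equals `H`: `T₀ ≤ 𝐎 H`. -/
theorem exists_mn (k : Cf M Q V T Q1 z x) (hz : 𝐜 z ≤ M) {H0 : Subgroup G} (hT : T ≤ H0) (ch : Ch H0)
    (sol : Group.IsSolvable H0) (n : ¬ H0 ≤ M) : ∃ H, Mn T H ∧ ¬ H ≤ M := by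
  have := Fact.mk Nat.prime_two
  obtain ⟨H, ⟨tH, hH, nH⟩, mn⟩ := exists_minimal_of_wellFoundedLT (fun H : Subgroup G => T ≤ H ∧ H ≤ H0 ∧ ¬ H ≤ M)
    ⟨H0, hT, le_rfl, n⟩
  have sy := k.top hz
  have sH : SylIn 2 T H := sy.of_le tH le_top
  have cH : Ch H := ch.of_le hH ((oP_le_sylIn (sy.of_le hT le_top)).trans tH)
  refine ⟨H, ⟨tH, cH, haveI := sol; Group.isSolvable_of_isSolvable_injective (f := inclusion hH) (inclusion_injective hH), ?_⟩, nH⟩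
  intro t ht hc
  have oT : 𝐎 H ≤ T := oP_le_sylIn sH
  have zT : z ∈ T := k.q2 (k.q1 (k.le k.zV))
  have zc : z ∈ 𝐂 (𝐎 H) := mem_centralizer_iff.2 fun q hq => mem_c.1 (k.zT (oT hq))
  have zZ : z ∈ 𝐎 H ⊓ 𝐂 (𝐎 H) := ⟨cH ⟨tH zT, zc⟩, zc⟩
  have kM : H ⊓ 𝐂 (𝐎 H ⊓ 𝐂 (𝐎 H)) ≤ M := fun g hg => hz (mem_c.2 (mem_centralizer_iff.1 hg.2 z zZ).symm)
  have nK : H ≤ 𝐍 (H ⊓ 𝐂 (𝐎 H ⊓ 𝐂 (𝐎 H))) := le_normalizer_inf le_normalizer
    (le_normalizer_centralizer (le_normalizer_inf (oP_normal H) (le_normalizer_centralizer (oP_normal H))))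
  have tK : t ∈ H ⊓ 𝐂 (𝐎 H ⊓ 𝐂 (𝐎 H)) := ⟨tH ht, mem_centralizer_iff.2 fun u hu =>
    (hc u hu.1 fun q hq => (mem_centralizer_iff.1 hu.2 q hq).symm).symm⟩
  have s0 := sH.inf_normal_of_le nK inf_le_left
  have fr := s0.frattini_sup inf_le_left nK
  have t0 : T ≤ H ⊓ 𝐍 (T ⊓ (H ⊓ 𝐂 (𝐎 H ⊓ 𝐂 (𝐎 H)))) := le_inf tH (le_normalizer_inf le_normalizer (tH.trans nK))
  have := mn ⟨t0, inf_le_left.trans hH, fun c => nH (fr ▸ sup_le kM c)⟩ inf_le_left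
  exact le_oP s0.pgroup (inf_le_left.trans tH) (this.trans inf_le_right) ⟨ht, tK⟩

end Cf

end CL.Ord8
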