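import Cfsg.Agent.FGS.Ord6A

/-!
Groups whose element orders are at most eight: definitions and basic facts.
-/

set_option autoImplicit false
set_option linter.unusedSectionVars false

namespace CL.Ord8

open Subgroup Cfsg CL.MSS CL.Ord6
open scoped commutatorElement

universe u

scoped notation "𝐂" A:max => Subgroup.centralizer (SetLike.coe (A : Subgroup _))
scoped notation "𝐍" A:max => Subgroup.normalizer (SetLike.coe (A : Subgroup _))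
scoped notation "♯" A:max => Nat.card (A : Subgroup _)
scoped notation "𝐜" a:max => Subgroup.centralizer (singleton a)
scoped notation "𝐎" H:max => Cfsg.pCoreOf 2 H

variable {G Γ : Type*} [Group G] [Group Γ]

/-- all element orders are at most eight -/
def H8 (G : Type*) [Group G] : Prop := ∀ g : G, orderOf g ≤ 8

abbrev Sy (n : ℕ) := Equiv.Perm (Fin n)

abbrev L32 := Matrix.SpecialLinearGroup (Fin 3) (ZMod 2)

/-- the five simple groups -/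
def Lst (G : Type*) [Group G] : Prop :=
  Nonempty (G ≃* alternatingGroup (Fin 5)) ∨ Nonempty (G ≃* alternatingGroup (Fin 6)) ∨ Nonempty (G ≃* L32) ∨
    Nonempty (G ≃* alternatingGroup (Fin 7)) ∨
    ∃ (F : Type) (_ : Field F) (_ : Fintype F), Fintype.card F = 4 ∧
      Nonempty (G ≃* Matrix.ProjectiveSpecialLinearGroup (Fin 3) F)

/-- the classification up to order `n` -/
def IH (n : ℕ) : Prop := ∀ (X : Type u) [Group X] [Finite X] [IsSimpleGroup X],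
  Nat.card X ≤ n → H8 X → ¬ IsMulCommutative X → Lst X

/-- the non-solvable groups with `O₂ ≠ 1` -/
def Ty (M : Type*) [Group M] : Prop :=
  (∃ π : M →* Sy 5, IsPGroup 2 π.ker ∧ alternatingGroup (Fin 5) ≤ π.range) ∨
    (∃ π : M →* Sy 6, IsPGroup 2 π.ker ∧ π.range = alternatingGroup (Fin 6)) ∨
    ∃ π : M →* L32, IsPGroup 2 π.ker ∧ Function.Surjective π

/-- `H` has characteristic two -/
def Ch (H : Subgroup G) : Prop := H ⊓ 𝐂 (𝐎 H) ≤ 𝐎 H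

/-- all `2`-local subgroups have characteristic two -/
def C2 (G : Type*) [Group G] : Prop := ∀ X : Subgroup G, IsPGroup 2 X → X ≠ ⊥ → Ch (𝐍 X)

/-- no elements of order five or seven -/
def N57 (H : Subgroup G) : Prop := ∀ g ∈ H, g ^ 5 = 1 ∨ g ^ 7 = 1 → g = 1

/-- `⟨e, f⟩` is an elementary abelian subgroup of order nine of `H` -/
structure E9 (H : Subgroup G) (e f : G) : Prop where
  he : e ∈ H
  hf : f ∈ H
  e3 : e ^ 3 = 1
  f3 : f ^ 3 = 1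
  cm : e * f = f * e
  e1 : e ≠ 1
  ne : f ∉ zpowers e

/-- `R / O₂(H)` is a normal, self-centralizing Sylow `3`-subgroup of `H / O₂(H)` -/
structure Tc (H R : Subgroup G) : Prop where
  lo : 𝐎 H ≤ R
  le : R ≤ H
  nm : H ≤ 𝐍 R
  cub : ∀ r ∈ R, r ^ 3 ∈ 𝐎 H
  all : ∀ x ∈ H, x ^ 3 ∈ 𝐎 H → x ∈ R
  cen : ∀ s ∈ H, (∀ r ∈ R, ⁅s, r⁆ ∈ 𝐎 H) → s ∈ R

/-- a `2`-central involution with `2`-closed centralizer -/
def Cl2 (G : Type*) [Group G] : Prop := ∃ (T : Subgroup G) (z : G),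
  SylIn 2 T ⊤ ∧ z * z = 1 ∧ z ≠ 1 ∧ T ≤ 𝐜 z ∧ 𝐜 z ≤ 𝐍 T

/-- a maximal `2`-local subgroup `M = N(Q)` with `M / Q` embedded in `Γ` -/
structure Loc (M Q : Subgroup G) (π : M →* Γ) : Prop where
  pQ : IsPGroup 2 Q
  ne : Q ≠ ⊥
  nQ : 𝐍 Q = M
  cQ : 𝐂 Q ≤ Q
  ker : ∀ m : M, π m = 1 ↔ m.1 ∈ Q
  max : ∀ X : Subgroup G, IsPGroup 2 X → X ≠ ⊥ → M ≤ 𝐍 X → 𝐍 X = M

/-- an elementary abelian TI-subgroup -/
structure TI (V : Subgroup G) : Prop where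
  el : ∀ v ∈ V, v * v = 1
  ti : ∀ g : G, ∀ a ∈ V, a ≠ 1 → g * a * g⁻¹ ∈ V → g ∈ 𝐍 V

/-- the data of a maximal `2`-local subgroup with `M / Q = A₆` or `L₃(2)` -/
structure Cf (M Q V T Q1 : Subgroup G) (z x : G) : Prop where
  pQ : IsPGroup 2 Q
  nQ : 𝐍 Q = M
  max : ∀ X : Subgroup G, IsPGroup 2 X → X ≠ ⊥ → M ≤ 𝐍 X → 𝐍 X = M
  syl : SylIn 2 T M
  cT : ♯T = 8 * ♯Q
  el : ∀ v ∈ V, v * v = 1
  nV : 𝐍 V = M
  cV : 𝐂 V = Q
  zV : z ∈ V
  z1 : z ≠ 1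
  tr : ∀ a ∈ V, a ≠ 1 → ∃ m ∈ M, a = m * z * m⁻¹
  zT : T ≤ 𝐜 z
  x3 : x ^ 3 = 1
  x1 : x ≠ 1
  xM : x ∈ M
  xz : x * z = z * x
  q1 : Q ≤ Q1
  q2 : Q1 ≤ T
  q3 : ¬ T ≤ Q1
  nQ1 : M ⊓ 𝐜 z ≤ 𝐍 Q1
  o2 : ∀ D : Subgroup G, IsPGroup 2 D → D ≤ M ⊓ 𝐜 z → M ⊓ 𝐜 z ≤ 𝐍 D → D ≤ Q1
  bd : ∃ b ∈ V, ∃ d ∈ Q1, (∀ q ∈ Q1, ⁅⁅b, x⁆, q⁆ ∈ zpowers z) ∧ ⁅⁅b, x⁆, ⁅d, x⁆⁆ ≠ 1
  v1 : ∀ t ∈ Q1, (∀ b ∈ V, (∀ q ∈ Q1, ⁅b, q⁆ ∈ zpowers z) → b * t = t * b) → t ∈ Q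
  r1 : ∀ b ∈ Q, (∀ q ∈ Q, ⁅b, q⁆ ∈ zpowers z) → ∀ q ∈ Q, b * q = q * b
  sq : ∀ t ∈ M, t ∉ Q → (∀ q ∈ Q, ⁅q, t⁆ ∈ V) → Q ≤ V
  rk : ∀ A : Subgroup G, A ≤ M → (∀ a ∈ A, a * a = 1) → A ⊓ Q = ⊥ → ♯A ≤ 4
  ty : ♯V = 8 ∨ (♯V = 16 ∧
    ∀ t ∈ M, ∀ N : Subgroup G, N ≤ V → ♯V ≤ 2 * ♯N → (∀ n ∈ N, t * n = n * t) → t ∈ Q)

/-- the data of `M / Q = A₅` with no element of order three fixing an involution of `Z(Q)` -/
structure N5 (Q T : Subgroup G) (c y : G) : Prop where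
  syl : SylIn 2 T ⊤
  le : Q ≤ T
  ne : Q ≠ ⊥
  nQ : T ≤ 𝐍 Q
  cQ : 𝐂 Q ≤ Q
  cn : c ∈ 𝐍 Q
  cT : c ∈ 𝐍 T
  c3 : c ^ 3 = 1
  c1 : c ≠ 1
  yn : y ∈ 𝐍 Q
  y5 : y ^ 5 = 1
  y1 : y ≠ 1
  fT : ∀ t ∈ T, t * c = c * t → t ∈ Q
  v4 : ∀ t ∈ T, t ∉ Q → ∀ s ∈ T, s ∈ Q ∨ s * t ∈ Q ∨ s * (c * t * c⁻¹) ∈ Q ∨ s * (c⁻¹ * t * c) ∈ Q
  inv : ∀ t ∈ T, t ∉ Q → ∃ f ∈ 𝐍 Q, f ^ 5 = 1 ∧ f ≠ 1 ∧ t * f * t⁻¹ * f ∈ Q
  cy : ∀ v ∈ Q, v * v = 1 → (∀ q ∈ Q, v * q = q * v) → v * c = c * v → v = 1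

/-- a solvable overgroup of `T` of characteristic two in which `C_T(Z(O₂(H))) = O₂(H)` -/
structure Mn (T H : Subgroup G) : Prop where
  le : T ≤ H
  ch : Ch H
  sol : Group.IsSolvable H
  cz : ∀ t ∈ T, (∀ u ∈ 𝐎 H, (∀ q ∈ 𝐎 H, u * q = q * u) → t * u = u * t) → t ∈ 𝐎 H

theorem H8.sub (h : H8 G) {f : Γ →* G} (hf : Function.Injective f) : H8 Γ := fun g => by
  rw [← orderOf_injective f hf]; exact h _

theorem H8.subgroup (h : H8 G) (K : Subgroup G) : H8 K := h.sub K.subtype_injective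

theorem H8.equiv (h : H8 G) (e : G ≃* Γ) : H8 Γ := h.sub (f := e.symm.toMonoidHom) e.symm.injective

theorem Lst.equiv (h : Lst Γ) (e : G ≃* Γ) : Lst G := by
  rcases h with h | h | h | h | ⟨F, _, _, a, h⟩
  · exact .inl (h.map e.trans)
  · exact .inr (.inl (h.map e.trans))
  · exact .inr (.inr (.inl (h.map e.trans)))
  · exact .inr (.inr (.inr (.inl (h.map e.trans))))
  · exact .inr (.inr (.inr (.inr ⟨F, _, _, a, h.map e.trans⟩)))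

theorem comm_sq {A : Subgroup G} (h : ∀ a ∈ A, a * a = 1) {a b : G} (ha : a ∈ A) (hb : b ∈ A) :
    a * b = b * a := by
  have e := h _ (mul_mem ha hb)
  rw [← mul_one (b * a), ← e, show b * a * (a * b * (a * b)) = b * (a * a) * b * (a * b) by group, h a ha,
    mul_one, h b hb, one_mul]

theorem mem_c {a g : G} : g ∈ 𝐜 a ↔ g * a = a * g := mem_centralizer_singleton_iff

theorem norm_zpowers {z : G} (h2 : z * z = 1) : 𝐍 (zpowers z) = 𝐜 z := by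
  have k : ∀ w ∈ zpowers z, w = 1 ∨ w = z := by
    rintro _ ⟨n, rfl⟩
    have e : z ^ (2 : ℤ) = 1 := by rw [zpow_two, h2]
    rcases Int.emod_two_eq_zero_or_one n with c | c
    · exact .inl (show z ^ n = 1 by rw [zpow_eq_zpow_emod n e, c, zpow_zero])
    · exact .inr (show z ^ n = z by rw [zpow_eq_zpow_emod n e, c, zpow_one])
  refine le_antisymm (fun g hg => mem_c.2 ?_) ?_
  · rcases k _ ((mem_normalizer_iff.1 hg z).1 (mem_zpowers z)) with e | e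
    · rw [show z = 1 by simpa [mul_assoc, mul_eq_one_iff_eq_inv] using e]; simp
    · rw [← mul_inv_eq_iff_eq_mul, e]
  · rw [zpowers_eq_closure, ← centralizer_closure]
    exact centralizer_le_normalizer _

variable [Finite G]

theorem H8.map (h : H8 G) {f : G →* Γ} (hf : Function.Surjective f) : H8 Γ := fun y => by
  obtain ⟨g, rfl⟩ := hf y
  exact (Nat.le_of_dvd (orderOf_pos g) (orderOf_map_dvd f g)).trans (h g)

theorem H8.quot (h : H8 G) (N : Subgroup G) [N.Normal] : H8 (G ⧸ N) := h.map (QuotientGroup.mk'_surjective N)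

theorem H8.comm (h : H8 G) {a b : G} (e : a * b = b * a) (c : (orderOf a).Coprime (orderOf b)) :
    orderOf a * orderOf b ≤ 8 := by
  rw [← Commute.orderOf_mul_eq_mul_orderOf_of_coprime e c]; exact h _

theorem H8.pow_of_dvd (h : H8 G) {g : G} {n m : ℕ} (e : g ^ n = 1)
    (c : ∀ k, k ≤ 8 → k ∣ n → k ∣ m) : g ^ m = 1 :=
  orderOf_dvd_iff_pow_eq_one.1 (c _ (h g) (orderOf_dvd_of_pow_eq_one e))

theorem H8.pow_p (h : H8 G) {p b : ℕ} (hp : p.Prime) (hb : 8 < p ^ (b + 1)) {g : G} {k : ℕ}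
    (e : g ^ p ^ k = 1) : g ^ p ^ b = 1 := by
  obtain ⟨j, -, hj⟩ := (Nat.dvd_prime_pow hp).1 (orderOf_dvd_of_pow_eq_one e)
  refine orderOf_dvd_iff_pow_eq_one.1 (hj ▸ pow_dvd_pow p (by_contra fun c => ?_))
  have := Nat.pow_le_pow_right hp.one_lt.le (show b + 1 ≤ j by omega)
  have := hj ▸ h g
  omega

theorem H8.p8 (h : H8 G) {P : Subgroup G} (hP : IsPGroup 2 P) {g : G} (hg : g ∈ P) : g ^ 8 = 1 :=
  (isPGroup_iff_forall_mem.1 hP g hg).elim fun _ e => h.pow_p (b := 3) Nat.prime_two (by norm_num) e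

theorem H8.pp (h : H8 G) {p : ℕ} (hp : p.Prime) (h2 : p ≠ 2) {P : Subgroup G} (hP : IsPGroup p P) {g : G}
    (hg : g ∈ P) : g ^ p = 1 :=
  (isPGroup_iff_forall_mem.1 hP g hg).elim fun _ e => by
    have := hp.two_le
    simpa using h.pow_p (b := 1) hp (by rw [pow_two]; nlinarith [show 3 ≤ p by omega]) e

theorem H8.prime (h : H8 G) {p : ℕ} (hp : p.Prime) (c : p ∣ Nat.card G) : p = 2 ∨ p = 3 ∨ p = 5 ∨ p = 7 := by
  have := Fact.mk hp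
  obtain ⟨g, hg⟩ := exists_prime_orderOf_dvd_card' p c
  have h1 := hg ▸ h g
  interval_cases p <;> simp_all (config := {decide := true})

theorem H8.card (h : H8 G) {n p : ℕ} (e : Nat.card G = n) (hp : p.Prime) (c : p ∣ n) (h7 : 8 < p) :
    False := by
  have := h.prime hp (e ▸ c); omega

theorem ord7 {f : G} (h7 : f ^ 7 = 1) (h1 : f ≠ 1) : orderOf f = 7 :=
  haveI := Fact.mk (show Nat.Prime 7 by norm_num); orderOf_eq_prime h7 h1

/-- elements of order five or seven act without fixed points on subgroups of coprime order -/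
theorem H8.fpf (h : H8 G) {f c : G} {r : ℕ} (hr : r = 5 ∨ r = 7) (h5 : f ^ r = 1) (h1 : f ≠ 1)
    (e : f * c = c * f) {n : ℕ} (hn : n.Coprime r) (hc : c ^ n = 1) : c = 1 := by
  have o : orderOf f = r := by
    rcases hr with rfl | rfl
    exacts [ord5 h5 h1, ord7 h5 h1]
  have := h.comm e (o ▸ (hn.coprime_dvd_left (orderOf_dvd_of_pow_eq_one hc)).symm)
  have := orderOf_pos c
  rw [o] at *
  exact orderOf_eq_one_iff.1 (by rcases hr with rfl | rfl <;> omega)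

theorem H8.fpf2 (h : H8 G) {f c : G} {r : ℕ} (hr : r = 5 ∨ r = 7) (h5 : f ^ r = 1) (h1 : f ≠ 1)
    {Q : Subgroup G} (hQ : IsPGroup 2 Q) (hc : c ∈ Q) (e : f * c = c * f) : c = 1 :=
  h.fpf hr h5 h1 e (n := 8) (by rcases hr with rfl | rfl <;> norm_num) (h.p8 hQ hc)

/-- no element of order twelve -/
theorem H8.no12 (h : H8 G) {c y : G} (h3 : c ^ 3 = 1) (h1 : c ≠ 1) (e : c * y = y * c) (hy : y ^ 8 = 1) :
    y * y = 1 := by
  have h2 : orderOf y ∣ 2 ^ 3 := orderOf_dvd_of_pow_eq_one hy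
  have h4 := h.comm e (ord3 h3 h1 ▸ Nat.Coprime.coprime_dvd_right h2 (by norm_num))
  rw [ord3 h3 h1] at h4
  rw [← pow_two, ← orderOf_dvd_iff_pow_eq_one]
  obtain ⟨j, hj, e⟩ := (Nat.dvd_prime_pow Nat.prime_two).1 h2
  rw [e] at h4 ⊢
  interval_cases j <;> simp_all

/-- two elements of a `2`-group that commute with an element of order three commute -/
theorem H8.comm3 (h : H8 G) {c a b : G} (h3 : c ^ 3 = 1) (h1 : c ≠ 1) {P : Subgroup G} (hP : IsPGroup 2 P)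
    (ha : a ∈ P) (hb : b ∈ P) (ea : a * c = c * a) (eb : b * c = c * b) : a * b = b * a :=
  comm_sq (A := P ⊓ 𝐜 c) (fun _ hy => h.no12 h3 h1 (mem_c.1 hy.2).symm (h.p8 hP hy.1)) ⟨ha, mem_c.2 ea⟩
    ⟨hb, mem_c.2 eb⟩

/-- a lift of an element of order `n ≥ 5` -/
theorem H8.lift (h : H8 G) (φ : G →* Γ) {g : G} {n : ℕ} (hn : orderOf (φ g) = n) (h5 : 5 ≤ n) :
    g ^ n = 1 := by
  obtain ⟨k, hk⟩ := hn ▸ orderOf_map_dvd φ g
  have h1 := h g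
  have h2 := orderOf_pos g
  rw [← pow_orderOf_eq_one g, hk]
  rcases k with _ | _ | k
  · omega
  · simp
  · nlinarith

/-- the fourth power of a lift of an element of order three is a lift of order three -/
theorem H8.lift3 (h : H8 G) (φ : G →* Γ) {g : G} (h3 : φ g ^ 3 = 1) (h1 : φ g ≠ 1) :
    (g ^ 4) ^ 3 = 1 ∧ φ (g ^ 4) = φ g := by
  have := Fact.mk Nat.prime_three
  have d := orderOf_map_dvd φ g
  rw [orderOf_eq_prime h3 h1] at d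
  refine ⟨?_, by rw [map_pow, pow_succ, h3, one_mul]⟩
  rw [← pow_mul, ← orderOf_dvd_iff_pow_eq_one]
  have := h g
  have := orderOf_pos g
  have : orderOf g = 3 ∨ orderOf g = 6 := by omega
  rcases this with e | e <;> rw [e] <;> norm_num

theorem pg_zpowers {z : G} (h2 : z * z = 1) : IsPGroup 2 (zpowers z) := by
  refine IsPGroup.of_card_dvd_pow (n := 1) ?_
  rw [Nat.card_zpowers, pow_one]
  exact orderOf_dvd_of_pow_eq_one (by rwa [pow_two])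

theorem C2.cen (h : C2 G) {z : G} (h2 : z * z = 1) (h1 : z ≠ 1) : Ch (𝐜 z) :=
  norm_zpowers h2 ▸ h _ (pg_zpowers h2) (by simpa using h1)

theorem H8.n57 (h : H8 G) {z : G} (h2 : z * z = 1) (h1 : z ≠ 1) : N57 (𝐜 z) := fun g hg c => by
  by_contra g1
  rcases c with c | c
  · exact h1 (h.fpf2 (.inl rfl) c g1 (pg_zpowers h2) (mem_zpowers z) (mem_c.1 hg))
  · exact h1 (h.fpf2 (.inr rfl) c g1 (pg_zpowers h2) (mem_zpowers z) (mem_c.1 hg))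

/-- overgroups of `O₂(H)` in `H` have characteristic two -/
theorem Ch.of_le {H K : Subgroup G} (h : Ch H) (hK : K ≤ H) (c : 𝐎 H ≤ K) : Ch K := fun _ hg =>
  oP_le_oP_of_le hK c (h ⟨hK hg.1, centralizer_le (oP_le_oP_of_le hK c) hg.2⟩)

theorem C2.of_type (h : IsCharacteristicTwoType G) : C2 G := fun X a b => oP_charP_iff.1 (h.2 X a b)

end CL.Ord8
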