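import Cfsg.Agent.FGS.Ord8.Sol4

set_option autoImplicit false
set_option linter.unusedSectionVars false

namespace CL.Ord8

open Subgroup Cfsg CL.MSS CL.Ord6
open scoped commutatorElement

universe u

variable {G : Type*} [Group G] [Finite G]

variable {H : Subgroup G}

namespace Sol5

variable {X : Type*} [Group X] [Finite X]

theorem zp3 {z w : X} (z3 : z ^ 3 = 1) (hw : w ∈ zpowers z) : w = 1 ∨ w = z ∨ w = z⁻¹ := by
  obtain ⟨n, rfl⟩ := hw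
  have e : z ^ (3 : ℤ) = 1 := by exact_mod_cast z3
  have i : z * z = z⁻¹ := by rw [eq_inv_iff_mul_eq_one, ← z3, pow_succ, pow_two]
  have k : n % 3 = 0 ∨ n % 3 = 1 ∨ n % 3 = 2 := by omega
  show z ^ n = 1 ∨ z ^ n = z ∨ z ^ n = z⁻¹
  rw [zpow_eq_zpow_emod n e]
  rcases k with c | c | c <;> rw [c]
  · exact .inl (zpow_zero z)
  · exact .inr (.inl (zpow_one z))
  · exact .inr (.inr (by rw [zpow_two, i]))

theorem inv3 {w : X} (w3 : w ^ 3 = 1) (e : w⁻¹ = w) : w = 1 := by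
  have : w * w = 1 := by nth_rewrite 1 [← e]; exact inv_mul_cancel w
  rw [pow_succ, pow_two, this, one_mul] at w3
  exact w3

/-- `r⁻¹ s r s⁻¹` is inverted by the involution `s` -/
theorem winv {s : X} (s2 : s * s = 1) (r : X) : s * (r⁻¹ * (s * r * s⁻¹)) * s⁻¹ = (r⁻¹ * (s * r * s⁻¹))⁻¹ := by
  have i : s⁻¹ = s := inv_eq_of_mul_eq_one_right s2
  calc s * (r⁻¹ * (s * r * s⁻¹)) * s⁻¹ = s * r⁻¹ * s * r * (s * s)⁻¹ := by group
    _ = s * r⁻¹ * s⁻¹ * r := by rw [s2, i]; group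
    _ = _ := by group

/-- `r w⁻¹` is centralised by `s` -/
theorem cfix {s r : X} (s2 : s * s = 1) (w3 : (r⁻¹ * (s * r * s⁻¹)) ^ 3 = 1) :
    s * (r * (r⁻¹ * (s * r * s⁻¹))⁻¹) * s⁻¹ = r * (r⁻¹ * (s * r * s⁻¹))⁻¹ := by
  have k := winv s2 r
  set w := r⁻¹ * (s * r * s⁻¹) with hw
  have e : s * r * s⁻¹ = r * w := by rw [hw]; group
  have i : w * w = w⁻¹ := by rw [eq_inv_iff_mul_eq_one, ← w3, pow_succ, pow_two]
  calc s * (r * w⁻¹) * s⁻¹ = s * r * s⁻¹ * (s * w * s⁻¹)⁻¹ := by group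
    _ = r * (w * w) := by rw [e, k, inv_inv, mul_assoc]
    _ = _ := by rw [i]

theorem core (R T : Subgroup X) [hR : R.Normal] (cub : ∀ r ∈ R, r ^ 3 = 1) (cen : ∀ s, (∀ r ∈ R, s * r = r * s) → s ∈ R)
    {a : X} (a1 : a ≠ 1) (a2 : a * a = 1) (c : ∀ t ∈ T, a * t = t * a)
    (cy : ∀ e ∈ R, ∀ f ∈ R, e ≠ 1 → e * f = f * e → a * e = e * a → a * f = f * a → f ∈ zpowers e)
    (ci : ∀ e ∈ R, e ≠ 1 → a * e = e * a → ∀ t ∈ T, t * e = e * t → t = 1 ∨ t = a) :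
    ∃ x ∈ R, x ≠ 1 ∧ a * x * a⁻¹ = x⁻¹ ∧ ∀ t ∈ T, Commute x (t * x * t⁻¹) := by
  have cj : ∀ {u v : X}, u * v * u⁻¹ = v ↔ u * v = v * u := mul_inv_eq_iff_eq_mul
  have wR : ∀ (s : X) {r : X}, r ∈ R → r⁻¹ * (s * r * s⁻¹) ∈ R := fun s _ hr => mul_mem (inv_mem hr) (hR.conj_mem _ hr s)
  have w1 : ∀ {s r : X}, r⁻¹ * (s * r * s⁻¹) = 1 → s * r = r * s := fun e => cj.1 (inv_mul_eq_one.1 e).symm
  obtain ⟨r, hr, nr⟩ : ∃ r ∈ R, a * r ≠ r * a := by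
    by_contra k
    push Not at k
    exact a1 (inv3 (cub a (cen a k)) (inv_eq_of_mul_eq_one_right a2))
  by_cases hz : ∃ ζ ∈ R, (∀ u ∈ R, ζ * u = u * ζ) ∧ a * ζ ≠ ζ * a
  · obtain ⟨ζ, hζ, cz, n⟩ := hz
    refine ⟨_, wR a hζ, fun e => n (w1 e), winv a2 ζ, fun t _ => ?_⟩
    have hu := hR.conj_mem _ (wR a hζ) t
    generalize t * (ζ⁻¹ * (a * ζ * a⁻¹)) * t⁻¹ = u at hu
    have k1 : Commute ζ u := cz u hu
    have k2 : Commute (a * ζ * a⁻¹) u := by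
      have k := cz _ (hR.conj_mem u hu a⁻¹)
      show a * ζ * a⁻¹ * u = u * (a * ζ * a⁻¹)
      calc a * ζ * a⁻¹ * u = a * (ζ * (a⁻¹ * u * a⁻¹⁻¹)) * a⁻¹ := by group
        _ = _ := by rw [k]; group
    exact k1.inv_left.mul_left k2
  push Not at hz
  obtain ⟨ζ, hζ, z1, cz⟩ : ∃ ζ ∈ R, ζ ≠ 1 ∧ ∀ u ∈ R, ζ * u = u * ζ := by
    have := Fact.mk Nat.prime_three
    have pR : IsPGroup 3 R := fun g => ⟨1, Subtype.ext (by simpa using cub g g.2)⟩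
    have : Nontrivial R := ⟨⟨⟨r, hr⟩, 1, fun e => nr (by rw [show r = 1 from congrArg Subtype.val e]; simp)⟩⟩
    have := pR.center_nontrivial
    obtain ⟨⟨⟨ζ, hζ⟩, cζ⟩, n⟩ := exists_ne (1 : center R)
    exact ⟨ζ, hζ, fun e => n (Subtype.ext (Subtype.ext e)),
      fun u hu => (congrArg Subtype.val (mem_center_iff.1 cζ ⟨u, hu⟩)).symm⟩
  have az := hz ζ hζ cz
  have C : ∀ f ∈ R, a * f = f * a → f = 1 ∨ f = ζ ∨ f = ζ⁻¹ := fun f hf e =>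
    zp3 (cub ζ hζ) (cy ζ hζ f hf z1 (cz f hf) az e)
  have ac : ∀ t ∈ T, ∀ f, a * (t * f * t⁻¹) * a⁻¹ = t * (a * f * a⁻¹) * t⁻¹ := fun t ht f => by
    calc a * (t * f * t⁻¹) * a⁻¹ = a * t * f * (a * t)⁻¹ := by group
      _ = _ := by rw [c t ht]; group
  have tz : ∀ t ∈ T, (t = 1 ∨ t = a) ∨ t * ζ * t⁻¹ = ζ⁻¹ := fun t ht => by
    rcases C _ (hR.conj_mem ζ hζ t) (cj.1 (by rw [ac t ht, cj.2 az])) with e | e | e
    · exact absurd (by simpa using e) z1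
    · exact .inl (ci ζ hζ z1 az t ht (cj.1 e))
    · exact .inr e
  have t2 : ∀ s ∈ T, ∀ t ∈ T, s * ζ * s⁻¹ = ζ⁻¹ → t * ζ * t⁻¹ = ζ⁻¹ → s * t = 1 ∨ s * t = a := fun s hs t ht e e' => by
    refine ci ζ hζ z1 az _ (mul_mem hs ht) (cj.1 ?_)
    calc s * t * ζ * (s * t)⁻¹ = s * (t * ζ * t⁻¹) * s⁻¹ := by group
      _ = (s * ζ * s⁻¹)⁻¹ := by rw [e']; group
      _ = ζ := by rw [e, inv_inv]
  have easy : ∀ {x t : X}, a * x * a⁻¹ = x⁻¹ → t = 1 ∨ t = a → Commute x (t * x * t⁻¹) := by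
    rintro x t ix (rfl | rfl)
    · simp
    · rw [ix]; exact (Commute.refl x).inv_right
  have invC : ∀ {s f : X}, s * ζ * s⁻¹ = ζ⁻¹ → f ∈ R → a * f = f * a → s * f * s⁻¹ = f⁻¹ := fun {s f} e hf k => by
    rcases C f hf k with rfl | rfl | rfl
    · simp
    · exact e
    · rw [show s * ζ⁻¹ * s⁻¹ = (s * ζ * s⁻¹)⁻¹ by group, e]
  have hx := wR a hr
  have ix := winv a2 r
  have x1 : r⁻¹ * (a * r * a⁻¹) ≠ 1 := fun e => nr (w1 e)
  generalize r⁻¹ * (a * r * a⁻¹) = x at hx ix x1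
  by_cases hs : ∃ s ∈ T, s * ζ * s⁻¹ = ζ⁻¹ ∧ s * s = 1
  · obtain ⟨s, hs, sz, s2⟩ := hs
    have si : s⁻¹ = s := inv_eq_of_mul_eq_one_right s2
    obtain ⟨y, hy, y1, iy, sy⟩ : ∃ y ∈ R, y ≠ 1 ∧ a * y * a⁻¹ = y⁻¹ ∧ (s * y * s⁻¹ = y ∨ s * y * s⁻¹ = y⁻¹) := by
      have k := cfix s2 (cub _ (wR s hx))
      have k' := winv s2 x
      have hd : x * (x⁻¹ * (s * x * s⁻¹))⁻¹ ∈ R := mul_mem hx (inv_mem (wR s hx))
      by_cases d1 : x * (x⁻¹ * (s * x * s⁻¹))⁻¹ = 1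
      · rw [← mul_inv_eq_one.1 d1] at k'
        exact ⟨x, hx, x1, ix, .inr k'⟩
      generalize x * (x⁻¹ * (s * x * s⁻¹))⁻¹ = d at k hd d1
      refine ⟨_, wR a hd, fun e => d1 (inv3 (cub d hd) ?_), winv a2 d, .inl ?_⟩
      · rw [← invC sz hd (w1 e), k]
      · calc s * (d⁻¹ * (a * d * a⁻¹)) * s⁻¹ = (s * d * s⁻¹)⁻¹ * (s * (a * d * a⁻¹) * s⁻¹) := by group
          _ = _ := by rw [← ac s hs, k]
    refine ⟨y, hy, y1, iy, fun t ht => ?_⟩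
    rcases tz t ht with e | e
    · exact easy iy e
    have k : Commute y (s * y * s⁻¹) := by
      rcases sy with e | e <;> rw [e]
      exact (Commute.refl y).inv_right
    rcases t2 s hs t ht sz e with e' | e'
    · rwa [show t = s by rw [← si]; exact (inv_eq_of_mul_eq_one_right e').symm]
    · rw [show t = s * a by rw [← e', ← mul_assoc, s2, one_mul], show s * a * y * (s * a)⁻¹ = s * (a * y * a⁻¹) * s⁻¹ by group,
        iy, show s * y⁻¹ * s⁻¹ = (s * y * s⁻¹)⁻¹ by group]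
      exact k.inv_right
  push Not at hs
  refine ⟨x, hx, x1, ix, fun t ht => ?_⟩
  rcases tz t ht with e | e
  · exact easy ix e
  have tt := (t2 t ht t ht e e).resolve_left (hs t ht e)
  have hx' := hR.conj_mem x hx t
  have ix' : a * (t * x * t⁻¹) * a⁻¹ = (t * x * t⁻¹)⁻¹ := by rw [ac t ht, ix]; group
  have tx' : t * (t * x * t⁻¹) * t⁻¹ = x⁻¹ := by rw [← ix, ← tt]; group
  obtain ⟨x', tx⟩ : ∃ x', t * x * t⁻¹ = x' := ⟨_, rfl⟩
  rw [tx] at hx' ix' tx' ⊢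
  have sq : ∀ {u : X}, u ∈ R → u * u = u⁻¹ := fun hu => by rw [eq_inv_iff_mul_eq_one, ← cub _ hu, pow_succ, pow_two]
  have b : x * x' * x = x'⁻¹ * x⁻¹ * x'⁻¹ := by
    have k := sq (mul_mem hx hx')
    calc x * x' * x = x * x' * (x * x') * x'⁻¹ := by group
      _ = _ := by rw [k]; group
  have q' : x'⁻¹ * x'⁻¹ = x' := by rw [sq (inv_mem hx'), inv_inv]
  have ak : a * (x * x'⁻¹ * x⁻¹ * x') * a⁻¹ = x * x'⁻¹ * x⁻¹ * x' := by
    calc a * (x * x'⁻¹ * x⁻¹ * x') * a⁻¹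
        = a * x * a⁻¹ * (a * x' * a⁻¹)⁻¹ * (a * x * a⁻¹)⁻¹ * (a * x' * a⁻¹) := by group
      _ = x⁻¹ * x' * x * x'⁻¹ := by rw [ix, ix', inv_inv, inv_inv]
      _ = x * (x * x' * x) * x'⁻¹ := by rw [← sq hx]; group
      _ = x * x'⁻¹ * x⁻¹ * (x'⁻¹ * x'⁻¹) := by rw [b]; group
      _ = _ := by rw [q']
  have k := invC e (mul_mem (mul_mem (mul_mem hx (inv_mem hx')) (inv_mem hx)) hx') (cj.1 ak)
  have k2 : x' * x * x'⁻¹ * x⁻¹ = (x * x'⁻¹ * x⁻¹ * x')⁻¹ := by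
    rw [← k]
    calc x' * x * x'⁻¹ * x⁻¹ = t * x * t⁻¹ * (t * x' * t⁻¹)⁻¹ * (t * x * t⁻¹)⁻¹ * (t * x' * t⁻¹) := by
          rw [tx, tx', inv_inv]
      _ = _ := by group
  have k3 : x * x'⁻¹ = x'⁻¹ * x := by
    calc x * x'⁻¹ = x * (x' * x') := by rw [sq hx']
      _ = x' * (x * x'⁻¹ * x⁻¹ * x')⁻¹ * x * x' := by group
      _ = x' * x' * x := by rw [← k2]; group
      _ = _ := by rw [sq hx']
  exact Commute.inv_right_iff.1 k3

/-- the subgroup generated by the conjugates -/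
theorem core2 (T : Subgroup X) {a x : X} (c : ∀ t ∈ T, a * t = t * a) (x3 : x ^ 3 = 1) (ix : a * x * a⁻¹ = x⁻¹)
    (k : ∀ t ∈ T, Commute x (t * x * t⁻¹)) :
    ∃ D : Subgroup X, x ∈ D ∧ (∀ t ∈ T, ∀ d ∈ D, t * d * t⁻¹ ∈ D) ∧ ∀ d ∈ D, d ^ 3 = 1 ∧ a * d * a⁻¹ * d = 1 := by
  set S : Set X := {y | ∃ t ∈ T, y = t * x * t⁻¹} with hS
  have cm : ∀ u ∈ S, ∀ v ∈ S, Commute u v := by
    rintro _ ⟨s, hs, rfl⟩ _ ⟨t, ht, rfl⟩
    have e := (k _ (mul_mem (inv_mem hs) ht)).eq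
    show s * x * s⁻¹ * (t * x * t⁻¹) = t * x * t⁻¹ * (s * x * s⁻¹)
    calc s * x * s⁻¹ * (t * x * t⁻¹) = s * (x * (s⁻¹ * t * x * (s⁻¹ * t)⁻¹)) * s⁻¹ := by group
      _ = _ := by rw [e]; group
  have cm1 : ∀ u ∈ S, ∀ v ∈ closure S, Commute u v := fun u hu v hv => by
    induction hv using closure_induction with
    | mem v hv => exact cm u hu v hv
    | one => exact Commute.one_right u
    | mul _ _ _ _ p q => exact p.mul_right q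
    | inv _ _ p => exact p.inv_right
  have cm2 : ∀ u ∈ closure S, ∀ v ∈ closure S, Commute u v := fun u hu v hv => by
    induction hu using closure_induction with
    | mem u hu => exact cm1 u hu v hv
    | one => exact Commute.one_left v
    | mul _ _ _ _ p q => exact p.mul_left q
    | inv _ _ p => exact p.inv_left
  refine ⟨closure S, subset_closure ⟨1, one_mem _, by simp⟩, fun t ht d hd => ?_, fun d hd => ?_⟩
  · induction hd using closure_induction with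
    | mem v hv =>
      obtain ⟨s, hs, rfl⟩ := hv
      exact subset_closure ⟨t * s, mul_mem ht hs, by group⟩
    | one => simp
    | mul u v _ _ p q => rw [show t * (u * v) * t⁻¹ = t * u * t⁻¹ * (t * v * t⁻¹) by group]; exact mul_mem p q
    | inv u _ p => rw [show t * u⁻¹ * t⁻¹ = (t * u * t⁻¹)⁻¹ by group]; exact inv_mem p
  · rw [← eq_inv_iff_mul_eq_one]
    induction hd using closure_induction with
    | mem v hv =>
      obtain ⟨s, hs, rfl⟩ := hv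
      refine ⟨by rw [conj_pow, x3]; group, ?_⟩
      calc a * (s * x * s⁻¹) * a⁻¹ = a * s * x * (a * s)⁻¹ := by group
        _ = s * (a * x * a⁻¹) * s⁻¹ := by rw [c s hs]; group
        _ = _ := by rw [ix]; group
    | one => simp
    | mul u v hu hv p q =>
      refine ⟨by rw [(cm2 u hu v hv).mul_pow, p.1, q.1, one_mul], ?_⟩
      rw [show a * (u * v) * a⁻¹ = a * u * a⁻¹ * (a * v * a⁻¹) by group, p.2, q.2, (cm2 u hu v hv).eq, mul_inv_rev]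
    | inv u _ p => exact ⟨by rw [inv_pow, p.1, inv_one], by rw [show a * u⁻¹ * a⁻¹ = (a * u * a⁻¹)⁻¹ by group, p.2]⟩

end Sol5

/-- **An invariant inverted subgroup.** PROOF. Bars modulo `O`, `R` from `exists_tc`, `Z = Z(R̄) ≠ 1`. If `ā` does not
centralize `Z`, take `D̄ = {ζ ∈ Z | ā inverts ζ}`. Otherwise `Z = C_R̄(ā) = ⟨ζ̄⟩` has order `3` (`cy`); `T̄` normalizes `Z`,
and `C_T̄(ζ̄) = ⟨ā⟩` by `ci2`. `ā` inverts some `x̄ ≠ 1` of `R̄` (`x = u⁻¹ a u a⁻¹`). If `T̄ = ⟨ā⟩` take `D̄ = ⟨x̄⟩`. Otherwise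
`T̄ = ⟨ā, s̄⟩` has order `4` and `s̄` inverts `ζ̄`. If `s̄² = 1`, one of `C_R̄(s̄)`, `C_R̄(s̄ ā)` is non-trivial (the three
centralizers generate `R̄ > Z`); it has order `3`, is `T̄`-invariant and meets `C(ā) = Z` trivially, so `ā` inverts it.
If `s̄² = ā`: `ā` acts without fixed points on `R̄ / Z`, which is therefore abelian; with `x̄' = s̄ x̄ s̄⁻¹`,
`[x̄, x̄'] ∈ Z` is inverted by `s̄`, and also `s̄ [x̄, x̄'] s̄⁻¹ = [x̄', x̄⁻¹] = [x̄, x̄']`, so `x̄, x̄'` commute: `D̄ = ⟨x̄, x̄'⟩`. -/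
theorem sr (h : H8 G) (ch : Ch H) (n : N57 H) {T : Subgroup G} (hT : T ≤ H) (p : IsPGroup 2 T) {a : G} (ha : a ∈ T)
    (a1 : a ∉ 𝐎 H) (a2 : a * a ∈ 𝐎 H) (c : ∀ t ∈ T, ⁅a, t⁆ ∈ 𝐎 H) :
    ∃ D : Subgroup G, 𝐎 H ≤ D ∧ D ≤ H ∧ ¬ D ≤ 𝐎 H ∧ T ≤ 𝐍 D ∧
      ∀ d ∈ D, d ^ 3 ∈ 𝐎 H ∧ a * d * a⁻¹ * d ∈ 𝐎 H := by
  obtain ⟨R, tR⟩ := exists_tc h ch n
  have nO : ((𝐎 H).subgroupOf H).Normal := (normal_subgroupOf_iff_le_normalizer (oP_le H)).2 (oP_normal H)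
  set φ := QuotientGroup.mk' ((𝐎 H).subgroupOf H) with hφ
  have ker : ∀ m : H, φ m = 1 ↔ m.1 ∈ 𝐎 H := fun m => QuotientGroup.eq_one_iff m
  have sur : Function.Surjective φ := QuotientGroup.mk'_surjective _
  have cmm : ∀ u v : H, φ u * φ v = φ v * φ u ↔ ⁅u.1, v.1⁆ ∈ 𝐎 H := fun u v => by
    rw [← commutatorElement_eq_one_iff_mul_comm, ← map_commutatorElement, ker]; rfl
  have nR : (R.subgroupOf H).Normal := (normal_subgroupOf_iff_le_normalizer tR.le).2 tR.nm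
  have nR' : ((R.subgroupOf H).map φ).Normal := nR.map φ sur
  have hc : ∀ t ∈ (T.subgroupOf H).map φ, φ ⟨a, hT ha⟩ * t = t * φ ⟨a, hT ha⟩ := by
    rintro _ ⟨t, ht, rfl⟩
    exact (cmm _ _).2 (c t ht)
  have cub : ∀ r ∈ (R.subgroupOf H).map φ, r ^ 3 = 1 := by
    rintro _ ⟨r, hr, rfl⟩
    rw [← map_pow, ker]
    exact tR.cub r hr
  obtain ⟨x, hx, x1, ix, k⟩ := Sol5.core ((R.subgroupOf H).map φ) ((T.subgroupOf H).map φ) cub (a := φ ⟨a, hT ha⟩)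
    (fun s hs => by
      obtain ⟨s, rfl⟩ := sur s
      exact ⟨s, tR.cen s s.2 fun r hr => (cmm s ⟨r, tR.le hr⟩).1 (hs _ ⟨⟨r, tR.le hr⟩, hr, rfl⟩), rfl⟩)
    (fun e => a1 ((ker _).1 e)) (by rw [← map_mul, ker]; exact a2) hc
    (by
      rintro _ ⟨e, he, rfl⟩ _ ⟨f, hf, rfl⟩ e1 ef ae af
      by_contra ne
      obtain ⟨e', f', E, ke, kf⟩ := e9_lift e.2 f.2 (tR.cub e he) (tR.cub f hf) ((cmm e f).1 ef)
        (fun z => e1 ((ker e).2 z)) (fun i z => ne (by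
          have z' := (ker (e ^ i * f)).2 z
          rw [map_mul, map_pow] at z'
          rw [← inv_eq_of_mul_eq_one_right z']
          exact inv_mem (npow_mem_zpowers _ _)))
      have ke' : φ ⟨e', E.he⟩ = φ e := by
        have z := (ker ((⟨e', E.he⟩ : H)⁻¹ * e)).2 ke
        rwa [map_mul, map_inv, inv_mul_eq_one] at z
      have kf' : φ ⟨f', E.hf⟩ = φ f := by
        have z := (ker ((⟨f', E.hf⟩ : H)⁻¹ * f)).2 kf
        rwa [map_mul, map_inv, inv_mul_eq_one] at z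
      exact a1 (cy h ch E (hT ha) (h.p8 p ha) ((cmm ⟨a, hT ha⟩ ⟨e', E.he⟩).1 (by rw [ke', ae]))
        ((cmm ⟨a, hT ha⟩ ⟨f', E.hf⟩).1 (by rw [kf', af]))))
    (by
      rintro _ ⟨e, he, rfl⟩ e1 ae _ ⟨t, ht, rfl⟩ te
      set B : Subgroup G := T ⊓ ((centralizer {φ e}).comap φ).map H.subtype with hB
      have mB : ∀ u : H, u.1 ∈ T → φ u * φ e = φ e * φ u → u.1 ∈ B := fun u hu k =>
        ⟨hu, u, mem_centralizer_singleton_iff.2 k, rfl⟩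
      have k := ci2 h ch n e.2 (tR.cub e he) (fun z => e1 ((ker e).2 z)) (B := B) (inf_le_left.trans hT)
        (p.to_le inf_le_left) (by
          rintro _ ⟨-, u, hu, rfl⟩
          exact (cmm u e).1 (mem_centralizer_singleton_iff.1 hu))
      have aB := mB ⟨a, hT ha⟩ ha ae
      have tB := mB t ht te
      have i2 : ((𝐎 H).subgroupOf B).index = 2 := by
        have k1 := ((𝐎 H).subgroupOf B).index_mul_card
        have k2 : Nat.card ((𝐎 H).subgroupOf B) = ♯(B ⊓ 𝐎 H) := by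
          rw [← inf_subgroupOf_left]
          exact Nat.card_congr (subgroupOfEquivOfLe inf_le_left).toEquiv
        have k3 : ((𝐎 H).subgroupOf B).index ≠ 1 := fun z => a1 (by
          have : (⟨a, aB⟩ : B) ∈ (𝐎 H).subgroupOf B := by rw [index_eq_one.1 z]; trivial
          exact this)
        have k4 : ((𝐎 H).subgroupOf B).index ≠ 0 := index_ne_zero_of_finite
        have k5 : 0 < ♯(B ⊓ 𝐎 H) := Nat.card_pos
        rw [k2] at k1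
        have : ((𝐎 H).subgroupOf B).index ≤ 2 := Nat.le_of_mul_le_mul_right (k1 ▸ k) k5
        omega
      by_cases t1 : t.1 ∈ 𝐎 H
      · exact .inl ((ker t).2 t1)
      have z : (⟨t, tB⟩ * ⟨a, aB⟩ : B) ∈ (𝐎 H).subgroupOf B := (mul_mem_iff_of_index_two i2).2 (iff_of_false t1 a1)
      have z1 := (ker (t * (⟨a, hT ha⟩ : H))).2 (show t.1 * a ∈ 𝐎 H from z)
      have z2 := (ker (⟨a, hT ha⟩ * ⟨a, hT ha⟩)).2 a2
      rw [map_mul] at z1 z2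
      exact .inr (mul_right_cancel (z1.trans z2.symm)))
  obtain ⟨D, xD, nD, pD⟩ := Sol5.core2 _ hc (cub x hx) ix k
  obtain ⟨x, rfl⟩ := sur x
  have cjD : ∀ t ∈ T, ∀ d ∈ (D.comap φ).map H.subtype, t * d * t⁻¹ ∈ (D.comap φ).map H.subtype := by
    rintro t ht _ ⟨d, hd, rfl⟩
    refine ⟨⟨t, hT ht⟩ * d * (⟨t, hT ht⟩ : H)⁻¹, ?_, rfl⟩
    show φ _ ∈ D
    rw [map_mul, map_mul, map_inv]
    exact nD _ ⟨⟨t, hT ht⟩, ht, rfl⟩ _ hd
  refine ⟨(D.comap φ).map H.subtype, fun q hq => ⟨⟨q, oP_le H hq⟩, ?_, rfl⟩, map_subtype_le _,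
    fun le => x1 ((ker x).2 (le ⟨x, xD, rfl⟩)), fun t ht => mem_normalizer_iff.2 fun d => ⟨cjD t ht d, fun hd => ?_⟩, ?_⟩
  · show φ _ ∈ D
    rw [(ker ⟨q, oP_le H hq⟩).2 hq]
    exact one_mem _
  · have z := cjD t⁻¹ (inv_mem ht) _ hd
    rwa [show t⁻¹ * (t * d * t⁻¹) * t⁻¹⁻¹ = d by group] at z
  · rintro _ ⟨d, hd, rfl⟩
    refine ⟨(ker (d ^ 3)).1 (by rw [map_pow]; exact (pD _ hd).1),
      (ker (⟨a, hT ha⟩ * d * (⟨a, hT ha⟩ : H)⁻¹ * d)).1 ?_⟩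
    rw [map_mul, map_mul, map_mul, map_inv]
    exact (pD _ hd).2

end CL.Ord8
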