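import Cfsg.Agent.FGS.Ord8.Defs
import Cfsg.Agent.PLOC.PFrattini

set_option autoImplicit false
set_option linter.unusedSectionVars false

namespace CL.Ord8

open Subgroup Cfsg CL.MSS CL.Ord6
open scoped commutatorElement

universe u

variable {G : Type*} [Group G] [Finite G]

namespace Wx

variable {Γ V : Type*} [Group Γ] [AddCommGroup V] [DistribMulAction Γ V]

/-- the norm -/
def nm (d : Γ) (v : V) : V := v + d • v + d • d • v

/-- `D` acts as an elementary abelian `3`-group on a vector space over `F₂` -/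
structure Hy (V : Type*) [AddCommGroup V] [DistribMulAction Γ V] (D : Subgroup Γ) : Prop where
  el : ∀ v : V, v + v = 0
  c3 : ∀ d ∈ D, ∀ v : V, d • d • d • v = v
  cm : ∀ d ∈ D, ∀ e ∈ D, ∀ v : V, d • e • v = e • d • v

theorem nm_add (d : Γ) (u v : V) : nm d (u + v) = nm d u + nm d v := by simp only [nm, smul_add]; abel
theorem nm_cj (t d : Γ) (v : V) : nm (t * d * t⁻¹) (t • v) = t • nm d v := by simp [nm, mul_smul]

/-- the homogeneous component -/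
def YB (V : Type*) [AddCommGroup V] [DistribMulAction Γ V] (D B : Subgroup Γ) : AddSubgroup V where
  carrier := {v | (∀ b ∈ B, b • v = v) ∧ ∀ d ∈ D, d ∉ B → nm d v = 0}
  zero_mem' := ⟨fun _ _ => smul_zero _, fun _ _ _ => by simp [nm]⟩
  add_mem' := fun a b => ⟨fun x hx => by rw [smul_add, a.1 x hx, b.1 x hx],
    fun x hx n => by rw [nm_add, a.2 x hx n, b.2 x hx n, add_zero]⟩
  neg_mem' := fun {v} a => ⟨fun x hx => by rw [smul_neg, a.1 x hx], fun x hx n => by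
    have := nm_add x (-v) v
    rwa [neg_add_cancel, a.2 x hx n, add_zero, show nm x (0 : V) = 0 by simp [nm], eq_comm] at this⟩

variable {D B T : Subgroup Γ}

theorem YB_cj {t : Γ} (ht : t ∈ 𝐍 D) {v : V} (hv : v ∈ YB V D B) : t • v ∈ YB V D (t •ᶜ B) := by
  refine ⟨fun b hb => ?_, fun d hd n => ?_⟩
  · have := hv.1 _ (mem_cj.1 hb)
    rw [mul_smul, mul_smul, inv_smul_eq_iff] at this
    exact this
  · have := nm_cj t (t⁻¹ * d * t) v
    rw [hv.2 _ ((mem_normalizer_iff''.1 ht d).1 hd) (fun e => n (mem_cj.2 e)), smul_zero] at this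
    simpa [mul_assoc] using this

namespace Hy
variable (h : Hy V D)
include h

theorem nm_fix {d : Γ} {v : V} (e : d • v = v) : nm d v = v := by rw [nm, e, e, h.el, zero_add]
theorem smul_nm {d : Γ} (hd : d ∈ D) (v : V) : d • nm d v = nm d v := by
  simp only [nm, smul_add, h.c3 d hd]; abel
theorem cm_nm {d e : Γ} (hd : d ∈ D) (he : e ∈ D) (v : V) : e • nm d v = nm d (e • v) := by
  simp only [nm, smul_add, h.cm e he d hd]
theorem nm_nm {d e : Γ} (hd : d ∈ D) (he : e ∈ D) (v : V) : nm e (nm d v) = nm d (nm e v) := by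
  rw [nm, h.cm_nm hd he, h.cm_nm hd he, ← nm_add, ← nm_add]; rfl
theorem inv {d : Γ} (hB : B ≤ D) (hd : d ∈ D) {v : V} (hv : v ∈ YB V D B) : d • v ∈ YB V D B :=
  ⟨fun b hb => by rw [h.cm b (hB hb) d hd, hv.1 b hb], fun e he n => by rw [← h.cm_nm he hd, hv.2 e he n, smul_zero]⟩

theorem pure [Finite Γ] (n : ∃ d ∈ D, ∃ v : V, d • v ≠ v) :
    ∃ B ≤ D, (∃ d ∈ D, d ∉ B) ∧ YB V D B ≠ ⊥ := by
  obtain ⟨d, hd, v, n⟩ := n
  obtain ⟨_, ⟨y, ny, rfl⟩, mx⟩ := (Set.toFinite {B : Subgroup Γ | ∃ y : V, ¬ D ≤ MulAction.stabilizer Γ y ∧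
    B = D ⊓ MulAction.stabilizer Γ y}).exists_maximal ⟨_, v, fun e => n (e hd), rfl⟩
  obtain ⟨d, hd, nd⟩ := SetLike.not_le_iff_exists.1 ny
  have key : ∀ z : V, (∀ b ∈ D ⊓ MulAction.stabilizer Γ y, b • z = z) → ∀ e ∈ D, e ∉ D ⊓ MulAction.stabilizer Γ y →
      d • nm e z = nm e z := fun z hz e he ne => by
    by_contra k
    exact ne (mx ⟨nm e z, fun l => k (l hd), rfl⟩
      (fun b hb => ⟨hb.1, show b • _ = _ by rw [h.cm_nm he hb.1, hz b hb]⟩) ⟨he, h.smul_nm he z⟩)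
  have f : ∀ b ∈ D ⊓ MulAction.stabilizer Γ y, b • (y + nm d y) = y + nm d y := fun b hb => by
    rw [smul_add, h.cm_nm hd hb.1, show b • y = y from hb.2]
  refine ⟨_, inf_le_left, ⟨d, hd, fun e => nd e.2⟩, fun e => nd ?_⟩
  have m : y + nm d y ∈ YB V D (D ⊓ MulAction.stabilizer Γ y) := ⟨f, fun x hx nx => by
    rw [← h.nm_fix (key _ f x hx nx), h.nm_nm hx hd, nm_add d, h.nm_fix (h.smul_nm hd y), h.el]
    simp [nm]⟩
  rw [e, AddSubgroup.mem_bot] at m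
  have : y = nm d y := add_right_cancel (m.trans (h.el _).symm)
  exact (congrArg (d • ·) this).trans ((h.smul_nm hd y).trans this.symm)

theorem two {v : V} (hv : v ∈ YB V D B) (v0 : v ≠ 0) {d e : Γ} (hd : d ∈ D) (he : e ∈ D) (nd : d ∉ B) (ne : e ∉ B) :
    e • v = d • v ∨ e • v = d • d • v := by
  by_cases a : d * d * e ∈ B
  · have := congrArg (d • ·) (hv.1 _ a)
    simp only [mul_smul, h.c3 d hd] at this
    exact .inl this
  by_cases b : d * e ∈ B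
  · have := congrArg (d • d • ·) (hv.1 _ b)
    simp only [mul_smul, h.c3 d hd] at this
    exact .inr this
  exfalso
  have k1 := hv.2 _ hd nd
  have k2 := hv.2 _ he ne
  have k3 := hv.2 _ (mul_mem hd he) b
  have k4 := hv.2 _ (mul_mem (mul_mem hd hd) he) a
  have k5 := congrArg (e • ·) k1
  have k6 := congrArg (e • e • ·) k1
  simp only [nm, mul_smul, smul_add, smul_zero, h.cm e he d hd, h.c3 d hd] at k1 k2 k3 k4 k5 k6
  have k7 := h.el v
  exact v0 (by linear_combination (norm := abel1) k2 + k3 + k4 - k5 - k6 - k7)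

theorem indep (s : Finset (Subgroup Γ)) (h1 : ∀ B ∈ s, B ≤ D) (h2 : ∀ B ∈ s, ∀ B' ∈ s, B ≤ B' → B = B') :
    s.SupIndep (YB V D) := by
  classical
  intro t ht B hB n
  have iv : ∀ t ⊆ s, ∀ d ∈ D, ∀ v ∈ t.sup (YB V D), d • v ∈ t.sup (YB V D) := fun t ht d hd =>
    (Finset.sup_le fun B hB v hv => Finset.le_sup (f := YB V D) hB (h.inv (h1 B (ht hB)) hd hv) :
      t.sup (YB V D) ≤ (t.sup (YB V D)).comap (DistribSMul.toAddMonoidHom V d))
  induction t using Finset.induction with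
  | empty => simp
  | insert C t _ ih =>
    have ts : t ⊆ s := (Finset.subset_insert _ _).trans ht
    have := ih ts fun e => n (Finset.mem_insert_of_mem e)
    rw [AddSubgroup.disjoint_def] at this ⊢
    intro v hv hv'
    rw [Finset.sup_insert, AddSubgroup.mem_sup] at hv'
    obtain ⟨u, hu, m, hm, e⟩ := hv'
    obtain ⟨b, hb, nb⟩ := SetLike.not_le_iff_exists.1 fun l : B ≤ C =>
      n (h2 B hB C (ht (Finset.mem_insert_self _ _)) l ▸ Finset.mem_insert_self _ _)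
    refine this hv ?_
    rw [← h.nm_fix (hv.1 b hb), ← e, nm_add, hu.2 b (h1 B hB hb) nb, zero_add]
    exact add_mem (add_mem hm (iv t ts b (h1 B hB hb) _ hm)) (iv t ts b (h1 B hB hb) _ (iv t ts b (h1 B hB hb) _ hm))

theorem fix [Finite V] (p : IsPGroup 2 T) {M : AddSubgroup V} (i : ∀ t ∈ T, ∀ v ∈ M, t • v ∈ M) (n : M ≠ ⊥) :
    ∃ v ∈ M, v ≠ 0 ∧ ∀ t ∈ T, t • v = v := by
  have : Fact (Nat.Prime 2) := ⟨Nat.prime_two⟩
  let _ : MulAction T M :=
    { smul := fun t v => ⟨t.1 • v.1, i _ t.2 _ v.2⟩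
      one_smul := fun v => Subtype.ext (one_smul _ _)
      mul_smul := fun a b v => Subtype.ext (mul_smul _ _ _) }
  obtain ⟨v, hv⟩ := (AddSubgroup.ne_bot_iff_exists_ne_zero).1 n
  have d : 2 ∣ Nat.card M :=
    (addOrderOf_eq_prime ((two_nsmul v).trans (Subtype.ext (h.el _))) hv).symm.dvd.trans (addOrderOf_dvd_natCard v)
  obtain ⟨w, hw, e⟩ := p.exists_fixed_point_of_prime_dvd_card_of_fixed_point M d (a := 0)
    fun t => Subtype.ext (smul_zero t.1)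
  exact ⟨w, w.2, fun k => e (Subtype.ext k.symm), fun t ht => congrArg Subtype.val (hw ⟨t, ht⟩)⟩

theorem main [Finite Γ] [Finite V] (p : IsPGroup 2 T) (nD : T ≤ 𝐍 D) {a : Γ} (ha : a ∈ T)
    (c : ∀ d ∈ D, ∀ v : V, (a * d * a⁻¹) • d • v = v) (n : ∃ d ∈ D, ∃ v : V, d • v ≠ v) :
    ∃ w : V, ∃ s ∈ T, ∀ t ∈ T, Xor ((t * s) • w = w) (t • w = w) := by
  classical
  obtain ⟨B, hB, ⟨d, hd, nd⟩, n⟩ := h.pure n
  by_cases k : T ≤ 𝐍 B
  · obtain ⟨y, hy, y0, f⟩ := h.fix p (fun t ht v hv => cj_eq_of_mem_normalizer (k ht) ▸ YB_cj (nD ht) hv) n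
    have ne : d • d • y ≠ d • y := fun e => by
      have e' : d • y = y := (smul_left_cancel_iff d).1 e
      exact y0 ((h.nm_fix e').symm.trans (hy.2 d hd nd))
    have q : ∀ t ∈ T, t • d • y = (t * d * t⁻¹) • y := fun t ht => by
      rw [mul_smul, mul_smul, f _ (inv_mem ht)]
    have q2 : ∀ t ∈ T, t • d • y = d • y ∨ t • d • y = d • d • y := fun t ht => q t ht ▸
      h.two hy y0 hd ((mem_normalizer_iff.1 (nD ht) d).1 hd) nd fun e => nd ((mem_normalizer_iff.1 (k ht) d).2 e)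
    have qa : a • d • y = d • d • y := by
      have := c d hd (d • d • y)
      rwa [h.c3 d hd, ← q a ha] at this
    have s0 : d • y + d • d • y = y := by
      have := hy.2 d hd nd
      have k7 := h.el y
      rw [nm] at this
      linear_combination (norm := abel1) this - k7
    refine ⟨d • y, a, ha, fun t ht => ?_⟩
    have s1 : t • d • y + t • d • d • y = d • y + d • d • y := by rw [← smul_add, s0, f t ht]
    rw [mul_smul, qa]
    rcases q2 t ht with e | e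
    · rw [e, add_right_inj] at s1
      exact .inr ⟨e, fun l => ne (s1.symm.trans l)⟩
    · rw [e, add_comm, add_left_inj] at s1
      exact .inl ⟨s1, fun l => ne (e.symm.trans l)⟩
  have : Fact (Nat.Prime 2) := ⟨Nat.prime_two⟩
  obtain ⟨U, hU, le⟩ := (eq_top_or_exists_le_coatom ((𝐍 B).subgroupOf T)).resolve_left
    fun e => k (subgroupOf_eq_top.1 e)
  have i2 := PG.coatom_index p hU
  obtain ⟨s, hs⟩ := index_eq_two_iff.1 i2
  have sU : s ∉ U := fun e => by simpa [e] using hs 1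
  let O : Set T → Finset (Subgroup Γ) := fun X => (Set.toFinite ((fun t : T => t.1 •ᶜ B) '' X)).toFinset
  have mO : ∀ {X C}, C ∈ O X ↔ ∃ t ∈ X, t.1 •ᶜ B = C := by simp [O]
  have oD : ∀ t : T, t.1 •ᶜ B ≤ D := fun t => cj_le_of_mem_normalizer hB (nD t.2)
  have dj := (h.indep (O Set.univ) (fun C hC => by obtain ⟨t, -, rfl⟩ := mO.1 hC; exact oD t) fun C hC C' hC' l => by
      obtain ⟨t, -, rfl⟩ := mO.1 hC
      obtain ⟨t', -, rfl⟩ := mO.1 hC'
      exact eq_of_le_of_card_ge l (by rw [card_cj, card_cj])).disjoint_sup_sup (u := O U) (v := O Uᶜ)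
    (fun C hC => let ⟨t, _, e⟩ := mO.1 hC; mO.2 ⟨t, trivial, e⟩)
    (fun C hC => let ⟨t, _, e⟩ := mO.1 hC; mO.2 ⟨t, trivial, e⟩) (Finset.disjoint_left.2 fun C a b => by
      obtain ⟨t, ht, rfl⟩ := mO.1 a
      obtain ⟨t', ht', e⟩ := mO.1 b
      have : t⁻¹ * t' ∈ U := le (mem_normalizer_iff_cj.2 (show (t.1⁻¹ * t'.1) •ᶜ B = B by rw [cj_mul, e, inv_cj_cj]))
      exact ht' (by simpa using mul_mem ht this))
  have mv : ∀ (g : T) (X X' : Set T), (∀ t ∈ X, g * t ∈ X') → ∀ v ∈ (O X).sup (YB V D), g.1 • v ∈ (O X').sup (YB V D) :=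
    fun g X X' l => (Finset.sup_le fun C hC v hv => by
      obtain ⟨t, ht, rfl⟩ := mO.1 hC
      exact Finset.le_sup (f := YB V D) (mO.2 ⟨_, l t ht, cj_mul g.1 t.1 B⟩) (YB_cj (nD g.2) hv) :
      (O X).sup (YB V D) ≤ ((O X').sup (YB V D)).comap (DistribSMul.toAddMonoidHom V g.1))
  obtain ⟨w, hw, w0, f⟩ := h.fix (p.to_subgroup U |>.map T.subtype) (M := (O U).sup (YB V D))
    (fun _ ⟨t, ht, e⟩ => e ▸ mv t U U fun _ => mul_mem ht)
    fun e => n (le_bot_iff.1 (e ▸ Finset.le_sup (f := YB V D) (mO.2 ⟨1, one_mem U, cj_one B⟩)))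
  have iff : ∀ t : T, t.1 • w = w ↔ t ∈ U := fun t => ⟨fun e => by_contra fun nt =>
    w0 (AddSubgroup.disjoint_def.1 dj hw (e ▸ mv t U Uᶜ (fun u hu l => nt (by simpa using mul_mem l (inv_mem hu))) w hw)),
    fun e => f _ ⟨t, e, rfl⟩⟩
  refine ⟨w, s, s.2, fun t ht => ?_⟩
  have := hs ⟨t, ht⟩
  rwa [← iff, ← iff] at this

end Hy

end Wx

/-- **Lemma W.** `D` induces an elementary abelian `3`-group `≠ 1` on `Y`, inverted by `a ∈ T`. PROOF. `K = D ⊓ 𝐂 Y`; `D / K`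
is abelian (inverted by `a`) of exponent `3`. Take `B` maximal with `K ≤ B ≤ D` and `C_Y(B)` not centralized by `D`. For
`d ∈ D - B`, `C_Y(B, d) ≤ C(D)`. `Y_B = {y ∈ C_Y(B) | y · d y d⁻¹ · d² y d⁻² = 1 for all d ∈ D - B}` contains
`y · d₀ y d₀⁻¹ ≠ 1` for `y ∈ C_Y(B)` moved by `D`: indeed `|D : B| = 3` (a `3²` in `D / B` would generate `C_Y(B)` by
centralizers, all in `C(D)`). `T_B = T ⊓ 𝐍 B` normalizes `Y_B`; take `1 ≠ y ∈ Y_B` fixed by `T_B`.
If `T_B = T`: `T* = {t | ⁅t, d⁆ ∈ B}` has index `2` (`a ∉ T*`), `w = d y d⁻¹` is fixed by `T*`, and `a w a⁻¹ = d⁻¹ y d ≠ w`.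
Otherwise take `T_B ≤ T* < T` of index `2` and `w = ∏ t y t⁻¹` over `t ∈ T* / T_B`. If `T` fixed `w`, then
`∏ t y t⁻¹ = 1` over `T / T_B`, with factors in `Y_{B'}` for distinct conjugates `B'`. For `b ∈ B - B'` the norm
`u ↦ u · b u b⁻¹ · b² u b⁻²` is an endomorphism of `Y` that preserves every `Y_{B''}`, kills `Y_{B'}` and fixes `y`; removing
the other factors one by one gives `y = 1`. -/
theorem lemW {Y D T : Subgroup G} (el : ∀ y ∈ Y, y * y = 1) (hD : D ≤ 𝐍 Y) (hT : T ≤ 𝐍 Y) (p : IsPGroup 2 T)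
    (nD : T ≤ 𝐍 D) {a : G} (ha : a ∈ T) (c : ∀ d ∈ D, d ^ 3 ∈ 𝐂 Y ∧ a * d * a⁻¹ * d ∈ 𝐂 Y) (n : ¬ D ≤ 𝐂 Y) :
    ∃ w ∈ Y, ♯T = 2 * ♯(T ⊓ 𝐜 w) := by
  let _ : CommGroup Y := { (inferInstance : Group Y) with mul_comm := fun x y => Subtype.ext (comm_sq el x.2 y.2) }
  let _ : DistribMulAction (𝐍 Y) (Additive Y) :=
    { smul := fun g v => Additive.ofMul ⟨g.1 * v.toMul.1 * g.1⁻¹, (mem_normalizer_iff.1 g.2 _).1 v.toMul.2⟩
      one_smul := fun v => Subtype.ext (show 1 * v.toMul.1 * 1⁻¹ = v.toMul.1 by group)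
      mul_smul := fun g k v => Subtype.ext
        (show g.1 * k.1 * v.toMul.1 * (g.1 * k.1)⁻¹ = g.1 * (k.1 * v.toMul.1 * k.1⁻¹) * g.1⁻¹ by group)
      smul_zero := fun g => Subtype.ext (show g.1 * 1 * g.1⁻¹ = 1 by group)
      smul_add := fun g u v => Subtype.ext (show g.1 * (u.toMul.1 * v.toMul.1) * g.1⁻¹ =
        g.1 * u.toMul.1 * g.1⁻¹ * (g.1 * v.toMul.1 * g.1⁻¹) by group) }
  have fx : ∀ (g : 𝐍 Y) (v : Additive Y), g • v = v ↔ g.1 ∈ 𝐜 v.toMul.1 := fun g v =>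
    Subtype.ext_iff.trans (mul_inv_eq_iff_eq_mul.trans mem_c.symm)
  have tr : ∀ g : 𝐍 Y, g.1 ∈ 𝐂 Y → ∀ v : Additive Y, g • v = v := fun g e v => (fx g v).2 (mem_c.2 (e _ v.toMul.2).symm)
  have ci : ∀ d ∈ D.subgroupOf (𝐍 Y), ∀ v : Additive Y, ((⟨a, hT ha⟩ : 𝐍 Y) * d * ⟨a, hT ha⟩⁻¹) • d • v = v :=
    fun d hd v => by rw [← mul_smul]; exact tr _ (c d hd).2 v
  have H : Wx.Hy (Additive Y) (D.subgroupOf (𝐍 Y)) :=
    { el := fun v => Subtype.ext (el _ v.toMul.2)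
      c3 := fun d hd v => by rw [← mul_smul, ← mul_smul, ← pow_three']; exact tr _ (c d hd).1 v
      cm := fun d hd e he v => by
        have k := ci _ (mul_mem hd he) v
        rw [← conj_mul, mul_smul, mul_smul d] at k
        have k1 := ci d hd (d⁻¹ • ((⟨a, hT ha⟩ : 𝐍 Y) * e * ⟨a, hT ha⟩⁻¹) • d • e • v)
        have k2 := ci e he (e⁻¹ • d • e • v)
        rw [smul_inv_smul] at k1 k2
        rw [k1, k2, inv_smul_eq_iff, inv_smul_eq_iff] at k
        exact k }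
  obtain ⟨d, hd, nd⟩ := SetLike.not_le_iff_exists.1 n
  obtain ⟨w, s, hs, e⟩ := H.main (T := T.subgroupOf (𝐍 Y)) (p.comap_of_injective _ (subtype_injective _))
    (fun t ht => mem_normalizer_iff.2 fun x => mem_normalizer_iff.1 (nD ht) x) (a := ⟨a, hT ha⟩) ha ci
    ⟨⟨d, hD hd⟩, hd, by
      by_contra k
      push Not at k
      exact nd fun y hy => (mem_c.1 ((fx _ _).1 (k (Additive.ofMul ⟨y, hy⟩)))).symm⟩
  refine ⟨w.toMul, w.toMul.2, ?_⟩
  have i : ((𝐜 w.toMul.1).subgroupOf T).index = 2 := index_eq_two_iff.2 ⟨⟨s, hs⟩, fun t => by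
    have := e ⟨t, hT t.2⟩ t.2
    rwa [fx, fx] at this⟩
  rw [← ((𝐜 w.toMul.1).subgroupOf T).index_mul_card, i, ← inf_subgroupOf_left,
    Nat.card_congr (subgroupOfEquivOfLe inf_le_left).toEquiv]

end CL.Ord8
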