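import Cfsg.Agent.FGS.Ord8.R1
import Cfsg.Agent.FGS.Ord8.W
import Cfsg.Agent.FGS.Ord8.Sol5

set_option autoImplicit false
set_option linter.unusedSectionVars false

namespace CL.Ord8

open Subgroup Cfsg CL.MSS CL.Ord6
open scoped commutatorElement

universe u

variable {G : Type*} [Group G] [Finite G]

variable {Q T : Subgroup G} {c y : G}

namespace F5N

open Sol1

theorem cj {K : Subgroup G} {g x : G} (hg : g ∈ 𝐍 K) (hx : x ∈ K) : g * x * g⁻¹ ∈ K := conj_mem_of_mem_normalizer hg hx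

theorem cj' {K : Subgroup G} {g x : G} (hg : g ∈ 𝐍 K) (hx : x ∈ K) : g⁻¹ * x * g ∈ K :=
  conj_mem_of_mem_normalizer' hg hx

theorem coset {K : Subgroup G} (p : IsPGroup 2 K) (cn : c ∈ 𝐍 K) (c3 : c ^ 3 = 1) {t : G}
    (e : t⁻¹ * c * t * c⁻¹ ∈ K) : ∃ s ∈ K, t * s * c = c * (t * s) := by
  have p3 : IsPGroup 3 (zpowers c) := .of_card_dvd_pow (n := 1) (by
    rw [Nat.card_zpowers, pow_one]; exact orderOf_dvd_of_pow_eq_one c3)
  have := p.isNilpotent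
  obtain ⟨s, hs, e⟩ := coprime_coset_centralizer (zpowers c) K (zpowers_le.2 cn) (cop p3 p) (.inr inferInstance) t
    fun a ha => by
      rcases zp3 c3 ha with rfl | rfl | rfl
      · simp
      · exact e
      · have := cj' cn (inv_mem e)
        rwa [show c⁻¹ * (t⁻¹ * c * t * c⁻¹)⁻¹ * c = t⁻¹ * c⁻¹ * t * c⁻¹⁻¹ by group] at this
  exact ⟨s, hs, (e c (mem_zpowers c)).symm⟩

theorem modeq {K : Subgroup G} {f : G} {r : ℕ} [Fact r.Prime] (fn : f ∈ 𝐍 K) (fr : f ^ r = 1) :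
    ♯K ≡ ♯(K ⊓ 𝐜 f) [MOD r] := by
  classical
  have := Fintype.ofFinite K
  have h := Equiv.Perm.card_fixedPoints_modEq (p := r) (n := 1)
    (f := MulAction.toEndHom (K.normalizerMonoidHom ⟨f, fn⟩) (α := K)) (by
      rw [pow_one, ← map_pow, ← map_pow, show (⟨f, fn⟩ : 𝐍 K) ^ r = 1 from Subtype.ext fr, map_one, map_one])
  simp only [← Nat.card_eq_fintype_card] at h
  convert h using 1
  exact Nat.card_congr ⟨fun x => ⟨⟨x.1, x.2.1⟩, Subtype.ext (mul_inv_eq_iff_eq_mul.2 (mem_c.1 x.2.2).symm)⟩,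
    fun x => ⟨x.1.1, x.1.2, mem_c.2 (mul_inv_eq_iff_eq_mul.1 (congrArg Subtype.val x.2 :)).symm⟩,
    fun _ => rfl, fun _ => rfl⟩

theorem card_rel (H K : Subgroup G) : ♯K = H.relIndex K * ♯(K ⊓ H) := by
  rw [← (H.subgroupOf K).card_mul_index, mul_comm, ← inf_subgroupOf_left,
    Nat.card_congr (subgroupOfEquivOfLe inf_le_left).toEquiv, inf_subgroupOf_left]
  rfl

/-- `Ω₁ Z(K)` -/
def Om (K : Subgroup G) : Subgroup G where
  carrier := {v | v ∈ K ∧ v * v = 1 ∧ ∀ q ∈ K, v * q = q * v}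
  one_mem' := ⟨one_mem _, one_mul _, fun _ _ => by simp⟩
  mul_mem' := fun {a b} ha hb => ⟨mul_mem ha.1 hb.1, by
    rw [(show Commute a b from ha.2.2 b hb.1).symm.mul_mul_mul_comm, ha.2.1, hb.2.1, mul_one],
    fun q hq => (Commute.mul_left (ha.2.2 q hq) (hb.2.2 q hq) :)⟩
  inv_mem' := fun {a} ha => by rwa [inv_eq_of_mul_eq_one_left ha.2.1]

theorem Om_le (K : Subgroup G) : Om K ≤ K := fun _ h => h.1

theorem Om_nz {K : Subgroup G} : 𝐍 K ≤ 𝐍 (Om K) := fun g hg => mem_normalizer_fintype fun v hv => ⟨cj hg hv.1, by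
    rw [conj_mul, hv.2.1]; simp, fun q hq => by
    have := hv.2.2 _ (cj' hg hq)
    rw [show g * v * g⁻¹ * q = g * (v * (g⁻¹ * q * g)) * g⁻¹ by group, this]; group⟩

theorem Om_cen (K : Subgroup G) : K ≤ 𝐂 (Om K) := fun q hq _ hv => hv.2.2 q hq

theorem Om_ex {K : Subgroup G} (p : IsPGroup 2 K) (n : K ≠ ⊥) : ∃ z ∈ Om K, z ≠ 1 := by
  have := (nontrivial_iff_ne_bot K).2 n
  have := p.center_nontrivial
  obtain ⟨m, hm, e⟩ := (p.to_subgroup (center K)).nontrivial_iff_card.1 this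
  obtain ⟨z, hz⟩ := exists_prime_orderOf_dvd_card' (G := center K) 2 (e ▸ dvd_pow_self 2 hm.ne')
  refine ⟨z.1.1, ⟨z.1.2, ?_, fun q hq => congrArg Subtype.val (mem_center_iff.1 z.2 ⟨q, hq⟩).symm⟩, fun e => ?_⟩
  · have := pow_orderOf_eq_one z
    rw [hz, pow_two] at this
    exact congrArg (fun x : center K => x.1.1) this
  · rw [show z = 1 from Subtype.ext (Subtype.ext e), orderOf_one] at hz
    omega

theorem top {O : Subgroup G} (p : IsPGroup 2 T) (nO : T ≤ 𝐍 O) (n : ¬ T ≤ O) :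
    ∃ a ∈ T, a ∉ O ∧ a * a ∈ O ∧ ∀ t ∈ T, ⁅a, t⁆ ∈ O := by
  have : (O.subgroupOf T).Normal := normal_subgroupOf_of_le_normalizer nO
  obtain ⟨z, hz, z1⟩ := Om_ex ((p.to_quotient (O.subgroupOf T)).to_subgroup ⊤) fun e => n fun t ht =>
    (QuotientGroup.eq_one_iff (N := O.subgroupOf T) ⟨t, ht⟩).1 (mem_bot.1 (e ▸ mem_top _))
  obtain ⟨a, rfl⟩ := QuotientGroup.mk_surjective z
  refine ⟨a, a.2, fun e => z1 ((QuotientGroup.eq_one_iff a).2 e), (QuotientGroup.eq_one_iff (a * a)).1 hz.2.1,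
    fun t ht => (QuotientGroup.eq_one_iff (N := O.subgroupOf T) ⁅a, ⟨t, ht⟩⁆).1 ?_⟩
  rw [← QuotientGroup.mk'_apply, map_commutatorElement, commutatorElement_eq_one_iff_mul_comm]
  exact hz.2.2 _ (mem_top _)

theorem cy3 (k : N5 Q T c y) {v : G} (hv : v ∈ Om Q) : v * (c * v * c⁻¹) * (c⁻¹ * v * c) = 1 := by
  have h1 := cj (Om_nz k.cn) hv
  have h2 := cj' (Om_nz k.cn) hv
  have h3 := mul_mem (mul_mem hv h1) h2
  refine k.cy _ h3.1 h3.2.1 h3.2.2 (mul_inv_eq_iff_eq_mul.1 ?_).symm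
  have e : c * c = c⁻¹ := eq_inv_of_mul_eq_one_left (by rw [← k.c3, pow_three, mul_assoc])
  rw [show c * (v * (c * v * c⁻¹) * (c⁻¹ * v * c)) * c⁻¹ = c * v * c⁻¹ * (c * c * v * (c * c)⁻¹) * v by group, e, inv_inv,
    ← hv.2.2 _ (mul_mem h1.1 h2.1), ← mul_assoc]

end F5N

open F5N Sol1

namespace N5

/-- **Step A.** PROOF. `z ∈ Z(T) ≤ Z(Q)`; `z · c z c⁻¹ · c² z c⁻²` is fixed by `c`, so is `1` (`cy`), and
`Z₀ = {1, z, c z c⁻¹, c² z c⁻²}` is a four-group in `Z(T)` normalized by `c`. `H = 𝐍 Z₀ ∋ c, g` has `Ch`, and `N57` (an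
element of order `5` or `7` normalizing `Z₀` centralizes it). `O = 𝐎 H ≤ T`; show `T ≤ O` (then `H ≤ 𝐍 T`). `⁅t, c⁆ ∈ O`
(`tc`), so `T = O C_T(c)` (coprime action on cosets). Suppose `q ∈ C_T(c) - O`; `q² = 1` (`no12`); take `ρ` from `ci`.
`A = C_O(c)` is normalized by `ρ`, centralized by `q` and `ρ q ρ⁻¹` (`comm3`), so by `q · ρ q ρ⁻¹ = ρ⁻²`, so by `ρ`. `E9 H c ρ`
holds (`q` inverts `ρ`), so `A ≤ Z(O)` (`ce`); `A` commutes with `C_T(c)`, so `A ≤ Z(T)` and `A = 1` by `cy`. By `ci2`,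
`|C_T(c)| = 2`, and `C_T(c) = C_Q(c)` (`fT`). But `|Q| = 16^m ≡ 1 mod 3` (`card5`) and `|Q| ≡ |C_Q(c)| mod 3`. -/
theorem stepA (h : H8 G) (c2 : C2 G) (k : N5 Q T c y) {z g : G} (hz : z ∈ T) (z2 : z * z = 1) (z1 : z ≠ 1)
    (zT : T ≤ 𝐜 z) (e1 : g * z = z * g) (e2 : g * (c * z * c⁻¹) = c * z * c⁻¹ * g) : g ∈ 𝐍 T := by
  have pT := k.syl.pgroup
  have zQ : ∀ {a}, (∀ t ∈ T, a * t = t * a) → a ∈ Q := fun e => k.cQ fun q hq => (e q (k.le hq)).symm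
  have hz0 : z ∈ Om T := ⟨hz, z2, fun t ht => (mem_c.1 (zT ht)).symm⟩
  have hz1 := cj (Om_nz k.cT) hz0
  have e3 := cy3 k (v := z) ⟨zQ hz0.2.2, z2, fun q hq => hz0.2.2 q (k.le hq)⟩
  have cc : c * c = c⁻¹ := eq_inv_of_mul_eq_one_left (by rw [← k.c3, pow_three, mul_assoc])
  have e4 : c * (c * z * c⁻¹) * c⁻¹ = (z * (c * z * c⁻¹))⁻¹ := by
    rw [inv_eq_of_mul_eq_one_right e3, show c * (c * z * c⁻¹) * c⁻¹ = c * c * z * (c * c)⁻¹ by group, cc, inv_inv]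
  generalize hu : c * z * c⁻¹ = u at *
  let Z := closure ({z, u} : Set G)
  have zZ : z ∈ Z := subset_closure (.inl rfl)
  have uZ : u ∈ Z := subset_closure (.inr rfl)
  have ZT : Z ≤ Om T := (closure_le _).2 (by rintro _ (rfl | rfl) <;> assumption)
  have nZ : ∀ {x}, x * z * x⁻¹ ∈ Z → x * u * x⁻¹ ∈ Z → x ∈ 𝐍 Z := fun {x} h1 h2 => mem_normalizer_of_cj_le (by
    rw [MonoidHom.map_closure, closure_le]
    rintro _ ⟨_, rfl | rfl, rfl⟩ <;> assumption)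
  have pZ := pT.to_le (ZT.trans (Om_le T))
  have Z1 : Z ≠ ⊥ := fun e => z1 (mem_bot.1 (e ▸ zZ))
  have Z4 : ♯Z ≤ 4 := by
    classical
    have zu := hz0.2.2 u hz1.1
    have uz : u * z * z = u := by rw [mul_assoc, z2, mul_one]
    have : (Z : Set G) ⊆ ({1, z, u, z * u} : Finset G) := fun x hx => by
      induction hx using closure_induction_left with
      | one => simp
      | mul_left a ha b _ ih =>
        simp only [Finset.coe_insert, Finset.coe_singleton, Set.mem_insert_iff, Set.mem_singleton_iff] at ha ih ⊢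
        rcases ha with rfl | rfl <;> rcases ih with rfl | rfl | rfl | rfl <;>
          simp [z2, hz1.2.1, zu, ← mul_assoc, uz]
      | inv_mul_cancel a ha b _ ih =>
        simp only [Finset.coe_insert, Finset.coe_singleton, Set.mem_insert_iff, Set.mem_singleton_iff] at ha ih ⊢
        rcases ha with rfl | rfl <;> rcases ih with rfl | rfl | rfl | rfl <;>
          simp [inv_eq_of_mul_eq_one_left z2, inv_eq_of_mul_eq_one_left hz1.2.1, z2, hz1.2.1, zu, ← mul_assoc, uz]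
    exact (Set.ncard_le_ncard this).trans (Set.ncard_coe_finset _ ▸ Finset.card_le_four)
  have ch := c2 Z pZ Z1
  have n : N57 (𝐍 Z) := fun f hf e => by_contra fun f1 => by
    have := (one_lt_card_iff_ne_bot Z).2 Z1
    have b : ∀ {r}, r = 5 ∨ r = 7 → f ^ r = 1 → ♯(Z ⊓ 𝐜 f) = 1 := fun hr fr => card_eq_one.2
      (eq_bot_iff.2 fun x hx => h.fpf2 hr fr f1 pZ hx.1 (mem_c.1 hx.2).symm)
    rcases e with e | e
    · have := Fact.mk Nat.prime_five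
      have := modeq hf e
      rw [b (.inl rfl) e, Nat.ModEq] at this; omega
    · have := Fact.mk (show Nat.Prime 7 by norm_num)
      have := modeq hf e
      rw [b (.inr rfl) e, Nat.ModEq] at this; omega
  have hT : T ≤ 𝐍 Z := (Om_cen T).trans ((centralizer_le ZT).trans (centralizer_le_normalizer _))
  have hc : c ∈ 𝐍 Z := nZ (hu ▸ uZ) (e4 ▸ inv_mem (mul_mem zZ uZ))
  have hg : g ∈ 𝐍 Z := nZ (by rwa [e1, mul_inv_cancel_right]) (by rwa [e2, mul_inv_cancel_right])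
  generalize 𝐍 Z = H at ch n hT hc hg
  have OT := oP_le_sylIn (k.syl.of_le hT le_top)
  have pO := oP_isPGroup (p := 2) H
  have sp : ∀ t ∈ T, ∃ s ∈ 𝐎 H, t * s * c = c * (t * s) := fun t ht => coset pO (oP_normal H hc) k.c3 (by
    have := tc h ch n hT pT hc k.c3 k.cT (inv_mem ht)
    rwa [commutatorElement_def, inv_inv] at this)
  suffices ∀ q ∈ T, q * c = c * q → q ∈ 𝐎 H by
    rw [← le_antisymm OT fun t ht => by
      obtain ⟨s, hs, e⟩ := sp t ht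
      exact (mul_mem_cancel_right hs).1 (this _ (mul_mem ht (OT hs)) e)]
    exact oP_normal H hg
  intro q hq qc
  by_contra qO
  have sq : ∀ a ∈ T, a * c = c * a → a * a = 1 := fun a ha e => h.no12 k.c3 k.c1 e.symm (h.p8 pT ha)
  have cm : ∀ {a b}, a ∈ T → b ∈ T → a * c = c * a → b * c = c * b → Commute a b := h.comm3 k.c3 k.c1 pT
  obtain ⟨ρ, hρ, ρ3, ρ1, ρc, qρ⟩ := ci h ch n hc k.c3 k.c1 (hT hq) (sq q hq qc) qc qO
  have E : E9 H c ρ := ⟨hc, hρ, k.c3, ρ3, ρc.symm, k.c1, fun e => ρ1 (Sol5.inv3 ρ3 (by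
    obtain ⟨i, rfl⟩ := mem_zpowers_iff.1 e
    rw [← qρ, ((show Commute q c from qc).zpow_right i).eq, mul_inv_cancel_right]))⟩
  have A1 : ∀ a ∈ 𝐎 H, a * c = c * a → a = 1 := fun a ha ac => by
    have h1 := cm (OT ha) hq ac qc
    have h2 := cm (OT (cj' (oP_normal H hρ) ha)) hq
      (((show Commute ρ c from ρc).inv_left.mul_left ac).mul_left ρc) qc
    have h3 : Commute a (ρ * q * ρ⁻¹) := by
      rw [Commute, SemiconjBy, show a * (ρ * q * ρ⁻¹) = ρ * (ρ⁻¹ * a * ρ * q) * ρ⁻¹ by group, h2.eq]; group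
    have h4 : q * (ρ * q * ρ⁻¹) = ρ := by
      rw [show q * (ρ * q * ρ⁻¹) = q * ρ * q⁻¹ * (q * q) * ρ⁻¹ by group, qρ, sq q hq qc, mul_one, ← mul_inv_rev]
      exact inv_eq_of_mul_eq_one_left (by rw [← ρ3, pow_three])
    have h5 := (ce h ch E (oP_le H ha) (h.p8 pO ha) ac (h4 ▸ h1.mul_right h3)).2
    have h6 : ∀ t ∈ T, a * t = t * a := fun t ht => by
      obtain ⟨s, hs, e⟩ := sp t ht
      simpa using ((cm (OT ha) (mul_mem ht (OT hs)) ac e).mul_right (Commute.inv_right (h5 s hs))).eq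
    exact k.cy a (zQ h6) (sq a (OT ha) ac) (fun x hx => h6 x (k.le hx)) ac
  have h1 := ci2 h ch n hc (k.c3 ▸ one_mem _) (fun e => k.c1 (Sol4.one_of (h.p8 pO e) k.c3))
    (B := T ⊓ 𝐜 c) (inf_le_left.trans hT) pT.to_inf_left fun b hb => by
      rw [commutatorElement_eq_one_iff_mul_comm.2 (mem_c.1 hb.2)]; exact one_mem _
  rw [card_eq_one.2 (eq_bot_iff.2 fun a (ha : a ∈ T ⊓ 𝐜 c ⊓ 𝐎 H) => A1 a ha.2 (mem_c.1 ha.1.2))] at h1
  have h2 := (one_lt_card_iff_ne_bot (T ⊓ 𝐜 c)).2 fun e =>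
    qO ((mem_bot.1 (e ▸ ⟨hq, mem_c.2 qc⟩ : q ∈ ⊥)).symm ▸ one_mem _)
  obtain ⟨m, h3⟩ := card5 h (pT.to_le k.le) k.yn k.y5 k.y1
  have := Fact.mk Nat.prime_three
  have h4 := modeq k.cn k.c3
  rw [h3, show Q ⊓ 𝐜 c = T ⊓ 𝐜 c from le_antisymm (inf_le_inf_right _ k.le) fun b hb =>
    ⟨k.fT b hb.1 (mem_c.1 hb.2), hb.2⟩] at h4
  have h5 := ((show 16 ≡ 1 [MOD 3] by decide).pow m).symm.trans h4
  rw [one_pow, Nat.ModEq] at h5
  omega

/-- **No involution with a centralizer of index two.** PROOF. `Y = Ω₁Z(Q) ≠ 1`. If `w ∉ Q`, `nt` (`N = Y ⊓ 𝐜 w`, `inv`) gives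
`Y = 1`. So `w ∈ Q`. `T_w = T ⊓ 𝐜 w` is normal of index `2`; for `s ∈ T - T_w`, `ζ = ⁅w, s⁆ ≠ 1` does not depend on `s` and is
an involution of `Z(T) ⊓ Q`. `r1_five` gives `w ∈ Y`, so `Q ≤ T_w`. `c` fixes no coset `t Q ≠ Q` of `T`
(else it fixes an element of the coset, of `2`-power size, against `fT`). So `T_w ≠ Q`; take `t ∈ T_w - Q`. `|T : Q| ≤ 4` (`v4`),
so `T_w = Q ∪ t Q` and `c t c⁻¹, c⁻¹ t c ∉ T_w`. `w · c w c⁻¹ · c⁻¹ w c = 1` by `cy`. Take the commutator with `t`: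
`c ζ c⁻¹ · c⁻¹ ζ c = 1`, so `c` fixes `ζ`, against `cy`. -/
theorem now (h : H8 G) (k : N5 Q T c y) {w : G} (hw : w ∈ T) (w2 : w * w = 1) : ♯T ≠ 2 * ♯(T ⊓ 𝐜 w) := by
  intro e
  have pT := k.syl.pgroup
  have pQ := pT.to_le k.le
  have i2 : (𝐜 w).relIndex T = 2 := Nat.eq_of_mul_eq_mul_right Nat.card_pos ((card_rel _ _).symm.trans e)
  have ix : ∀ {a b}, a ∈ T → b ∈ T → (a * b ∈ 𝐜 w ↔ (a ∈ 𝐜 w ↔ b ∈ 𝐜 w)) := fun ha hb =>
    mul_mem_iff_of_index_two i2 (a := ⟨_, ha⟩) (b := ⟨_, hb⟩)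
  have wQ : w ∈ Q := by_contra fun wQ => by
    obtain ⟨f, fn, f5, f1, e⟩ := k.inv w hw wQ
    obtain ⟨z, hz, z1⟩ := Om_ex pQ k.ne
    rw [nt h (N := Om Q ⊓ 𝐜 w) (pQ.to_le (Om_le Q)) (Om_nz (k.nQ hw)) (Om_nz fn) f5 f1 (Om_cen Q e) inf_le_left (by
      rw [card_rel (𝐜 w) (Om Q), ← i2]
      exact Nat.mul_le_mul_right _ (relIndex_le_of_le_right ((Om_le Q).trans k.le) (by omega)))
      fun n hn => (mem_c.1 hn.2).symm] at hz
    exact z1 hz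
  obtain ⟨s, hs, sw⟩ : ∃ s ∈ T, s ∉ 𝐜 w := by
    by_contra! a
    rw [relIndex_eq_one.2 a] at i2; omega
  have c1 : ∀ {t}, t ∈ 𝐜 w → t * w * t⁻¹ = w := fun ht => mul_inv_eq_iff_eq_mul.2 (mem_c.1 ht)
  have c2 : ∀ {t}, t ∈ T → t ∉ 𝐜 w → t * w * t⁻¹ = s * w * s⁻¹ := fun {t} ht tw => by
    rw [← c1 ((ix (inv_mem hs) ht).2 (by simp [sw, tw]))]
    conv_lhs => rw [c1 ((ix (inv_mem hs) ht).2 (by simp [sw, tw]))]
    group
  have c3 : ∀ t : G, t * (s * w * s⁻¹) * t⁻¹ = t * s * w * (t * s)⁻¹ := fun t => by group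
  have c4 : ∀ {t}, t ∈ T → t ∈ 𝐜 w → t * (s * w * s⁻¹) * t⁻¹ = s * w * s⁻¹ := fun {t} ht tw => by
    rw [c3, c2 (mul_mem ht hs) (by simp [ix ht hs, sw, tw])]
  have c5 : ∀ {t}, t ∈ T → t ∉ 𝐜 w → t * (s * w * s⁻¹) * t⁻¹ = w := fun {t} ht tw => by
    rw [c3, c1 (by simp [ix ht hs, sw, tw])]
  have v2 : s * w * s⁻¹ * (s * w * s⁻¹) = 1 := by rw [conj_mul, w2]; simp
  have vQ := cj (k.nQ hs) wQ
  have vw : s * w * s⁻¹ ≠ w := fun e => sw (mem_c.2 (mul_inv_eq_iff_eq_mul.1 e))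
  have vO : w ∈ Om Q → s * w * s⁻¹ ∈ Om Q := cj (Om_nz (k.nQ hs))
  generalize s * w * s⁻¹ = v at *
  have wv : Commute w v := mul_inv_eq_iff_eq_mul.1 (c4 hw (mem_c.2 rfl))
  have wY : w ∈ Om Q := ⟨wQ, w2, r1_five h pQ k.yn k.y5 k.y1 (mul_mem wQ vQ)
    (by rw [wv.symm.mul_mul_mul_comm, w2, v2, mul_one]) (fun q hq => (mul_inv_eq_iff_eq_mul.1 (by
      rw [← conj_mul]
      by_cases a : q ∈ 𝐜 w
      · rw [c1 a, c4 (k.le hq) a]
      · rw [c2 (k.le hq) a, c5 (k.le hq) a, wv.eq])).symm) wQ fun q hq => by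
      rw [show ⁅w, q⁆ = w * (q * w * q⁻¹)⁻¹ by simp [commutatorElement_def, mul_assoc]]
      by_cases a : q ∈ 𝐜 w
      · rw [c1 a, mul_inv_cancel]; exact one_mem _
      · rw [c2 (k.le hq) a, inv_eq_of_mul_eq_one_left v2]; exact mem_zpowers _⟩
  have QW : Q ≤ 𝐜 w := fun q hq => mem_c.2 (wY.2.2 q hq).symm
  obtain ⟨t, ht, tw, tQ⟩ : ∃ t ∈ T, t ∈ 𝐜 w ∧ t ∉ Q := by
    by_contra! a
    have h1 := cj k.cT hs
    have h2 : c * s * c⁻¹ ∉ 𝐜 w := fun e => sw (QW (by simpa [mul_assoc] using cj' k.cn (a _ h1 e)))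
    obtain ⟨q, hq, e⟩ := coset pQ k.cn k.c3 (t := s) (by
      simpa only [mul_assoc] using a _ (mul_mem (inv_mem hs) h1) ((ix (inv_mem hs) h1).2 (by simp [sw, h2])))
    exact sw (QW ((mul_mem_cancel_right hq).1 (k.fT _ (mul_mem hs (k.le hq)) e)))
  have st : s * t ∉ 𝐜 w := by simp [ix hs ht, sw, tw]
  have no : ∀ {x a}, a ∉ 𝐜 w → x ∈ 𝐜 w → a * x ∉ Q := fun h1 h2 e => h1 ((mul_mem_cancel_right h2).1 (QW e))
  have no2 : ∀ {x}, s * x ∈ Q → s * t * x ∉ Q := fun {x} h1 h2 => tQ (by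
    simpa [mul_assoc] using cj' (k.nQ hs) (mul_mem h2 (inv_mem h1)))
  have h1 := ((k.v4 t ht tQ s hs).resolve_left fun e => sw (QW e)).resolve_left (no sw tw)
  have h2 := ((k.v4 t ht tQ _ (mul_mem hs ht)).resolve_left fun e => st (QW e)).resolve_left (no st tw)
  have h3 : c * t * c⁻¹ ∉ 𝐜 w := fun e => no2 (h1.resolve_left (no sw e)) (h2.resolve_left (no st e))
  have h4 : c⁻¹ * t * c ∉ 𝐜 w := fun e => no2 (h1.resolve_right (no sw e)) (h2.resolve_right (no st e))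
  have h5 := congrArg (fun x => t * x * t⁻¹) (cy3 k wY)
  simp only [mul_one, mul_inv_cancel] at h5
  rw [show t * (w * (c * w * c⁻¹) * (c⁻¹ * w * c)) * t⁻¹ = t * w * t⁻¹ * (c * (c⁻¹ * t * c * w * (c⁻¹ * t * c)⁻¹) * c⁻¹) *
    (c⁻¹ * (c * t * c⁻¹ * w * (c * t * c⁻¹)⁻¹) * c) by group, c1 tw, c2 (cj' k.cT ht) h4, c2 (cj k.cT ht) h3] at h5
  exact vw (mul_right_cancel (mul_right_cancel ((cy3 k (vO wY)).trans h5.symm)))

/-- **Step B.** PROOF. `z` an involution of `Z(T)`, `H = 𝐜 z ≥ T`, `O = 𝐎 H ≤ T`. If `T ≤ O` done. Otherwise take `a ∈ T - O`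
with `a O` a central involution of `T / O`, and `D` from `sr`; `Y = Ω₁Z(O) ∋ c z c⁻¹`. If `D ≤ 𝐂 Y`, `D ≤ 𝐍 T` by `stepA`, so
`d⁻² ≡ ⁅a, d⁆ ∈ T` and `d³ ∈ O` give `d ∈ T`, `d ∈ O`: contradiction. Otherwise `lemW` contradicts `now`. -/
theorem cl2 (h : H8 G) (c2 : C2 G) (k : N5 Q T c y) : Cl2 G := by
  have pT := k.syl.pgroup
  obtain ⟨z, hz, z1⟩ := Om_ex pT fun e => k.ne (eq_bot_iff.2 (e ▸ k.le))
  have zT : T ≤ 𝐜 z := fun t ht => mem_c.2 (hz.2.2 t ht).symm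
  have ch := c2.cen hz.2.1 z1
  have n := h.n57 hz.2.1 z1
  have OT := oP_le_sylIn (k.syl.of_le zT le_top)
  have nO := oP_normal (p := 2) (𝐜 z)
  refine ⟨T, z, k.syl, hz.2.1, z1, zT, le_antisymm OT (by_contra fun e => ?_) ▸ nO⟩
  obtain ⟨a, ha, a1, a2, a3⟩ := top pT (zT.trans nO) e
  obtain ⟨D, -, d2, d3, d4, d5⟩ := sr h ch n zT pT ha a1 a2 a3
  by_cases b : D ≤ 𝐂 (Om (𝐎 (𝐜 z)))
  · refine d3 fun d hd => ?_
    have h1 := cj (Om_nz k.cT) hz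
    have h2 := k.stepA h c2 hz.1 hz.2.1 z1 zT (mem_c.1 (d2 hd)) (b hd _ ⟨ch ⟨zT h1.1, fun q hq =>
      (h1.2.2 q (OT hq)).symm⟩, h1.2.1, fun q hq => h1.2.2 q (OT hq)⟩).symm
    have h3 := mul_mem (inv_mem (mul_mem (inv_mem (mul_mem ha (cj h2 (inv_mem ha)))) (OT (d5 d hd).2))) (OT (d5 d hd).1)
    rw [show ((a * (d * a⁻¹ * d⁻¹))⁻¹ * (a * d * a⁻¹ * d))⁻¹ * d ^ 3 = d by group] at h3
    have h4 := pow_mem (d5 d hd).1 3
    rwa [← pow_mul, pow_succ, h.p8 pT h3, one_mul] at h4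
  · obtain ⟨w, hw, e⟩ := lemW (Y := Om _) (fun _ hy => hy.2.1) (d2.trans (nO.trans Om_nz)) (zT.trans (nO.trans Om_nz)) pT d4 ha
      (fun d hd => ⟨Om_cen _ (d5 d hd).1, Om_cen _ (d5 d hd).2⟩) b
    exact k.now h (OT hw.1) hw.2.1 e

end N5

end CL.Ord8
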