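import Cfsg.Agent.FGS.Ord6C

/-!
Groups whose element orders are at most eight: modules over the field with two elements on which
all elements of order at least five have norm zero.
-/

set_option autoImplicit false
set_option linter.unusedSectionVars false

namespace CL.Ord8

open Finset

section seven


variable {R V : Type*} [Ring R] [AddCommGroup V] [Module R V] {F : R}
  (hN : 1 + F + F ^ 2 + F ^ 3 + F ^ 4 + F ^ 5 + F ^ 6 = 0) (h2 : (1 : R) + 1 = 0)
include hN h2

theorem seven_inj {a b c : V} (e1 : a + F • b + F ^ 2 • c = 0) (e2 : a + F ^ 2 • b + F ^ 4 • c = 0)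
    (e3 : a + F ^ 4 • b + F • c = 0) : a = 0 ∧ b = 0 ∧ c = 0 := by
  have k : ∀ p q r : R, (p + q + r) • a + (p * F + q * F ^ 2 + r * F ^ 4) • b +
      (p * F ^ 2 + q * F ^ 4 + r * F) • c = 0 := fun p q r => by
    calc _ = p • (a + F • b + F ^ 2 • c) + q • (a + F ^ 2 • b + F ^ 4 • c) + r • (a + F ^ 4 • b + F • c) := by
          simp only [smul_add, add_smul, mul_smul]; abel
      _ = 0 := by rw [e1, e2, e3]; simp
  have k0 := k (F + F ^ 3) (F ^ 2 + F ^ 6) (F ^ 4 + F ^ 5)
  have k1 := k (F + F ^ 4) (F + F ^ 2) (F ^ 2 + F ^ 4)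
  have k2 := k (F ^ 2 + F ^ 4) (F + F ^ 4) (F + F ^ 2)
  rw [show F + F ^ 3 + (F ^ 2 + F ^ 6) + (F ^ 4 + F ^ 5) = 1 by
      linear_combination (norm := noncomm_ring) hN - h2,
    show (F + F ^ 3) * F + (F ^ 2 + F ^ 6) * F ^ 2 + (F ^ 4 + F ^ 5) * F ^ 4 = 0 by
      linear_combination (norm := noncomm_ring) (F ^ 2 + F ^ 3) * hN - (F ^ 3 + F ^ 5 + F ^ 6 + F ^ 7) * h2,
    show (F + F ^ 3) * F ^ 2 + (F ^ 2 + F ^ 6) * F ^ 4 + (F ^ 4 + F ^ 5) * F = 0 by
      linear_combination (norm := noncomm_ring) (F ^ 3 + F ^ 4) * hN - (F ^ 4 + F ^ 7 + F ^ 8 + F ^ 9) * h2] at k0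
  rw [show F + F ^ 4 + (F + F ^ 2) + (F ^ 2 + F ^ 4) = 0 by
      linear_combination (norm := noncomm_ring) (F + F ^ 2 + F ^ 4) * h2,
    show (F + F ^ 4) * F + (F + F ^ 2) * F ^ 2 + (F ^ 2 + F ^ 4) * F ^ 4 = 1 by
      linear_combination (norm := noncomm_ring) (1 + F + F ^ 2) * hN -
        (1 + F + F ^ 2 + F ^ 3 + F ^ 4 + F ^ 5 + F ^ 6 + F ^ 7) * h2,
    show (F + F ^ 4) * F ^ 2 + (F + F ^ 2) * F ^ 4 + (F ^ 2 + F ^ 4) * F = 0 by
      linear_combination (norm := noncomm_ring) (F ^ 3 + F ^ 5 + F ^ 6) * h2] at k1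
  rw [show F ^ 2 + F ^ 4 + (F + F ^ 4) + (F + F ^ 2) = 0 by
      linear_combination (norm := noncomm_ring) (F + F ^ 2 + F ^ 4) * h2,
    show (F ^ 2 + F ^ 4) * F + (F + F ^ 4) * F ^ 2 + (F + F ^ 2) * F ^ 4 = 0 by
      linear_combination (norm := noncomm_ring) (F ^ 3 + F ^ 5 + F ^ 6) * h2,
    show (F ^ 2 + F ^ 4) * F ^ 2 + (F + F ^ 4) * F ^ 4 + (F + F ^ 2) * F = 1 by
      linear_combination (norm := noncomm_ring) (1 + F + F ^ 2) * hN -
        (1 + F + F ^ 2 + F ^ 3 + F ^ 4 + F ^ 5 + F ^ 6 + F ^ 7) * h2] at k2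
  exact ⟨by simpa using k0, by simpa using k1, by simpa using k2⟩

theorem seven_surj {Y : R} (e : Y * F = F ^ 2 * Y) : (F + F ^ 3) * (1 + Y + Y * Y) +
    (F + F ^ 4) * (1 + Y + Y * Y) * F + (F ^ 2 + F ^ 4) * (1 + Y + Y * Y) * F ^ 2 = 1 := by
  have a1 : Y * F ^ 2 = F ^ 4 * Y := by
    linear_combination (norm := noncomm_ring) e * F + F ^ 2 * e
  have a2 : Y * Y * F = F ^ 4 * Y * Y := by
    linear_combination (norm := noncomm_ring) Y * e + a1 * Y
  have a3 : Y * Y * F ^ 2 = F ^ 8 * Y * Y := by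
    linear_combination (norm := noncomm_ring) a2 * F + F ^ 4 * a2
  have h7 : F ^ 7 = 1 := by linear_combination (norm := noncomm_ring) F * hN - hN
  linear_combination (norm := noncomm_ring) (F + F ^ 4) * (e + a2) + (F ^ 2 + F ^ 4) * (a1 + a3) + hN - h2 +
    F * h7 * Y + (F + F ^ 3 + F ^ 6) * h2 * Y + (F + F ^ 3 + F ^ 5) * h7 * Y * Y + (F + F ^ 3 + F ^ 5) * h2 * Y * Y

end seven

variable {Γ Δ V : Type*} [Group Γ] [Group Δ] [AddCommGroup V] [DistribMulAction Γ V]

/-- an elementary abelian `2`-group on which the elements of order at least five have norm zero -/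
structure Md (Γ V : Type*) [Group Γ] [AddCommGroup V] [DistribMulAction Γ V] : Prop where
  two : ∀ v : V, v + v = 0
  nrm : ∀ s : Γ, 5 ≤ orderOf s → ∀ v : V, ∑ k ∈ range (orderOf s), s ^ k • v = 0

namespace Md

variable (h : Md Γ V)
include h

theorem comp (ι : Δ →* Γ) (hι : Function.Injective ι) :
    letI := DistribMulAction.compHom V ι; Md Δ V := by
  let := DistribMulAction.compHom V ι
  refine ⟨h.two, fun s hs v => ?_⟩
  rw [← orderOf_injective ι hι] at hs ⊢
  have := h.nrm _ hs v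
  simp only [← map_pow] at this
  exact this

theorem eq_of_add {a b : V} (e : a + b = 0) : a = b := by
  linear_combination (norm := abel) e - h.two b

theorem n5 {f : Γ} (h5 : f ^ 5 = 1) (h1 : f ≠ 1) (v : V) :
    v + f • v + f ^ 2 • v + f ^ 3 • v + f ^ 4 • v = 0 := by
  have o : orderOf f = 5 := haveI := Fact.mk Nat.prime_five; orderOf_eq_prime h5 h1
  simpa [o, sum_range_succ] using h.nrm f o.ge v

theorem n7 {f : Γ} (h7 : f ^ 7 = 1) (h1 : f ≠ 1) (v : V) :
    v + f • v + f ^ 2 • v + f ^ 3 • v + f ^ 4 • v + f ^ 5 • v + f ^ 6 • v = 0 := by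
  have o : orderOf f = 7 := haveI := Fact.mk (by norm_num : Nat.Prime 7); orderOf_eq_prime h7 h1
  simpa [o, sum_range_succ] using h.nrm f (by omega) v

theorem n6 {x u : Γ} (x3 : x ^ 3 = 1) (x1 : x ≠ 1) (u2 : u * u = 1) (u1 : u ≠ 1) (e : x * u = u * x) (v : V) :
    v + u • v + x • (v + u • v) + x • x • (v + u • v) = 0 := by
  have c : Commute x u := e
  have o : orderOf (x * u) = 6 := by
    have a : orderOf x = 3 := haveI := Fact.mk Nat.prime_three; orderOf_eq_prime x3 x1
    have b : orderOf u = 2 := orderOf_eq_prime (by rwa [pow_two]) u1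
    rw [c.orderOf_mul_eq_mul_orderOf_of_coprime (by rw [a, b]; norm_num), a, b]
  have k := h.nrm (x * u) (by omega) v
  have u2' : u ^ 2 = 1 := by rwa [pow_two]
  simp only [o, sum_range_succ, range_zero, sum_empty, c.mul_pow, pow_succ u 2, pow_succ u 3, pow_succ u 4,
    pow_succ x 3, pow_succ x 4, x3, u2', u2, one_mul, pow_zero, pow_one, one_smul, pow_two x,
    mul_smul] at k
  simp only [smul_add]
  linear_combination (norm := abel) k

/-- the fixed points of an element of order three are fixed by the commuting involutions -/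
theorem f6 {x u : Γ} (x3 : x ^ 3 = 1) (x1 : x ≠ 1) (u2 : u * u = 1) (u1 : u ≠ 1) (e : x * u = u * x) {v : V}
    (hv : x • v = v) : u • v = v := by
  have k := h.n6 x3 x1 u2 u1 e v
  have : x • (v + u • v) = v + u • v := by rw [smul_add, ← mul_smul, e, mul_smul, hv]
  rw [this, this] at k
  exact (h.eq_of_add (by linear_combination (norm := abel) k - h.two (v + u • v))).symm

theorem d10 {f u : Γ} (h5 : f ^ 5 = 1) (h1 : f ≠ 1) (e : u * f = f ^ 4 * u) {v : V} (hv : u • v = v) :
    ∃ z, v = z + u • z := by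
  have e2 : u * f ^ 2 = f ^ 3 * u := by
    calc _ = u * f * f := by rw [pow_two, mul_assoc]
      _ = f ^ 5 * f ^ 3 * u := by rw [e, mul_assoc, e]; group
      _ = _ := by rw [h5, one_mul]
  refine ⟨f • v + f ^ 2 • v, h.eq_of_add ?_⟩
  rw [smul_add u, ← mul_smul, ← mul_smul, e, e2, mul_smul, mul_smul, hv]
  linear_combination (norm := abel) h.n5 h5 h1 v

/-- the norm of an element of order three -/
theorem nx {x : Γ} (x3 : x ^ 3 = 1) (v : V) : x • (v + x • v + x • x • v) = v + x • v + x • x • v := by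
  have : x • x • x • v = v := by rw [← mul_smul, ← mul_smul, ← pow_three', x3, one_smul]
  simp only [smul_add, this]; abel

theorem nfix {x : Γ} {v : V} (hv : x • v = v) : v + x • v + x • x • v = v := by
  rw [hv, hv, h.two, zero_add]

end Md

/-- generators of `A₆`: a Sylow `3`-normaliser and three elements of order five -/
structure A6d (a b y f g k : Γ) : Prop where
  a3 : a ^ 3 = 1
  a1 : a ≠ 1
  ab : a * b = b * a
  ya : y * a = b * y
  yb : y * b = a * a * y
  y4 : y ^ 4 = 1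
  f5 : f ^ 5 = 1 ∧ f ≠ 1
  g5 : g ^ 5 = 1 ∧ g ≠ 1
  k5 : k ^ 5 = 1 ∧ k ≠ 1
  r1 : f ^ 2 = g * (b * y)
  r2 : f ^ 4 = g ^ 3 * y ^ 3
  r3 : f = k ^ 4 * (a * y ^ 3)
  r4 : f ^ 3 = k ^ 3 * (b * y)
  r5 : g ^ 2 = k ^ 2 * y
  r6 : g ^ 4 = k * (a * y ^ 3)

theorem A6d.map {a b y f g k : Γ} (d : A6d a b y f g k) (ι : Γ →* Δ) (hι : Function.Injective ι) :
    A6d (ι a) (ι b) (ι y) (ι f) (ι g) (ι k) := by
  obtain ⟨a3, a1, ab, ya, yb, y4, f5, g5, k5, r1, r2, r3, r4, r5, r6⟩ := d
  constructor <;> simp only [← map_mul, ← map_pow, Ne, map_eq_one_iff ι hι, hι.eq_iff] <;> assumption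

theorem A6d.b3 {a b y f g k : Γ} (d : A6d a b y f g k) : b ^ 3 = 1 := by
  rw [show b = y * a * y⁻¹ by rw [d.ya]; group, conj_pow, d.a3]; group

namespace Md

variable (h : Md Γ V) {a b y f g k : Γ}
include h

/-- a Sylow `3`-subgroup of `A₆` has no fixed points -/
theorem nine (d : A6d a b y f g k) {v : V} (ha : a • v = v) (hb : b • v = v) : v = 0 := by
  have k1 : ∀ w : V, a • w = w → b • w = w → y • w = w → w = 0 := fun w ha hb hy => by
    have y3 : y ^ 3 • w = w := by simp only [pow_succ, pow_zero, mul_smul, hy, one_smul]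
    have e1 := h.n5 d.f5.1 d.f5.2 w
    have e2 := h.n5 d.g5.1 d.g5.2 w
    have e3 := h.n5 d.k5.1 d.k5.2 w
    rw [d.r1, d.r2, d.r4, congrArg (· • w) d.r3] at e1
    rw [d.r5, d.r6] at e2
    simp only [mul_smul, ha, hb, hy, y3] at e1 e2
    linear_combination (norm := abel) e1 + e2 + e3 -
      h.two (w + g • w + g ^ 3 • w + k • w + k ^ 2 • w + k ^ 3 • w + k ^ 4 • w)
  have k2 : ∀ w : V, a • w = w ∧ b • w = w → a • (w + y • w) = w + y • w ∧ b • (w + y • w) = w + y • w :=
    fun w ⟨ha, hb⟩ => by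
    have e1 : b • y • w = y • w := by rw [← mul_smul, ← d.ya, mul_smul, ha]
    have e2 : a • a • y • w = y • w := by rw [← mul_smul, ← mul_smul, ← d.yb, mul_smul, hb]
    have e3 : a • y • w = y • w := by
      conv_lhs => rw [← e2]
      rw [← mul_smul, ← mul_smul, ← pow_three', d.a3, one_smul]
    simp only [smul_add, ha, hb, e1, e3, and_self]
  have k3 : ∀ w : V, a • w = w ∧ b • w = w → w + y • w = 0 → w = 0 := fun w c e =>
    k1 w c.1 c.2 (h.eq_of_add e).symm
  have c := And.intro ha hb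
  refine k3 _ c (k3 _ (k2 _ c) (k3 _ (k2 _ (k2 _ c)) (k3 _ (k2 _ (k2 _ (k2 _ c))) ?_)))
  have : y • y • y • y • v = v := by
    simp only [← mul_smul]; rw [show y * (y * (y * y)) = y ^ 4 by simp [pow_succ, mul_assoc], d.y4, one_smul]
  simp only [smul_add, this]
  linear_combination (norm := abel) h.two (v + 2 • y • v + 3 • y • y • v + 2 • y • y • y • v)

theorem sum4 (d : A6d a b y f g k) (v : V) : v + a • v + a • a • v + (v + b • v + b • b • v) +
    (v + (a * b) • v + (a * b) • (a * b) • v) + (v + (a * b * b) • v + (a * b * b) • (a * b * b) • v) = v := by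
  have c : ∀ w : V, b • a • w = a • b • w := fun w => by rw [← mul_smul, ← d.ab, mul_smul]
  have b3 : ∀ w : V, b • b • b • w = w := fun w => by
    rw [← mul_smul, ← mul_smul, ← pow_three', d.b3, one_smul]
  have e := h.nine d (v := (v + b • v + b • b • v) + a • (v + b • v + b • b • v) + a • a • (v + b • v + b • b • v))
    (h.nx d.a3 _) (by simp only [smul_add, c, b3]; abel)
  simp only [smul_add, c, b3, mul_smul] at e ⊢
  linear_combination (norm := abel) e + h.two v

end Md

/-- the fixed points -/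
def Fx (V : Type*) [AddCommGroup V] [DistribMulAction Γ V] (x : Γ) : AddSubgroup V where
  carrier := {v | x • v = v}
  zero_mem' := smul_zero x
  add_mem' := fun {a b} (c : x • a = a) (d : x • b = b) => show x • (a + b) = a + b by rw [smul_add, c, d]
  neg_mem' := fun {a} (c : x • a = a) => show x • (-a) = -a by rw [smul_neg, c]

/-- the action as a map to the endomorphism ring -/
def tE (V : Type*) [AddCommGroup V] [DistribMulAction Γ V] : Γ →* AddMonoid.End V :=
  DistribMulAction.toAddMonoidEnd Γ V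

theorem tE_smul (g : Γ) (v : V) : tE V g • v = g • v := rfl

theorem end_ext {a b : AddMonoid.End V} (h : ∀ v : V, a • v = b • v) : a = b := AddMonoidHom.ext h

theorem zero_of_card [Finite V] {C : AddSubgroup V} {m n : ℕ} (c : m < n) (h1 : Nat.card C ^ n ≤ Nat.card V)
    (h2 : Nat.card V ≤ Nat.card C ^ m) (v : V) : v = 0 := by
  have : Nat.card C = 1 := by
    by_contra e
    have := Nat.pow_lt_pow_right (show 1 < Nat.card C by have := Nat.card_pos (α := C); omega) c
    omega
  rw [this, one_pow] at h2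
  exact (Finite.card_le_one_iff_subsingleton.1 h2).elim _ _

namespace Md

variable (h : Md Γ V) [Finite V] {a b y f g k : Γ}
include h

theorem endN (h7 : f ^ 7 = 1) (h1 : f ≠ 1) : 1 + tE V f + tE V f ^ 2 + tE V f ^ 3 + tE V f ^ 4 + tE V f ^ 5 +
    tE V f ^ 6 = 0 := end_ext fun v => by
  simpa only [← map_pow, add_smul, one_smul, tE_smul, zero_smul] using h.n7 h7 h1 v

theorem end2 : (1 : AddMonoid.End V) + 1 = 0 := end_ext fun v => h.two v

theorem cube_le (h7 : f ^ 7 = 1) (h1 : f ≠ 1) (e : y * f = f ^ 2 * y) : Nat.card (Fx V y) ^ 3 ≤ Nat.card V := by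
  have e2 : y * f ^ 2 = f ^ 4 * y := by rw [pow_two, ← mul_assoc, e, mul_assoc, e]; group
  have e4 : y * f ^ 4 = f * y := by
    calc _ = y * f ^ 2 * f ^ 2 := by group
      _ = f ^ 7 * f * y := by rw [e2, mul_assoc, e2]; group
      _ = _ := by rw [h7, one_mul]
  let φ : Fx V y × Fx V y × Fx V y →+ V := AddMonoidHom.mk' (fun u => u.1.1 + f • u.2.1.1 + f ^ 2 • u.2.2.1)
    fun u v => by simp only [Prod.fst_add, Prod.snd_add, AddSubgroup.coe_add, smul_add]; abel
  rw [pow_three, ← Nat.card_prod, ← Nat.card_prod]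
  refine Nat.card_le_card_of_injective φ ((injective_iff_map_eq_zero φ).2 ?_)
  rintro ⟨⟨a, ha : y • a = a⟩, ⟨b, hb : y • b = b⟩, ⟨c, hc : y • c = c⟩⟩ (e1 : a + f • b + f ^ 2 • c = 0)
  have k2 := congrArg (y • ·) e1
  simp only [smul_add, ← mul_smul, e, e2, smul_zero] at k2
  simp only [mul_smul, ha, hb, hc] at k2
  have k3 := congrArg (y • ·) k2
  simp only [smul_add, ← mul_smul, e4, e2, smul_zero] at k3
  simp only [mul_smul, ha, hb, hc] at k3
  obtain ⟨rfl, rfl, rfl⟩ := seven_inj (h.endN h7 h1) h.end2 (a := a) (b := b) (c := c)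
    (by simpa only [← map_pow, tE_smul] using e1) (by simpa only [← map_pow, tE_smul] using k2)
    (by simpa only [← map_pow, tE_smul] using k3)
  rfl

theorem zero7 (h7 : f ^ 7 = 1) (h1 : f ≠ 1) (e : y * f = f ^ 2 * y) {v : V} (e0 : v + y • v + y • y • v = 0)
    (e1 : f • v + y • f • v + y • y • f • v = 0) (e2 : f ^ 2 • v + y • f ^ 2 • v + y • y • f ^ 2 • v = 0) :
    v = 0 := by
  have := congrArg (· • v) (seven_surj (h.endN h7 h1) h.end2 (Y := tE V y)
    (by rw [← map_pow, ← map_mul, ← map_mul, e]))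
  simp only [add_smul _ _ v, mul_smul, one_smul, add_smul (1 + tE V y), add_smul 1 (tE V y), ← map_pow, tE_smul,
    e0, e1, e2, smul_zero, add_zero] at this
  exact this.symm

theorem le_cube (h7 : f ^ 7 = 1) (h1 : f ≠ 1) (y3 : y ^ 3 = 1) (e : y * f = f ^ 2 * y) :
    Nat.card V ≤ Nat.card (Fx V y) ^ 3 := by
  let N : V → Fx V y := fun v => ⟨_, h.nx y3 v⟩
  let φ : V →+ Fx V y × Fx V y × Fx V y := AddMonoidHom.mk' (fun v => (N v, N (f • v), N (f ^ 2 • v)))
    fun u v => by
      ext <;> simp only [N, smul_add, Prod.mk_add_mk, AddSubgroup.coe_add] <;> abel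
  rw [pow_three, ← Nat.card_prod, ← Nat.card_prod]
  exact Nat.card_le_card_of_injective φ ((injective_iff_map_eq_zero φ).2 fun v hv =>
    h.zero7 h7 h1 e (congrArg (·.1.1) hv) (congrArg (·.2.1.1) hv) (congrArg (·.2.2.1) hv))

/-- independence of the fixed points in a Sylow `3`-subgroup of `A₆` -/
theorem indep (d : A6d a b y f g k) {p q r t : V} (hp : a • p = p) (hq : b • q = q) (hr : a • b • r = r)
    (ht : a • a • b • t = t) (e : p + q + r + t = 0) : p = 0 ∧ q = 0 ∧ r = 0 ∧ t = 0 := by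
  have c : ∀ w : V, b • a • w = a • b • w := fun w => by rw [← mul_smul, ← d.ab, mul_smul]
  have b3 : ∀ w : V, b • b • b • w = w := fun w => by
    rw [← mul_smul, ← mul_smul, ← pow_three', d.b3, one_smul]
  have a3 : ∀ w : V, a • a • a • w = w := fun w => by
    rw [← mul_smul, ← mul_smul, ← pow_three', d.a3, one_smul]
  have r1 : b • r = a • a • r := by conv_rhs => rw [← hr, a3]
  have t1 : b • t = a • t := by conv_rhs => rw [← ht, a3]
  have n : ∀ w : V, b • (w + a • w + a • a • w) = w + a • w + a • a • w → w + a • w + a • a • w = 0 :=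
    fun w => h.nine d (h.nx d.a3 w)
  have n' : ∀ w : V, a • (w + b • w + b • b • w) = w + b • w + b • b • w → w + b • w + b • b • w = 0 :=
    fun w c => h.nine d c (h.nx d.b3 w)
  have q0 := n q (by simp only [smul_add, c, hq])
  have r0 := n r (by simp only [smul_add, c, r1, a3]; abel)
  have t0 := n t (by simp only [smul_add, c, t1, a3]; abel)
  have p0 := n' p (by simp only [smul_add, ← c, hp])
  have e1 := congrArg (a • ·) e
  have e2 := congrArg (a • ·) e1
  have e3 := congrArg (b • ·) e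
  have e4 := congrArg (b • ·) e3
  simp only [smul_add, smul_zero, hp, hq, r1, t1, c, a3] at e1 e2 e3 e4
  obtain rfl : p = 0 := by linear_combination (norm := abel) e + e1 + e2 - q0 - r0 - t0 - h.two p
  obtain rfl : q = 0 := by linear_combination (norm := abel) e + e3 + e4 - p0 - r0 - t0 - h.two q
  simp only [zero_add, smul_zero] at e e3
  obtain rfl := h.eq_of_add e
  have : a • r = r := smul_left_cancel a (r1.symm.trans t1)
  exact ⟨rfl, rfl, and_self_iff.2 (h.nine d this (t1.trans this))⟩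

/-- `L₃(4)` -/
theorem l34 (d : A6d a b y f g k) {z s : Γ} (hz : z * a = a * b * z) (h7 : s ^ 7 = 1) (h1 : s ≠ 1)
    (e : a * s = s ^ 2 * a) (v : V) : v = 0 := by
  refine zero_of_card (by omega : 3 < 4) ?_ (h.le_cube h7 h1 d.a3 e) v
  let φ : Fx V a × Fx V a × Fx V a × Fx V a →+ V := AddMonoidHom.mk'
    (fun u => u.1.1 + y • u.2.1.1 + z • u.2.2.1.1 + y • z • u.2.2.2.1)
    fun u v => by simp only [Prod.fst_add, Prod.snd_add, AddSubgroup.coe_add, smul_add]; abel
  rw [show Nat.card (Fx V a) ^ 4 = Nat.card (Fx V a × Fx V a × Fx V a × Fx V a) by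
    simp only [Nat.card_prod]; ring]
  refine Nat.card_le_card_of_injective φ ((injective_iff_map_eq_zero φ).2 ?_)
  rintro ⟨⟨p, hp : a • p = p⟩, ⟨q, hq : a • q = q⟩, ⟨r, hr : a • r = r⟩, ⟨t, ht : a • t = t⟩⟩
    (e1 : p + y • q + z • r + y • z • t = 0)
  have z1 : ∀ w : V, a • w = w → a • b • z • w = z • w := fun w c => by
    rw [← mul_smul, ← mul_smul, ← hz, mul_smul, c]
  obtain ⟨rfl, q0, r0, t0⟩ := h.indep d hp (by rw [← mul_smul, ← d.ya, mul_smul, hq]) (z1 r hr) (by
    calc a • a • b • y • z • t = (a * a * (b * y)) • z • t := by simp only [mul_smul]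
      _ = (y * (a * b)) • z • t := by
        rw [← d.ya, ← mul_assoc, ← d.yb, d.ab, mul_assoc]
      _ = _ := by rw [mul_smul, mul_smul, z1 t ht]) e1
  simp only [smul_eq_zero_iff_eq] at q0 r0 t0
  subst q0 r0 t0
  rfl

/-- `A₇` -/
theorem a7 {u s z : Γ} (a3 : a ^ 3 = 1) (a1 : a ≠ 1) (u2 : u * u = 1) (u1 : u ≠ 1) (au : a * u = u * a)
    (f5 : f ^ 5 = 1) (f1 : f ≠ 1) (uf : u * f = f ^ 4 * u) (ab : a * b = b * a) (ya : y * a = b * y)
    (hz : z * (a * b) = a * b * b * z) (h7 : s ^ 7 = 1) (h1 : s ≠ 1) (e : a * b * s = s ^ 2 * (a * b))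
    (v : V) : v = 0 := by
  have b3 : b ^ 3 = 1 := by rw [show b = y * a * y⁻¹ by rw [ya]; group, conj_pow, a3]; group
  have na : ∀ w : V, w + a • w + a • a • w = 0 := fun w => by
    have c := h.nx a3 w
    generalize w + a • w + a • a • w = t at c
    obtain ⟨x, rfl⟩ := h.d10 f5 f1 uf (h.f6 a3 a1 u2 u1 au c)
    exact (h.nfix c).symm.trans (h.n6 a3 a1 u2 u1 au x)
  have nb : ∀ w : V, w + b • w + b • b • w = 0 := fun w => by
    have := congrArg (y • ·) (na (y⁻¹ • w))
    simpa only [smul_add, ← mul_smul y a, ya, mul_smul, smul_inv_smul, smul_zero] using this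
  have c : ∀ w : V, b • a • w = a • b • w := fun w => by rw [← mul_smul, ← ab, mul_smul]
  have b3' : ∀ w : V, b • b • b • w = w := fun w => by
    rw [← mul_smul, ← mul_smul, ← pow_three', b3, one_smul]
  have x3 : (a * b) ^ 3 = 1 := by rw [Commute.mul_pow ab, a3, b3, one_mul]
  refine zero_of_card (by omega : 2 < 3) (h.cube_le h7 h1 e) ?_ v
  let N : V → Fx V (a * b) := fun v => ⟨_, h.nx x3 v⟩
  let φ : V →+ Fx V (a * b) × Fx V (a * b) := AddMonoidHom.mk' (fun v => (N v, N (z⁻¹ • v)))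
    fun u v => by
      ext <;> simp only [N, smul_add, Prod.mk_add_mk, AddSubgroup.coe_add] <;> abel
  rw [pow_two, ← Nat.card_prod]
  refine Nat.card_le_card_of_injective φ ((injective_iff_map_eq_zero φ).2 fun v hv => ?_)
  have e0 : v + (a * b) • v + (a * b) • (a * b) • v = 0 := congrArg (·.1.1) hv
  have e1 : z⁻¹ • v + (a * b) • z⁻¹ • v + (a * b) • (a * b) • z⁻¹ • v = 0 := congrArg (·.2.1) hv
  replace e1 := congrArg (z • ·) e1
  simp only [smul_add, ← mul_smul z (a * b), hz, mul_smul _ z, smul_inv_smul, smul_zero] at e1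
  simp only [mul_smul, c, b3'] at e0 e1
  linear_combination (norm := abel) e0 + e1 - na (b • v) - na (b • b • v) + nb v - h.two v

/-- `S₆` -/
theorem s6 (d : A6d a b y f g k) {u t : Γ} (u2 : u * u = 1) (u1 : u ≠ 1) (au : a * u = u * a)
    (ub : u * b = b * b * u) (t2 : t * t = 1) (t1 : t ≠ 1) (ta : t * a = b * t) (x1 : a * b ≠ 1) (v : V) :
    v = 0 := by
  have c : ∀ w : V, b • a • w = a • b • w := fun w => by rw [← mul_smul, ← d.ab, mul_smul]
  have b3 : ∀ w : V, b • b • b • w = w := fun w => by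
    rw [← mul_smul, ← mul_smul, ← pow_three', d.b3, one_smul]
  have a3 : ∀ w : V, a • a • a • w = w := fun w => by
    rw [← mul_smul, ← mul_smul, ← pow_three', d.a3, one_smul]
  have x3 : (a * b) ^ 3 = 1 := by rw [Commute.mul_pow d.ab, d.a3, d.b3, one_mul]
  have tb : t * b = a * t := by
    calc t * b = t * (b * t) * t := by rw [mul_assoc t, mul_assoc b, t2, mul_one]
      _ = _ := by rw [← ta, ← mul_assoc, t2, one_mul]
  have k1 : ∀ w : V, a • w = w → w = 0 := fun w hw => h.nine d hw (by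
    have e := h.f6 d.a3 d.a1 u2 u1 au (v := b • w) (by rw [← c, hw])
    rw [← mul_smul, ub, mul_smul, mul_smul, h.f6 d.a3 d.a1 u2 u1 au hw] at e
    exact smul_left_cancel b e)
  have k2 : ∀ w : V, (a * b) • w = w → w = 0 := fun w hw => by
    have i : a * b * t = t * (a * b) := by rw [← mul_assoc, ta, mul_assoc b, tb, ← mul_assoc, d.ab]
    have e := h.f6 x3 x1 t2 t1 i (v := a • w) (by rw [← mul_smul, mul_assoc, ← d.ab, mul_smul, hw])
    rw [← mul_smul, ta, mul_smul, h.f6 x3 x1 t2 t1 i hw] at e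
    rw [mul_smul, e] at hw
    exact k1 w (by conv_lhs => rw [← hw, a3])
  have k3 : ∀ w : V, b • w = w → w = 0 := fun w hw => (smul_eq_zero_iff_eq y).1 (k1 _ (by
    conv_lhs => rw [← hw, ← mul_smul y, d.yb, mul_smul, mul_smul, a3]))
  have k4 : ∀ w : V, (a * b * b) • w = w → w = 0 := fun w hw => (smul_eq_zero_iff_eq y).1 (k2 _ (by
    conv_rhs => rw [← hw]
    simp only [mul_smul, ← mul_smul y a, ← mul_smul y b, d.ya, d.yb, c, a3]))
  rw [← h.sum4 d v, k1 _ (h.nx d.a3 v), k3 _ (h.nx d.b3 v), k2 _ (h.nx x3 v), k4 _ (h.nx (by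
    rw [mul_assoc, (Commute.mul_right d.ab d.ab).mul_pow, (Commute.refl b).mul_pow, d.a3, d.b3]; simp) v)]
  simp

/-- `M₁₀` -/
theorem m10 (d : A6d a b y f g k) {s : Γ} (s2 : s * s = y) (s8 : orderOf s = 8) (v : V) : v = 0 := by
  have c : ∀ w : V, b • a • w = a • b • w := fun w => by rw [← mul_smul, ← d.ab, mul_smul]
  have b3 : ∀ w : V, b • b • b • w = w := fun w => by
    rw [← mul_smul, ← mul_smul, ← pow_three', d.b3, one_smul]
  have a3 : ∀ w : V, a • a • a • w = w := fun w => by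
    rw [← mul_smul, ← mul_smul, ← pow_three', d.a3, one_smul]
  have ya : ∀ w : V, y • a • w = b • y • w := fun w => by rw [← mul_smul, d.ya, mul_smul]
  have yb : ∀ w : V, y • b • w = a • a • y • w := fun w => by rw [← mul_smul, d.yb, mul_smul, mul_smul]
  have sy : ∀ w : V, s • s • w = y • w := fun w => by rw [← mul_smul, s2]
  have n8 : ∀ w : V, w + y • w + y • y • w + y • y • y • w + s • (w + y • w + y • y • w + y • y • y • w) = 0 :=
    fun w => by
    have := h.nrm s (by omega) w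
    simp only [s8, sum_range_succ, range_zero, sum_empty, pow_succ', pow_zero, mul_smul, one_smul] at this
    simp only [← sy, smul_add]
    linear_combination (norm := abel) this
  have k1 : ∀ w : V, y • w = w → s • w = w := fun w hw => by
    have e := h.nine d (v := (w + b • w + b • b • w) + a • (w + b • w + b • b • w) + a • a • (w + b • w + b • b • w))
      (h.nx d.a3 _) (by simp only [smul_add, c, b3]; abel)
    have e1 := n8 (a • w + a • b • w)
    rw [show a • w + a • b • w + y • (a • w + a • b • w) + y • y • (a • w + a • b • w) +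
      y • y • y • (a • w + a • b • w) = w by
        simp only [smul_add, ya, yb, hw, c, a3] at e ⊢
        linear_combination (norm := abel) e - h.two w] at e1
    exact (h.eq_of_add e1).symm
  have k2 : ∀ w : V, s • (w + s • w) = w + s • w → s • w = w := fun w e => k1 w (by
    rw [smul_add, sy, add_comm] at e
    exact add_right_cancel e)
  have k3 : ∀ w : V, s • w = w := fun w => by
    refine k2 _ (k2 _ (k2 _ (k2 _ (k2 _ (k2 _ (k2 _ ?_))))))
    have := n8 w
    refine (congrArg (s • ·) ?_).trans ((smul_zero s).trans (Eq.symm ?_)) <;>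
    · simp only [← sy, smul_add] at this ⊢
      linear_combination (norm := abel) this + h.two (3 • s • w + 10 • s • s • w + 17 • s • s • s • w +
        17 • s • s • s • s • w + 10 • s • s • s • s • s • w + 3 • s • s • s • s • s • s • w)
  have k4 : ∀ w : V, y • w = w := fun w => by rw [← sy, k3, k3]
  have e1 := ya v
  have e2 := yb v
  rw [k4, k4] at e1 e2
  have e3 : a • v = v := (smul_left_cancel a (e1.trans e2)).symm
  exact h.nine d e3 (e1.symm.trans e3)

/-- `PGL₂(7)` -/
theorem p27 {s : Γ} (h7 : f ^ 7 = 1) (h1 : f ≠ 1) (s6 : s ^ 6 = 1) (e : s * f = f ^ 3 * s) (v : V) : v = 0 := by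
  have o : orderOf f = 7 := haveI := Fact.mk (by norm_num : Nat.Prime 7); orderOf_eq_prime h7 h1
  have p : ∀ i j : ℕ, s ^ i * f ^ j = f ^ (3 ^ i * j % 7) * s ^ i := fun i j => by
    rw [← o, pow_mod_orderOf, ← mul_inv_eq_iff_eq_mul, ← conj_pow, pow_mul]
    congr 1
    induction i with
    | zero => simp
    | succ i ih =>
      rw [pow_succ', mul_inv_rev, mul_assoc s, mul_assoc s, ← mul_assoc _ (s ^ i)⁻¹, ih, ← mul_assoc, ← conj_pow,
        mul_inv_eq_iff_eq_mul.2 e, ← pow_mul, pow_succ']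
  have ne : ∀ i, 3 ^ i % 7 ≠ 1 → s ^ i ≠ 1 := fun i c d => c (by
    have := p i 1
    rw [d, one_mul, mul_one, mul_one, pow_inj_mod, o] at this
    omega)
  have x3 : (s ^ 2) ^ 3 = 1 := by rwa [← pow_mul]
  have u2 : s ^ 3 * s ^ 3 = 1 := by rwa [← pow_add]
  have xu : s ^ 2 * s ^ 3 = s ^ 3 * s ^ 2 := by rw [← pow_add, ← pow_add]
  have na : ∀ w : V, w + s ^ 2 • w + s ^ 2 • s ^ 2 • w = 0 := fun w => by
    have c := h.nx x3 w
    generalize w + s ^ 2 • w + s ^ 2 • s ^ 2 • w = t at c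
    have ht := h.f6 x3 (ne 2 (by norm_num)) u2 (ne 3 (by norm_num)) xu c
    have k := h.n6 x3 (ne 2 (by norm_num)) u2 (ne 3 (by norm_num)) xu (f ^ 1 • t + f ^ 2 • t + f ^ 3 • t)
    rw [show f ^ 1 • t + f ^ 2 • t + f ^ 3 • t + s ^ 3 • (f ^ 1 • t + f ^ 2 • t + f ^ 3 • t) = t by
      simp only [smul_add, ← mul_smul (s ^ 3), p, mul_smul _ (s ^ 3), ht]
      norm_num
      linear_combination (norm := abel) h.n7 h7 h1 t - h.two t] at k
    exact (h.nfix c).symm.trans k
  exact h.zero7 h7 h1 (y := s ^ 2) (by simpa using p 2 1) (na _) (na _) (na _)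

end Md

end CL.Ord8
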