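import Cfsg.Agent.FGS.Ord8.Defs
import Cfsg.Agent.SOLV.Primitive

set_option autoImplicit false
set_option linter.unusedSectionVars false

namespace CL.Ord8

open Subgroup Cfsg CL.MSS CL.Ord6
open scoped commutatorElement

universe u

variable {G : Type*} [Group G] [Finite G]

namespace R1

variable {Q : Subgroup G} {g y c z b u v q : G}

theorem cj (hg : g ∈ 𝐍 Q) (hu : u ∈ Q) : g * u * g⁻¹ ∈ Q := (mem_normalizer_iff.1 hg u).1 hu

theorem cj' (hg : g ∈ 𝐍 Q) (hu : u ∈ Q) : g⁻¹ * u * g ∈ Q := by simpa using cj (inv_mem hg) hu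

theorem npow (hy : y ∈ 𝐍 Q) (hu : u ∈ Q) (n : ℕ) : (u * y) ^ n * (y ^ n)⁻¹ ∈ Q := by
  induction n with
  | zero => simp
  | succ n ih =>
    rw [show (u * y) ^ (n + 1) * (y ^ (n + 1))⁻¹ = (u * y) ^ n * (y ^ n)⁻¹ * (y ^ n * u * (y ^ n)⁻¹) by
      rw [pow_succ, pow_succ]; group]
    exact mul_mem ih (cj (pow_mem hy n) hu)

theorem n8 (h : H8 G) (p : IsPGroup 2 Q) (hy : y ∈ 𝐍 Q) (hu : u ∈ Q) {r : ℕ} (hr : Odd r) (yr : y ^ r = 1) (y1 : y ≠ 1) :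
    (u * y) ^ 8 ≠ 1 := fun e => by
  have k := npow hy hu 8
  rw [e, one_mul] at k
  have k2 := h.p8 p (inv_mem_iff.1 k)
  rw [← pow_mul] at k2
  refine y1 (orderOf_eq_one_iff.1 (Nat.eq_one_of_dvd_coprimes (a := r) (b := 2 ^ 6) ?_ (orderOf_dvd_of_pow_eq_one yr)
    (orderOf_dvd_of_pow_eq_one k2)))
  exact (Nat.coprime_two_right.2 hr).pow_right _

theorem nr (h : H8 G) (p : IsPGroup 2 Q) (hy : y ∈ 𝐍 Q) (hu : u ∈ Q) {r : ℕ} (yr : y ^ r = 1) :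
    orderOf (u * y) ∣ r * 8 := by
  have k := npow hy hu r
  rw [yr, inv_one, mul_one] at k
  exact orderOf_dvd_of_pow_eq_one (by rw [pow_mul]; exact h.p8 p k)

theorem n57 (h : H8 G) (p : IsPGroup 2 Q) (hy : y ∈ 𝐍 Q) (hu : u ∈ Q) {r : ℕ} (hr : r = 5 ∨ r = 7) (yr : y ^ r = 1)
    (y1 : y ≠ 1) : (u * y) ^ r = 1 := by
  have a := n8 h p hy hu (r := r) (by rcases hr with rfl | rfl <;> decide) yr y1
  have b := nr h p hy hu yr
  rw [Ne, ← orderOf_dvd_iff_pow_eq_one] at a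
  rw [← orderOf_dvd_iff_pow_eq_one]
  have := h (u * y)
  generalize orderOf (u * y) = n at *
  rcases hr with rfl | rfl <;> interval_cases n <;> simp_all

theorem n3 (h : H8 G) (p : IsPGroup 2 Q) (hy : y ∈ 𝐍 Q) (hu : u ∈ Q) (yr : y ^ 3 = 1) (y1 : y ≠ 1) :
    ((u * y) ^ 4) ^ 3 = 1 ∧ (u * y) ^ 4 ≠ 1 := by
  have a := n8 h p hy hu (r := 3) (by decide) yr y1
  have b := nr h p hy hu yr
  refine ⟨?_, fun e => a (by rw [show 8 = 4 * 2 from rfl, pow_mul, e, one_pow])⟩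
  rw [Ne, ← orderOf_dvd_iff_pow_eq_one] at a
  rw [← pow_mul, ← orderOf_dvd_iff_pow_eq_one]
  have := h (u * y)
  generalize orderOf (u * y) = n at *
  interval_cases n <;> simp_all

/-- the second centre -/
def Z2 (Q : Subgroup G) : Subgroup G where
  carrier := {u | u ∈ Q ∧ ∀ q ∈ Q, ∀ r ∈ Q, ⁅u, q⁆ * r = r * ⁅u, q⁆}
  one_mem' := ⟨one_mem _, by simp⟩
  mul_mem' {a b} ha hb := ⟨mul_mem ha.1 hb.1, fun q hq r hr => by
    have e : ⁅a * b, q⁆ = ⁅b, q⁆ * ⁅a, q⁆ := by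
      calc _ = a * ⁅b, q⁆ * a⁻¹ * ⁅a, q⁆ := by simp only [commutatorElement_def]; group
        _ = _ := by rw [← hb.2 q hq a ha.1]; group
    rw [e, mul_assoc, ha.2 q hq r hr, ← mul_assoc, hb.2 q hq r hr, mul_assoc]⟩
  inv_mem' {a} ha := ⟨inv_mem ha.1, fun q hq r hr => by
    have e : ⁅a⁻¹, q⁆ = ⁅a, q⁆⁻¹ := by
      calc _ = (a⁻¹ * ⁅a, q⁆ * a)⁻¹ := by simp only [commutatorElement_def]; group
        _ = _ := by rw [mul_assoc, ha.2 q hq a ha.1]; group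
    rw [e, inv_mul_eq_iff_eq_mul, ← mul_assoc, ha.2 q hq r hr, mul_inv_cancel_right]⟩

theorem cm_cj (g a b : G) : ⁅g * a * g⁻¹, b⁆ = g * ⁅a, g⁻¹ * b * g⁆ * g⁻¹ := by
  simp only [commutatorElement_def]; group

theorem z2_cj (hg : g ∈ 𝐍 Q) (hu : u ∈ Z2 Q) : g * u * g⁻¹ ∈ Z2 Q := ⟨cj hg hu.1, fun q hq r hr => by
  have e := hu.2 _ (cj' hg hq) _ (cj' hg hr)
  rw [cm_cj]
  calc _ = g * (⁅u, g⁻¹ * q * g⁆ * (g⁻¹ * r * g)) * g⁻¹ := by group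
    _ = _ := by rw [e]; group⟩

theorem cm_mul (hu : u ∈ Q) (hv : v ∈ Z2 Q) (hq : q ∈ Q) : ⁅u * v, q⁆ = ⁅u, q⁆ * ⁅v, q⁆ := by
  have k : ⁅u, q⁆ ∈ Q := mul_mem (mul_mem (mul_mem hu hq) (inv_mem hu)) (inv_mem hq)
  calc _ = u * ⁅v, q⁆ * u⁻¹ * ⁅u, q⁆ := by simp only [commutatorElement_def]; group
    _ = _ := by rw [← hv.2 q hq u hu, ← hv.2 q hq _ k]; group

theorem zp (z2 : z * z = 1) {w : G} (hw : w ∈ zpowers z) : w = 1 ∨ w = z := by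
  obtain ⟨n, rfl⟩ := hw
  have e : z ^ (2 : ℤ) = 1 := by rw [zpow_two, z2]
  rcases Int.emod_two_eq_zero_or_one n with c | c
  · exact .inl (show z ^ n = 1 by rw [zpow_eq_zpow_emod n e, c, zpow_zero])
  · exact .inr (show z ^ n = z by rw [zpow_eq_zpow_emod n e, c, zpow_one])

/-- the hypotheses on `z` and `b` -/
structure Hb (Q : Subgroup G) (z b : G) : Prop where
  hz : z ∈ Q
  z2 : z * z = 1
  zc : ∀ q ∈ Q, z * q = q * z
  hb : b ∈ Q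
  k : ∀ q ∈ Q, ⁅b, q⁆ = 1 ∨ ⁅b, q⁆ = z
  z1 : z ≠ 1

open Classical in
/-- the character with kernel `C_Q(b)` -/
noncomputable def lam (b q : G) : ZMod 2 := if ⁅b, q⁆ = 1 then 0 else 1

theorem lam0 (e : ⁅b, q⁆ = 1) : lam b q = 0 := if_pos e

theorem lam1 (e : ⁅b, q⁆ ≠ 1) : lam b q = 1 := if_neg e

theorem zcj (zc : ∀ q ∈ Q, z * q = q * z) (hg : g ∈ 𝐍 Q) (hq : q ∈ Q) : g * z * g⁻¹ * q = q * (g * z * g⁻¹) := by
  calc _ = g * (z * (g⁻¹ * q * g)) * g⁻¹ := by group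
    _ = _ := by rw [zc _ (cj' hg hq)]; group

namespace Hb

variable (H : Hb Q z b)
include H

theorem b2 : b ∈ Z2 Q := ⟨H.hb, fun q hq r hr => by
  rcases H.k q hq with e | e <;> rw [e]
  · simp
  · exact H.zc r hr⟩

theorem add (hu : u ∈ Q) (hv : v ∈ Q) : lam b (u * v) = lam b u + lam b v := by
  have e : ⁅b, u * v⁆ = ⁅b, u⁆ * ⁅b, v⁆ := by
    calc _ = ⁅b, u⁆ * (u * ⁅b, v⁆) * u⁻¹ := by simp only [commutatorElement_def]; group
      _ = _ := by rw [← H.b2.2 v hv u hu]; group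
  have z1 := H.z1
  rcases H.k u hu with a | a <;> rcases H.k v hv with c | c
  all_goals simp only [lam, e, a, c, one_mul, mul_one, H.z2, z1, if_true, if_false]; rfl

/-- step (1) -/
theorem one (h : H8 G) (p : IsPGroup 2 Q) (cn : c ∈ 𝐍 Q) (c3 : c ^ 3 = 1) (c1 : c ≠ 1)
    (n : z * (c * z * c⁻¹) * (c * c * z * (c * c)⁻¹) ≠ 1) (hq : q ∈ Q) (e : q * c = c * q) : ⁅b, q⁆ = 1 := by
  refine (H.k q hq).resolve_right fun a => n ?_
  have cc : c * (c * c) = 1 := by rw [← c3, pow_three]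
  have ci : c⁻¹ = c * c := inv_eq_of_mul_eq_one_right cc
  have cq : ∀ x, ⁅c * x * c⁻¹, q⁆ = c * ⁅x, q⁆ * c⁻¹ := fun x => by
    rw [cm_cj, mul_assoc c⁻¹, e, inv_mul_cancel_left]
  have N : ∀ {x}, x ∈ Z2 Q → x * (c * x * c⁻¹) * (c * (c * x * c⁻¹) * c⁻¹) ∈ Z2 Q ∧
      ⁅x * (c * x * c⁻¹) * (c * (c * x * c⁻¹) * c⁻¹), q⁆ =
        ⁅x, q⁆ * (c * ⁅x, q⁆ * c⁻¹) * (c * (c * ⁅x, q⁆ * c⁻¹) * c⁻¹) := fun {x} hx => by
    have a1 := z2_cj cn hx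
    have a2 := z2_cj cn a1
    exact ⟨mul_mem (mul_mem hx a1) a2, by rw [cm_mul (mul_mem hx.1 a1.1) a2 hq, cm_mul hx.1 a1 hq, cq (c * x * c⁻¹), cq]⟩
  have rot : ∀ x : G, c * (x * (c * x * c⁻¹) * (c * (c * x * c⁻¹) * c⁻¹)) * c⁻¹ =
      x⁻¹ * (x * (c * x * c⁻¹) * (c * (c * x * c⁻¹) * c⁻¹)) * x := fun x => by
    calc _ = c * x * c⁻¹ * (c * (c * x * c⁻¹) * c⁻¹) * ((c * (c * c)) * x * (c * (c * c))⁻¹) := by group
      _ = _ := by rw [cc]; group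
  obtain ⟨m1, e1⟩ := N H.b2
  have r1 := rot b
  generalize b * (c * b * c⁻¹) * (c * (c * b * c⁻¹) * c⁻¹) = x at m1 e1 r1
  obtain ⟨m2, e2⟩ := N m1
  -- `x` commutes with its conjugates
  have k1 : c * x * c⁻¹ = x * ⁅x⁻¹, b⁻¹⁆ := by rw [r1]; simp only [commutatorElement_def]; group
  have hζ := (inv_mem m1).2 _ (inv_mem H.hb)
  have mζ : ⁅x⁻¹, b⁻¹⁆ ∈ Q := by
    have := mul_mem (inv_mem m1.1) (cj cn m1.1)
    rwa [k1, inv_mul_cancel_left] at this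
  generalize ⁅x⁻¹, b⁻¹⁆ = ζ at k1 hζ mζ
  have x1 : Commute x (c * x * c⁻¹) := by
    rw [k1]; exact (Commute.refl x).mul_right (hζ x m1.1).symm
  have x2 : Commute x (c * (c * x * c⁻¹) * c⁻¹) := by
    rw [show c * (c * x * c⁻¹) * c⁻¹ = c * (x * ζ) * c⁻¹ by rw [k1],
      show c * (x * ζ) * c⁻¹ = c * x * c⁻¹ * (c * ζ * c⁻¹) by group]
    exact x1.mul_right (zcj hζ cn m1.1).symm
  have r2 := rot x
  rw [mul_assoc x⁻¹, ← (((Commute.refl x).mul_right x1).mul_right x2).eq, inv_mul_cancel_left] at r2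
  have f := h.comm3 c3 c1 p m2.1 hq (mul_inv_eq_iff_eq_mul.1 r2).symm e
  rw [commutatorElement_eq_one_iff_mul_comm.2 f, e1, a] at e2
  -- `n = N z` is an involution fixed by `c`
  have z1 := cj cn H.hz
  have z2 := cj cn z1
  have r3 := rot z
  have t : ∀ w, w * w = 1 → c * w * c⁻¹ * (c * w * c⁻¹) = 1 := fun w k => by
    calc _ = c * (w * w) * c⁻¹ := by group
      _ = 1 := by rw [k]; group
  have sq : (z * (c * z * c⁻¹) * (c * (c * z * c⁻¹) * c⁻¹)) ^ 2 = 1 := by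
    have d1 : Commute z (c * z * c⁻¹) := H.zc _ z1
    have d2 : Commute z (c * (c * z * c⁻¹) * c⁻¹) := H.zc _ z2
    have d3 : Commute (c * z * c⁻¹) (c * (c * z * c⁻¹) * c⁻¹) := zcj H.zc cn z2
    rw [(d2.mul_left d3).mul_pow, d1.mul_pow, pow_two, pow_two, pow_two, H.z2, t _ H.z2, t _ (t _ H.z2), one_mul, one_mul]
  rw [mul_assoc z⁻¹, ← H.zc _ (mul_mem (mul_mem H.hz z1) z2), inv_mul_cancel_left] at r3
  rw [show c * c * z * (c * c)⁻¹ = c * (c * z * c⁻¹) * c⁻¹ by group]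
  generalize z * (c * z * c⁻¹) * (c * (c * z * c⁻¹) * c⁻¹) = w at e2 r3 sq
  rw [r3, r3, ← pow_two, sq, one_mul] at e2
  exact e2.symm

theorem three (h : H8 G) (p : IsPGroup 2 Q) (cn : c ∈ 𝐍 Q) (c3 : c ^ 3 = 1) (c1 : c ≠ 1)
    (n : z * (c * z * c⁻¹) * (c * c * z * (c * c)⁻¹) ≠ 1) (hq : q ∈ Q) :
    lam b q + lam b (c * q * c⁻¹) + lam b (c * c * q * (c * c)⁻¹) = 0 := by
  obtain ⟨a3, a1⟩ := n3 h p cn hq c3 c1
  have m := npow cn hq 3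
  rw [c3, inv_one, mul_one] at m
  have e : (q * c) ^ 4 = (q * c) ^ 3 * q * c := by rw [pow_succ, mul_assoc]
  have hw := mul_mem m hq
  have w1 : ∀ x ∈ Q, (∀ q ∈ Q, x * q = q * x) → (q * c) ^ 4 * x * ((q * c) ^ 4)⁻¹ = c * x * c⁻¹ := fun x hx k => by
    rw [e]
    generalize (q * c) ^ 3 * q = w at hw
    calc _ = w * (c * x * c⁻¹) * w⁻¹ := by group
      _ = _ := by rw [← zcj k cn hw]; group
  have k := H.one h p (pow_mem (mul_mem (le_normalizer hq) cn) 4) a3 a1 (by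
    rw [show (q * c) ^ 4 * (q * c) ^ 4 * z * ((q * c) ^ 4 * (q * c) ^ 4)⁻¹ =
      (q * c) ^ 4 * ((q * c) ^ 4 * z * ((q * c) ^ 4)⁻¹) * ((q * c) ^ 4)⁻¹ by group, w1 z H.hz H.zc,
      w1 _ (cj cn H.hz) fun q hq => zcj H.zc cn hq]
    rwa [show c * c * z * (c * c)⁻¹ = c * (c * z * c⁻¹) * c⁻¹ by group] at n) m ((Commute.refl _).pow_pow 3 4)
  rw [← H.add hq (cj cn hq), ← H.add (mul_mem hq (cj cn hq)) (cj (mul_mem cn cn) hq)]
  refine lam0 ?_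
  rwa [show q * (c * q * c⁻¹) * (c * c * q * (c * c)⁻¹) = (q * c) ^ 3 * (c ^ 3)⁻¹ by
    simp only [pow_succ, pow_zero]; group, c3, inv_one, mul_one]

end Hb

theorem five {A : Type*} [CommGroup A] (a k : Fin 5 → A) (h1 : ∀ i, a i ≠ 1) (h2 : ∀ i j, a i * a j = 1 → i = j)
    (hk : ∀ i, k i = 1 ∨ k i = a i) (pa : ∏ i, a i = 1) (pk : ∏ i, k i = 1) : (∀ i, k i = 1) ∨ ∀ i, k i = a i := by
  classical
  have L : ∀ T : Finset (Fin 5), T.card ≤ 2 → ∏ i ∈ T, a i = 1 → T = ∅ := fun T c e => by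
    obtain c | c | c : T.card = 0 ∨ T.card = 1 ∨ T.card = 2 := by omega
    · exact Finset.card_eq_zero.1 c
    · obtain ⟨i, rfl⟩ := Finset.card_eq_one.1 c
      exact (h1 i (by simpa using e)).elim
    · obtain ⟨i, j, n, rfl⟩ := Finset.card_eq_two.1 c
      exact (n (h2 i j (by rwa [Finset.prod_pair n] at e))).elim
  let S : Finset (Fin 5) := Finset.univ.filter fun i => k i = a i
  have e1 : ∏ i ∈ S, a i = 1 := by
    rw [← pk, Finset.prod_filter]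
    refine Finset.prod_congr rfl fun i _ => ?_
    split_ifs with c
    exacts [c.symm, ((hk i).resolve_right c).symm]
  have e2 : ∏ i ∈ Sᶜ, a i = 1 := by
    have := Finset.prod_mul_prod_compl S a
    rwa [e1, one_mul, pa] at this
  have c := Finset.card_add_card_compl S
  rw [Fintype.card_fin] at c
  by_cases d : S.card ≤ 2
  · refine .inl fun i => (hk i).resolve_right fun f => ?_
    have : i ∈ S := Finset.mem_filter.2 ⟨Finset.mem_univ _, f⟩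
    simp [L S d e1] at this
  · refine .inr fun i => by_contra fun f => ?_
    have : i ∈ Sᶜ := Finset.mem_compl.2 fun m => f (Finset.mem_filter.1 m).2
    simp [L Sᶜ (by omega) e2] at this

theorem mk {Q : Subgroup G} (hz : z ∈ Q) (z2 : z * z = 1) (zc : ∀ q ∈ Q, z * q = q * z) (hb : b ∈ Q)
    (c : ∀ q ∈ Q, ⁅b, q⁆ ∈ zpowers z) (k : Hb Q z b → ∀ q ∈ Q, lam b q = 0) : ∀ q ∈ Q, b * q = q * b := fun q hq => by
  rw [← commutatorElement_eq_one_iff_mul_comm]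
  by_contra n
  have z1 : z ≠ 1 := fun e => n (((zp z2 (c q hq)).elim id fun a => a.trans e))
  have := k ⟨hz, z2, zc, hb, fun q hq => zp z2 (c q hq), z1⟩ q hq
  rw [lam1 n] at this
  exact one_ne_zero this

end R1

open R1

/-! Common start of `r1_five`, `r1_seven`. `Z₂ = {u ∈ Q | ∀ q ∈ Q, ⁅u, q⁆ ∈ Z(Q)}` is a subgroup invariant under `N(Q)`,
`b ∈ Z₂`, and for fixed `q ∈ Q` the map `u ↦ ⁅u, q⁆` is a homomorphism `Z₂ → Z(Q)`; `q ↦ ⁅b, q⁆` is a homomorphism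
`Q → ⟨z⟩` with kernel `D = C_Q(b)` of index `≤ 2`. -/

open scoped IsMulCommutative in
/-- **No element of `Q` has a centralizer of index two (order five).** -/
theorem r1_five (h : H8 G) {Q : Subgroup G} (p : IsPGroup 2 Q) {y z b : G} (yn : y ∈ 𝐍 Q) (y5 : y ^ 5 = 1)
    (y1 : y ≠ 1) (hz : z ∈ Q) (z2 : z * z = 1) (zc : ∀ q ∈ Q, z * q = q * z) (hb : b ∈ Q)
    (c : ∀ q ∈ Q, ⁅b, q⁆ ∈ zpowers z) : ∀ q ∈ Q, b * q = q * b := by
  refine R1.mk hz z2 zc hb c fun H q hq => ?_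
  have : IsMulCommutative (Q ⊓ 𝐂 Q : Subgroup G) := ⟨⟨fun a b => Subtype.ext (b.2.2 a a.2.1)⟩⟩
  have yi : ∀ i : ℕ, y ^ i ∈ 𝐍 Q := pow_mem yn
  have N : ∀ u ∈ Q, u * (y * u * y⁻¹) * (y ^ 2 * u * (y ^ 2)⁻¹) * (y ^ 3 * u * (y ^ 3)⁻¹) * (y ^ 4 * u * (y ^ 4)⁻¹) = 1 :=
    fun u hu => by
      calc _ = (u * y) ^ 5 * (y ^ 5)⁻¹ := by simp only [pow_succ, pow_zero]; group
        _ = 1 := by rw [n57 h p yn hu (.inl rfl) y5 y1, y5, inv_one, mul_one]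
  let a : Fin 5 → (Q ⊓ 𝐂 Q : Subgroup G) := fun i => ⟨y ^ i.1 * z * (y ^ i.1)⁻¹, cj (yi i) hz, fun r hr => (zcj zc (yi i) hr).symm⟩
  have b2 := fun i => z2_cj (yi i) H.b2
  have b1 : ∀ i, y ^ i * b * (y ^ i)⁻¹ ∈ Q := fun i => cj (yi i) hb
  have q' : y ^ 4 * q * (y ^ 4)⁻¹ ∈ Q := cj (yi 4) hq
  let k : Fin 5 → (Q ⊓ 𝐂 Q : Subgroup G) := fun i => ⟨⁅y ^ i.1 * b * (y ^ i.1)⁻¹, y ^ 4 * q * (y ^ 4)⁻¹⁆,
    Q.mul_mem (Q.mul_mem (Q.mul_mem (b1 i) q') (Q.inv_mem (b1 i))) (Q.inv_mem q'), fun r hr => ((b2 i).2 _ q' r hr).symm⟩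
  have ke : ∀ i : Fin 5, (k i : G) = y ^ i.1 * ⁅b, y ^ (4 - i.1) * q * (y ^ (4 - i.1))⁻¹⁆ * (y ^ i.1)⁻¹ := fun i => by
    have e : y ^ 4 = y ^ i.1 * y ^ (4 - i.1) := by rw [← pow_add]; congr 1; omega
    change ⁅_, _⁆ = _
    rw [cm_cj, e]; congr 3; group
  have inj : ∀ i j : Fin 5, i < j → a i * a j ≠ 1 := fun i j l e => by
    have e1 : y ^ i.1 * z * (y ^ i.1)⁻¹ * (y ^ j.1 * z * (y ^ j.1)⁻¹) = 1 := congrArg Subtype.val e
    have e2 : y ^ j.1 = y ^ i.1 * y ^ (j.1 - i.1) := by rw [← pow_add]; congr 1; omega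
    refine H.z1 (h.fpf2 (.inl rfl) (f := y ^ (j.1 - i.1)) (by rw [← pow_mul, mul_comm, pow_mul, y5, one_pow]) (fun e => ?_) p hz ?_)
    · have := orderOf_dvd_of_pow_eq_one e
      rw [ord5 y5 y1] at this
      omega
    · rw [e2] at e1
      generalize y ^ (j.1 - i.1) = f at e1
      calc f * z = z * ((y ^ i.1)⁻¹ * (y ^ i.1 * z * (y ^ i.1)⁻¹ * (y ^ i.1 * f * z * (y ^ i.1 * f)⁻¹)) * y ^ i.1) * f := by
            rw [← one_mul (f * z), ← z2]; group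
        _ = _ := by rw [e1]; group
  rcases five a k (fun i e => H.z1 (by simpa [a, mul_assoc, mul_eq_one_iff_eq_inv] using congrArg Subtype.val e))
    (fun i j e => by
      rcases lt_trichotomy i j with l | l | l
      exacts [(inj i j l e).elim, l, (inj j i l (mul_comm (a i) _ ▸ e)).elim])
    (fun i => (H.k _ (cj (yi (4 - i.1)) hq)).imp (fun e => Subtype.ext (by rw [ke, e]; simp))
      fun e => Subtype.ext (by rw [ke, e]))
    (by rw [Fin.prod_univ_five]; exact Subtype.ext (by simpa [a] using N z hz))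
    (by
      rw [Fin.prod_univ_five]
      refine Subtype.ext ?_
      change ⁅_, _⁆ * ⁅_, _⁆ * ⁅_, _⁆ * ⁅_, _⁆ * ⁅_, _⁆ = (1 : G)
      rw [← cm_mul (b1 _) (b2 _) q', ← cm_mul (mul_mem (b1 _) (b1 _)) (b2 _) q',
        ← cm_mul (mul_mem (mul_mem (b1 _) (b1 _)) (b1 _)) (b2 _) q',
        ← cm_mul (mul_mem (mul_mem (mul_mem (b1 _) (b1 _)) (b1 _)) (b1 _)) (b2 _) q']
      have := N b hb
      simp only [Fin.val_zero, Fin.val_one, pow_zero, pow_one, one_mul, inv_one, mul_one]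
      exact (congrArg (fun t => ⁅t, y ^ 4 * q * (y ^ 4)⁻¹⁆) this).trans (by simp)) with e | e
  · have := congrArg Subtype.val (e 4)
    rw [ke] at this
    exact lam0 (by simpa using this)
  · have l : ∀ i : Fin 5, lam b (y ^ (4 - i.1) * q * (y ^ (4 - i.1))⁻¹) = 1 := fun i => lam1 fun f => by
      have := congrArg Subtype.val (e i)
      rw [ke, f] at this
      exact H.z1 (by simpa [a, mul_assoc, mul_eq_one_iff_eq_inv] using this.symm)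
    have m := fun i => cj (yi i) hq
    have s := congrArg (lam b) (N q hq)
    rw [H.add (mul_mem (mul_mem (mul_mem hq (cj yn hq)) (m 2)) (m 3)) (m 4), H.add (mul_mem (mul_mem hq (cj yn hq)) (m 2)) (m 3),
      H.add (mul_mem hq (cj yn hq)) (m 2), H.add hq (cj yn hq), lam0 (q := 1) (by simp)] at s
    have l0 : lam b (y ^ 4 * q * (y ^ 4)⁻¹) = 1 := l 0
    have l1 : lam b (y ^ 3 * q * (y ^ 3)⁻¹) = 1 := l 1
    have l2 : lam b (y ^ 2 * q * (y ^ 2)⁻¹) = 1 := l 2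
    have l3 : lam b (y * q * y⁻¹) = 1 := by simpa using l 3
    rw [l0, l1, l2, l3] at s
    generalize lam b q = t at s
    revert t; decide

/-- **The same for `7 : 3`.** -/
theorem r1_seven (h : H8 G) {Q : Subgroup G} (p : IsPGroup 2 Q) {y c z b : G} (yn : y ∈ 𝐍 Q) (y7 : y ^ 7 = 1)
    (y1 : y ≠ 1) (cn : c ∈ 𝐍 Q) (c3 : c ^ 3 = 1) (c1 : c ≠ 1) (e : c * y * c⁻¹ = y ^ 2) (hz : z ∈ Q)
    (z2 : z * z = 1) (zc : ∀ q ∈ Q, z * q = q * z) (cz : c * z = z * c) (hb : b ∈ Q)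
    (k : ∀ q ∈ Q, ⁅b, q⁆ ∈ zpowers z) : ∀ q ∈ Q, b * q = q * b := by
  refine R1.mk hz z2 zc hb k fun H q hq => ?_
  have yi : ∀ i : ℕ, y ^ i ∈ 𝐍 Q := pow_mem yn
  have ce : ∀ n : ℕ, c * y ^ n = y ^ (2 * n) * c := fun n => by
    rw [pow_mul, ← e, conj_pow, inv_mul_cancel_right]
  have md : ∀ n : ℕ, y ^ n = y ^ (n % 7) := fun n => pow_eq_pow_mod n y7
  have N : ∀ u ∈ Q, u * (y ^ 1 * u * (y ^ 1)⁻¹) * (y ^ 2 * u * (y ^ 2)⁻¹) * (y ^ 3 * u * (y ^ 3)⁻¹) * (y ^ 4 * u * (y ^ 4)⁻¹) *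
      (y ^ 5 * u * (y ^ 5)⁻¹) * (y ^ 6 * u * (y ^ 6)⁻¹) = 1 :=
    fun u hu => by
      calc _ = (u * y) ^ 7 * (y ^ 7)⁻¹ := by simp only [pow_succ, pow_zero]; group
        _ = 1 := by rw [n57 h p yn hu (.inr rfl) y7 y1, y7, inv_one, mul_one]
  obtain ⟨Z, hZ⟩ : ∃ Z : ℕ → G, ∀ n, Z n = y ^ n * z * (y ^ n)⁻¹ := ⟨_, fun _ => rfl⟩
  obtain ⟨F, hF⟩ : ∃ F : ℕ → G → ZMod 2, ∀ n g, F n g = lam b (y ^ n * g * q * (y ^ n * g)⁻¹) := ⟨_, fun _ _ => rfl⟩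
  have s1 : ∀ j m : ℕ, y ^ j * c * (y ^ j)⁻¹ * y ^ (j + m) = y ^ (j + 2 * m) * c := fun j m => by
    rw [pow_add, pow_add, mul_assoc (y ^ j) (y ^ (2 * m)), ← ce]; group
  have s2 : ∀ j m : ℕ, y ^ j * c * (y ^ j)⁻¹ * (y ^ j * c * (y ^ j)⁻¹) * y ^ (j + m) = y ^ (j + 4 * m) * (c * c) := fun j m => by
    rw [mul_assoc _ _ (y ^ (j + m)), s1, ← mul_assoc, s1, mul_assoc, ← mul_assoc 2, show 2 * 2 = 4 from rfl]
  have R : ∀ j m₀ : ℕ, j + m₀ = 7 → Z (m₀ % 7) * Z (2 * m₀ % 7) * Z (4 * m₀ % 7) ≠ 1 → ∀ m,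
      F ((j + m) % 7) 1 + F ((j + 2 * m) % 7) c + F ((j + 4 * m) % 7) (c * c) = 0 := fun j m₀ a n m => by
    have t := H.three h p (c := y ^ j * c * (y ^ j)⁻¹) (mul_mem (mul_mem (yi j) cn) (inv_mem (yi j)))
      (by rw [conj_pow, c3]; group) (fun f => c1 (by simpa [mul_assoc, mul_eq_one_iff_eq_inv] using f)) (fun f => n (by
        have f1 := s1 j m₀
        have f2 := s2 j m₀
        rw [a, y7, mul_one] at f1 f2
        rw [f2, f1, pow_add, pow_add] at f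
        have g1 : c * z * c⁻¹ = z := mul_inv_eq_iff_eq_mul.2 cz
        have g2 : y ^ j * y ^ m₀ = 1 := by rw [← pow_add, a, y7]
        rw [hZ, hZ, hZ, ← md, ← md, ← md]
        calc _ = (y ^ j)⁻¹ * ((y ^ j * y ^ m₀) * z * (y ^ j * y ^ m₀)⁻¹ * (y ^ j * y ^ (2 * m₀) * z * (y ^ j * y ^ (2 * m₀))⁻¹) *
              (y ^ j * y ^ (4 * m₀) * z * (y ^ j * y ^ (4 * m₀))⁻¹)) * y ^ j := by simp only [mul_assoc, mul_inv_rev, inv_mul_cancel_left, inv_mul_cancel, mul_one]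
          _ = (y ^ j)⁻¹ * (z * (y ^ j * y ^ (2 * m₀) * (c * z * c⁻¹) * (y ^ j * y ^ (2 * m₀))⁻¹) *
              (y ^ j * y ^ (4 * m₀) * (c * (c * z * c⁻¹) * c⁻¹) * (y ^ j * y ^ (4 * m₀))⁻¹)) * y ^ j := by
            rw [g1, g1, g2, one_mul, inv_one, mul_one]
          _ = 1 := by
            rw [mul_assoc, inv_mul_eq_one, eq_comm, mul_eq_right, ← f]
            simp only [mul_assoc, mul_inv_rev])) (cj (yi (j + m)) hq)
    rw [hF, hF, hF, ← md, ← md, ← md, ← s1, ← s2, ← t]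
    simp only [mul_assoc, mul_inv_rev, mul_one]
  have S : F 0 1 + F 1 1 + F 2 1 + F 3 1 + F 4 1 + F 5 1 + F 6 1 = 0 := by
    have m := fun i => cj (yi i) hq
    have s := congrArg (lam b) (N q hq)
    have m1 := mul_mem hq (m 1)
    have m2 := mul_mem m1 (m 2)
    have m3 := mul_mem m2 (m 3)
    have m4 := mul_mem m3 (m 4)
    have m5 := mul_mem m4 (m 5)
    rw [H.add m5 (m 6), H.add m4 (m 5), H.add m3 (m 4), H.add m2 (m 3), H.add m1 (m 2), H.add hq (m 1),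
      lam0 (q := 1) (by simp)] at s
    simpa only [hF, mul_one, pow_zero, one_mul, inv_one] using s
  have zz : ∀ i j, Z i * Z j = Z j * Z i := fun i j => by rw [hZ, hZ]; exact zcj zc (yi i) (cj (yi j) hz)
  have zl : ∀ i j x, Z i * (Z j * x) = Z j * (Z i * x) := fun i j x => by rw [← mul_assoc, zz, mul_assoc]
  have Z0 : Z 0 = z := by simp [hZ]
  have P := N z hz
  simp only [← hZ, mul_assoc z, mul_assoc (Z _)] at P
  have R0 := R 7 0 rfl (by simpa [Z0, z2] using H.z1)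
  have two : (2 : ZMod 2) = 0 := rfl
  rw [show lam b q = F 0 1 by simp [hF]]
  by_cases n : Z 1 * Z 2 * Z 4 = 1
  · have n' : Z 6 * Z 5 * Z 3 ≠ 1 := fun f => H.z1 (by
      rw [zl 3 4, ← mul_assoc (Z 1), ← mul_assoc (Z 1 * Z 2), n, one_mul, zl 3 5, zz 3 6, zl 5 6, ← mul_assoc (Z 6), f, mul_one] at P
      exact P)
    have R1 := R 1 6 rfl n'
    have R2 := R 2 5 rfl (by rwa [mul_assoc, zl 6 5, zz 6 3, ← mul_assoc] at n')
    have a1 := R0 1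
    have a2 := R0 3
    have a3 := R1 1
    have a4 := R1 4
    have a5 := R2 2
    have a6 := R2 4
    norm_num only at a1 a2 a3 a4 a5 a6
    linear_combination S + a1 + a2 + a3 + a4 + a5 + a6 - (F 1 1 + F 2 1 + F 3 1 + F 4 1 + F 5 1 + F 6 1 + F 2 c + F 3 c + F 6 c +
      F 3 (c * c) + F 4 (c * c) + F 5 (c * c)) * two
  · have R1 := R 6 1 rfl n
    have R2 := R 5 2 rfl (by rwa [mul_assoc, zl 1 2, zz 1 4, ← mul_assoc] at n)
    have a1 := R0 4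
    have a2 := R0 6
    have a3 := R1 3
    have a4 := R1 6
    have a5 := R2 3
    have a6 := R2 5
    norm_num only at a1 a2 a3 a4 a5 a6
    linear_combination S + a1 + a2 + a3 + a4 + a5 + a6 - (F 1 1 + F 2 1 + F 3 1 + F 4 1 + F 5 1 + F 6 1 + F 1 c + F 4 c + F 5 c +
      F 2 (c * c) + F 3 (c * c) + F 4 (c * c)) * two

/-- PROOF. `f` acts without fixed points on `Q - 1`, so `2ⁿ ≡ 1 mod 5`. -/
theorem card5 (h : H8 G) {Q : Subgroup G} (p : IsPGroup 2 Q) {f : G} (fn : f ∈ 𝐍 Q) (f5 : f ^ 5 = 1) (f1 : f ≠ 1) :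
    ∃ m, ♯Q = 16 ^ m := by
  have := Fact.mk (show Nat.Prime 5 by norm_num)
  have e := CL.Prim.card_modEq_card_inf_centralizer (p := 5) (A := zpowers f) (E := Q)
    (IsPGroup.of_card (n := 1) (by rw [Nat.card_zpowers, ord5 f5 f1, pow_one])) (zpowers_le.2 fn)
  rw [show Q ⊓ 𝐂 (zpowers f) = ⊥ from eq_bot_iff.2 fun q hq =>
    h.fpf2 (.inl rfl) f5 f1 p hq.1 (hq.2 f (mem_zpowers f)), card_bot] at e
  obtain ⟨n, hn⟩ := IsPGroup.iff_card.1 p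
  refine ⟨n / 4, ?_⟩
  rw [hn, ← Nat.div_add_mod n 4, pow_add, pow_mul] at e
  have e2 : (2 ^ 4) ^ (n / 4) ≡ 1 ^ (n / 4) [MOD 5] := Nat.ModEq.pow _ (by decide)
  have e3 := ((e2.mul_right _).symm.trans e)
  rw [one_pow, one_mul] at e3
  have : n % 4 < 4 := Nat.mod_lt _ (by norm_num)
  have e4 : n % 4 = 0 := by
    generalize n % 4 = r at *
    interval_cases r <;> first | rfl | exact absurd e3 (by decide)
  rw [hn, show 16 = 2 ^ 4 from rfl, ← pow_mul]; congr 1; omega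

/-- **No transvections.** PROOF. `N ⊓ f N f⁻¹` has index `≤ 4` in `Y` and is centralized by `t` and `f t f⁻¹`, hence by
`t⁻¹ f t f⁻¹ ∈ f⁻² 𝐂 Y`, hence by `f`; so it is trivial and `|Y| ≤ 4`. But `|Y| ≡ 1 mod 5`. -/
theorem nt (h : H8 G) {Y N : Subgroup G} (p : IsPGroup 2 Y) {t f : G} (tn : t ∈ 𝐍 Y) (fn : f ∈ 𝐍 Y) (f5 : f ^ 5 = 1)
    (f1 : f ≠ 1) (e : t * f * t⁻¹ * f ∈ 𝐂 Y) (hN : N ≤ Y) (k : ♯Y ≤ 2 * ♯N) (c : ∀ n ∈ N, t * n = n * t) :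
    Y = ⊥ := by
  have key : ∀ a ∈ N, f * a * f⁻¹ ∈ N → a = 1 := fun a ha hb => by
    refine h.fpf2 (.inl rfl) (f := f ^ 2) (by rw [← pow_mul, mul_comm, pow_mul, f5, one_pow]) (fun e => ?_) p (hN ha) ?_
    · have := orderOf_dvd_of_pow_eq_one e
      rw [ord5 f5 f1] at this
      omega
    · have e1 := e _ (cj fn (hN ha))
      calc f ^ 2 * a = (t * f * t⁻¹)⁻¹ * (t * f * t⁻¹ * f * (f * a * f⁻¹)) * f := by rw [pow_two]; group
        _ = (t * f * t⁻¹)⁻¹ * (f * a * f⁻¹ * t) * f * t⁻¹ * f * f := by rw [← e1]; group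
        _ = t * a * t⁻¹ * f ^ 2 := by rw [← c _ hb, pow_two]; group
        _ = _ := by rw [c _ ha]; group
  have i : Function.Injective fun x : N × N => (⟨x.1 * (f⁻¹ * x.2 * f), mul_mem (hN x.1.2) (cj' fn (hN x.2.2))⟩ : Y) := by
    rintro ⟨a, b⟩ ⟨a', b'⟩ e
    have e1 : a.1 * (f⁻¹ * b * f) = a' * (f⁻¹ * b' * f) := congrArg Subtype.val e
    have e2 : f * (a'.1⁻¹ * a) * f⁻¹ = b' * b.1⁻¹ := by
      calc _ = f * a'.1⁻¹ * (a.1 * (f⁻¹ * b * f)) * f⁻¹ * b.1⁻¹ := by group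
        _ = _ := by rw [e1]; group
    have e3 := key _ (mul_mem (inv_mem a'.2) a.2) (e2 ▸ mul_mem b'.2 (inv_mem b.2))
    rw [e3, mul_one, mul_inv_cancel, eq_comm, mul_inv_eq_one] at e2
    exact Prod.ext (Subtype.ext (inv_mul_eq_one.1 e3).symm) (Subtype.ext e2.symm)
  have l := Nat.card_le_card_of_injective _ i
  rw [Nat.card_prod] at l
  obtain ⟨m, hm⟩ := card5 h p fn f5 f1
  have l2 : ♯N ≤ 2 := by have := Nat.card_pos (α := N); nlinarith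
  rcases m with _ | m
  · exact card_eq_one.1 hm
  · have : 16 ^ 1 ≤ 16 ^ (m + 1) := Nat.pow_le_pow_right (by norm_num) (by omega)
    omega

end CL.Ord8
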