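import Cfsg.Agent.FGS.Ord8.Sol1

/-!
Groups whose element orders are at most eight: a `2`-group normalized by `7 : 3`.
-/

set_option autoImplicit false
set_option linter.unusedSectionVars false

namespace CL.Ord8.R1b

open Subgroup Cfsg CL.MSS CL.Ord6
open scoped commutatorElement

variable {G : Type*} [Group G] [Finite G]

/-- linear algebra in the group algebra of `7 : 3` over the field of two elements -/
theorem key (F : ℤ → ℕ → ZMod 2)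
    (R : ∀ i : ℤ, i = 0 ∨ i = 1 ∨ i = 2 → ∀ a : ℤ,
      F a 0 + F ((2 * a - i) % 7) 1 + F ((2 * (2 * a - i) - i) % 7) 2 = 0)
    (Y : F 0 0 + F 1 0 + F 2 0 + F 3 0 + F 4 0 + F 5 0 + F 6 0 = 0) : F 0 0 = 0 := by
  have r00 : F 0 0 + F 0 1 + F 0 2 = 0 := R 0 (.inl rfl) 0
  have r02 : F 2 0 + F 4 1 + F 1 2 = 0 := R 0 (.inl rfl) 2
  have r04 : F 4 0 + F 1 1 + F 2 2 = 0 := R 0 (.inl rfl) 4
  have r05 : F 5 0 + F 3 1 + F 6 2 = 0 := R 0 (.inl rfl) 5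
  have r06 : F 6 0 + F 5 1 + F 3 2 = 0 := R 0 (.inl rfl) 6
  have r12 : F 2 0 + F 3 1 + F 5 2 = 0 := R 1 (.inr (.inl rfl)) 2
  have r15 : F 5 0 + F 2 1 + F 3 2 = 0 := R 1 (.inr (.inl rfl)) 5
  have r20 : F 0 0 + F 5 1 + F 1 2 = 0 := R 2 (.inr (.inr rfl)) 0
  have r21 : F 1 0 + F 0 1 + F 5 2 = 0 := R 2 (.inr (.inr rfl)) 1
  have r22 : F 2 0 + F 2 1 + F 2 2 = 0 := R 2 (.inr (.inr rfl)) 2
  have r23 : F 3 0 + F 4 1 + F 6 2 = 0 := R 2 (.inr (.inr rfl)) 3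
  have r25 : F 5 0 + F 1 1 + F 0 2 = 0 := R 2 (.inr (.inr rfl)) 5
  have two : (2 : ZMod 2) = 0 := rfl
  linear_combination r00 + r02 + r04 + r05 + r06 + r12 + r15 + r20 + r21 + r22 + r23 + r25 + Y -
    (F 0 0 + F 0 1 + F 0 2 + F 1 0 + F 1 1 + F 1 2 + 2 * F 2 0 + F 2 1 + F 2 2 + F 3 0 + F 3 1 + F 3 2 + F 4 0 + F 4 1 + 2 * F 5 0 + F 5 1 + F 5 2 + F 6 0 + F 6 2) * two

/-- a coset of a `2`-group fixed by an element of odd order contains a fixed point -/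
theorem fixq {N : Subgroup G} (pN : IsPGroup 2 N) {a k : G} {n : ℕ} (hn : n.Coprime 2) (an : a ^ n = 1)
    (ha : a ∈ 𝐍 N) (hk : k ∈ 𝐍 N) (e : a * k * a⁻¹ * k⁻¹ ∈ N) : ∃ s ∈ N, k * s * a = a * (k * s) := by
  have cm : ∀ j : ℕ, a ^ j * k * (a ^ j)⁻¹ * k⁻¹ ∈ N := fun j => by
    induction j with
    | zero => simp
    | succ j ih =>
      have := mul_mem ((mem_normalizer_iff.1 ha _).1 ih) e
      rwa [show a * (a ^ j * k * (a ^ j)⁻¹ * k⁻¹) * a⁻¹ * (a * k * a⁻¹ * k⁻¹) =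
        a ^ (j + 1) * k * (a ^ (j + 1))⁻¹ * k⁻¹ by rw [pow_succ']; group] at this
  obtain ⟨m, hm⟩ := IsPGroup.iff_card.1 pN
  obtain ⟨s, hs, c⟩ := coprime_fixed_point_quotient (zpowers a) N (zpowers_le_of_mem ha)
    (by rw [Nat.card_zpowers, hm]
        exact (hn.coprime_dvd_left (orderOf_dvd_of_pow_eq_one an)).pow_right m)
    (.inr (isSolvable_of_isPGroup pN)) k hk fun x hx => by
      obtain ⟨j, rfl⟩ := mem_powers_iff_mem_zpowers.2 hx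
      exact cm j
  exact ⟨s, hs, (c _ (mem_zpowers a)).symm⟩

open Classical in
/-- the character of `Q` with kernel `C_Q(b)` -/
noncomputable def lam (b q : G) : ZMod 2 := if b * q = q * b then 0 else 1

theorem lam_eq {b q : G} : lam b q = 0 ↔ b * q = q * b := by
  unfold lam; split_ifs with h <;> simp [h]

theorem lam_ne {b q : G} (h : b * q ≠ q * b) : lam b q = 1 := if_neg h

theorem lam_inv (b q : G) : lam b q⁻¹ = lam b q := by
  have : b * q⁻¹ = q⁻¹ * b ↔ b * q = q * b := Commute.inv_right_iff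
  by_cases c : b * q = q * b
  · rw [lam_eq.2 c, lam_eq.2 (this.2 c)]
  · rw [lam_ne c, lam_ne (mt this.1 c)]

variable {Q : Subgroup G} {z b : G}

theorem lam_mul (z2 : z * z = 1) (zc : ∀ q ∈ Q, z * q = q * z) (k : ∀ q ∈ Q, ⁅b, q⁆ ∈ zpowers z) {q r : G}
    (hq : q ∈ Q) (hr : r ∈ Q) : lam b (q * r) = lam b q + lam b r := by
  have e : ⁅b, q * r⁆ = ⁅b, q⁆ * (q * ⁅b, r⁆ * q⁻¹) := by simp only [commutatorElement_def]; group
  have e1 : q * z * q⁻¹ = z := by rw [← zc q hq, mul_inv_cancel_right]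
  have v : ∀ x, ⁅b, x⁆ = 1 → lam b x = 0 := fun x hx => lam_eq.2 (commutatorElement_eq_one_iff_mul_comm.1 hx)
  by_cases z1 : z = 1
  · have u : ∀ x ∈ Q, lam b x = 0 := fun x hx => v x (by simpa [z1] using k x hx)
    rw [u q hq, u r hr, u _ (mul_mem hq hr), add_zero]
  · have w : ∀ x, ⁅b, x⁆ = z → lam b x = 1 := fun x hx =>
      lam_ne fun o => z1 (hx.symm.trans (commutatorElement_eq_one_iff_mul_comm.2 o))
    rcases Sol1.zp2 z2 (k q hq) with a | a <;> rcases Sol1.zp2 z2 (k r hr) with c | c <;> rw [a, c] at e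
    · rw [v _ a, v _ c, v _ (by simpa using e), add_zero]
    · rw [v _ a, w _ c, w _ (by rwa [e1, one_mul] at e), zero_add]
    · rw [w _ a, v _ c, w _ (by simpa using e), add_zero]
    · rw [w _ a, w _ c, v _ (by rwa [e1, z2] at e)]
      rfl

/-- norms under an element of odd order whose fixed points centralize `b` -/
theorem nrm (p : IsPGroup 2 Q) (z2 : z * z = 1) (zc : ∀ q ∈ Q, z * q = q * z)
    (k : ∀ q ∈ Q, ⁅b, q⁆ ∈ zpowers z) {a : G} {n : ℕ} (hn : n.Coprime 2) (an : a ^ n = 1) (ha : a ∈ 𝐍 Q)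
    (f : ∀ q ∈ Q, q * a = a * q → b * q = q * b) {q : G} (hq : q ∈ Q) :
    ∑ j ∈ Finset.range n, lam b (a ^ j * q * (a ^ j)⁻¹) = 0 := by
  have m : ∀ j : ℕ, a ^ j * q * (a ^ j)⁻¹ ∈ Q := fun j => (mem_normalizer_iff.1 (pow_mem ha j) q).1 hq
  have s : ∀ l : ℕ, ∃ x ∈ Q, lam b x = ∑ j ∈ Finset.range l, lam b (a ^ j * q * (a ^ j)⁻¹) ∧
      q * (a * x * a⁻¹) = x * (a ^ l * q * (a ^ l)⁻¹) := fun l => by
    induction l with
    | zero => exact ⟨1, one_mem _, by simp [lam], by simp⟩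
    | succ l ih =>
      obtain ⟨x, hx, e1, e2⟩ := ih
      refine ⟨_, mul_mem hx (m l), by rw [lam_mul z2 zc k hx (m l), e1, Finset.sum_range_succ], ?_⟩
      rw [← conj_mul, ← mul_assoc q, e2, pow_succ']
      group
  obtain ⟨x, hx, e1, e2⟩ := s n
  rw [an, one_mul, inv_one, mul_one] at e2
  have nc : 𝐍 Q ≤ 𝐍 ⁅Q, Q⁆ := le_normalizer_commutator le_rfl le_rfl
  have lc : ⁅Q, Q⁆ ≤ Q := commutator_le.2 fun u hu v hv =>
    mul_mem (mul_mem (mul_mem hu hv) (inv_mem hu)) (inv_mem hv)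
  have cb : ⁅Q, Q⁆ ≤ 𝐜 b := commutator_le.2 fun u hu v hv => mem_c.2 (lam_eq.1 (by
    rw [commutatorElement_def, lam_mul z2 zc k (mul_mem (mul_mem hu hv) (inv_mem hu)) (inv_mem hv),
      lam_mul z2 zc k (mul_mem hu hv) (inv_mem hu), lam_mul z2 zc k hu hv, lam_inv, lam_inv]
    have two : (2 : ZMod 2) = 0 := rfl
    linear_combination (lam b u + lam b v) * two)).symm
  obtain ⟨s, hs, c⟩ := fixq (p.to_le lc) hn an (nc ha) (nc (le_normalizer hx)) (by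
    have := commutator_mem_commutator (inv_mem hq) hx
    rwa [show ⁅q⁻¹, x⁆ = a * x * a⁻¹ * x⁻¹ by
      rw [commutatorElement_def, inv_inv, mul_assoc q⁻¹, ← e2]; group] at this)
  have := lam_eq.2 (f _ (mul_mem hx (lc hs)) c)
  rwa [lam_mul z2 zc k hx (lc hs), lam_eq.2 (mem_c.1 (cb hs)).symm, add_zero, e1] at this

/-- fixed points of an element of order three with `N(z) ≠ 1` centralize `b` -/
theorem fix (h : H8 G) (p : IsPGroup 2 Q) (hz : z ∈ Q) (z2 : z * z = 1) (zc : ∀ q ∈ Q, z * q = q * z) (hb : b ∈ Q)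
    (k : ∀ q ∈ Q, ⁅b, q⁆ ∈ zpowers z) {a : G} (a3 : a ^ 3 = 1) (a1 : a ≠ 1) (ha : a ∈ 𝐍 Q)
    (n : z * (a * z * a⁻¹) * (a * (a * z * a⁻¹) * a⁻¹) ≠ 1) (q : G) (hq : q ∈ Q) (e : q * a = a * q) :
    b * q = q * b := by
  by_contra c
  have cj : ∀ x ∈ Q, a * x * a⁻¹ ∈ Q := fun x hx => (mem_normalizer_iff.1 ha x).1 hx
  have nZ : 𝐍 Q ≤ 𝐍 (Q ⊓ 𝐂 Q) := le_normalizer_inf le_rfl (le_normalizer_centralizer le_rfl)
  have zZ : z ∈ Q ⊓ 𝐂 Q := ⟨hz, fun q hq => (zc q hq).symm⟩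
  have cZ : ∀ x ∈ Q ⊓ 𝐂 Q, a * x * a⁻¹ ∈ Q ⊓ 𝐂 Q := fun x hx => (mem_normalizer_iff.1 (nZ ha) x).1 hx
  have s0 : b * q = z * q * b := by
    rw [← (Sol1.zp2 z2 (k q hq)).resolve_left fun o => c (commutatorElement_eq_one_iff_mul_comm.1 o),
      commutatorElement_def]
    group
  have st : ∀ x ζ, x * q = ζ * q * x → a * x * a⁻¹ * q = a * ζ * a⁻¹ * q * (a * x * a⁻¹) := fun x ζ hx => by
    calc a * x * a⁻¹ * q = a * x * a⁻¹ * (q * a) * a⁻¹ := by group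
      _ = a * (x * q) * a⁻¹ := by rw [e]; group
      _ = a * ζ * a⁻¹ * (a * q) * x * a⁻¹ := by rw [hx]; group
      _ = _ := by rw [← e]; group
  have s1 := st _ _ s0
  have s2 := st _ _ s1
  have m1 := cj _ hb
  have m2 := cj _ m1
  have u1 := cZ _ zZ
  have u2 := cZ _ u1
  have s3 : a * (a * (a * b * a⁻¹) * a⁻¹) * a⁻¹ = b := by
    rw [show a * (a * (a * b * a⁻¹) * a⁻¹) * a⁻¹ = a ^ 3 * b * (a ^ 3)⁻¹ by rw [pow_three]; group, a3]
    group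
  generalize hb1 : a * b * a⁻¹ = b1 at s1 s2 m1 m2 s3
  generalize hb2 : a * b1 * a⁻¹ = b2 at s2 m2 s3
  generalize a * z * a⁻¹ = z1 at s1 s2 u1 u2 n
  generalize a * z1 * a⁻¹ = z' at s2 u2 n
  have mb := mul_mem (mul_mem hb m1) m2
  obtain ⟨s, hs, f1⟩ := fixq (p.to_le (inf_le_left (b := 𝐂 Q))) (n := 3) (by norm_num) a3 (nZ ha)
    (nZ (le_normalizer mb)) (by
      have := inv_mem (zpowers_le_of_mem zZ (k _ (mul_mem m1 m2)))
      rwa [show ⁅b, b1 * b2⁆⁻¹ = a * (b * b1 * b2) * a⁻¹ * (b * b1 * b2)⁻¹ by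
        rw [← conj_mul, ← conj_mul, hb1, hb2, s3, commutatorElement_def]; group] at this)
  have f2 := h.comm3 a3 a1 p (mul_mem mb hs.1) hq f1 e
  rw [mul_assoc, ← hs.2 q hq, ← mul_assoc, ← mul_assoc, mul_left_inj] at f2
  have f3 : b * b1 * b2 * q = z * z1 * z' * (q * (b * b1 * b2)) := by
    calc b * b1 * b2 * q = b * b1 * (b2 * q) := by group
      _ = (b * b1 * z') * q * b2 := by rw [s2]; group
      _ = z' * b * (b1 * q) * b2 := by rw [u2.2 _ (mul_mem hb m1)]; group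
      _ = z' * (b * z1) * q * b1 * b2 := by rw [s1]; group
      _ = z' * z1 * (b * q) * b1 * b2 := by rw [u1.2 _ hb]; group
      _ = z' * (z1 * z) * (q * (b * b1 * b2)) := by rw [s0]; group
      _ = _ := by rw [← u1.2 _ hz, ← u2.2 _ (mul_mem hz u1.1)]
  rw [f2] at f3
  exact n (by simpa using f3)

theorem core (h : H8 G) (p : IsPGroup 2 Q) {y c : G} (yn : y ∈ 𝐍 Q) (y7 : y ^ 7 = 1)
    (y1 : y ≠ 1) (cn : c ∈ 𝐍 Q) (c3 : c ^ 3 = 1) (c1 : c ≠ 1) (e : c * y * c⁻¹ = y ^ 2) (hz : z ∈ Q)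
    (z2 : z * z = 1) (zc : ∀ q ∈ Q, z * q = q * z) (cz : c * z = z * c) (hb : b ∈ Q)
    (k : ∀ q ∈ Q, ⁅b, q⁆ ∈ zpowers z) (z1 : z ≠ 1)
    (n : z * (y⁻¹ * z * y) * ((y ^ 3)⁻¹ * z * y ^ 3) ≠ 1) (q : G) (hq : q ∈ Q) : b * q = q * b := by
  have cy : ∀ m : ℤ, c * y ^ m = y ^ (2 * m) * c := fun m => by
    rw [← mul_inv_eq_iff_eq_mul, ← conj_zpow, e, zpow_mul, zpow_ofNat]
  have ci : ∀ i m : ℤ, y ^ i * c * (y ^ i)⁻¹ * y ^ m = y ^ (2 * m - i) * c := fun i m => by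
    calc y ^ i * c * (y ^ i)⁻¹ * y ^ m = y ^ i * (c * y ^ (m - i)) := by group
      _ = _ := by rw [cy]; group
  have cw : ∀ i m : ℤ, y ^ i * c * (y ^ i)⁻¹ * (y ^ m * z * (y ^ m)⁻¹) * (y ^ i * c * (y ^ i)⁻¹)⁻¹ =
      y ^ (2 * m - i) * z * (y ^ (2 * m - i))⁻¹ := fun i m => by
    calc _ = y ^ i * c * (y ^ i)⁻¹ * y ^ m * z * (y ^ i * c * (y ^ i)⁻¹ * y ^ m)⁻¹ := by group
      _ = y ^ (2 * m - i) * (c * z) * c⁻¹ * (y ^ (2 * m - i))⁻¹ := by rw [ci]; group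
      _ = _ := by rw [cz]; group
  have c0 : ∀ i : ℤ, y ^ i * c * (y ^ i)⁻¹ * z * (y ^ i * c * (y ^ i)⁻¹)⁻¹ = y ^ (-i) * z * (y ^ (-i))⁻¹ :=
    fun i => by simpa using cw i 0
  have N : ∀ i : ℤ, i = 0 ∨ i = 1 ∨ i = 2 →
      z * (y ^ (-i) * z * (y ^ (-i))⁻¹) * (y ^ (2 * -i - i) * z * (y ^ (2 * -i - i))⁻¹) ≠ 1 := by
    have n1 : z * (y ^ (-1 : ℤ) * z * (y ^ (-1 : ℤ))⁻¹) * (y ^ (-3 : ℤ) * z * (y ^ (-3 : ℤ))⁻¹) ≠ 1 := by
      simpa [zpow_ofNat] using n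
    rintro _ (rfl | rfl | rfl)
    · simpa [z2] using z1
    · exact n1
    · intro o
      have a1 := cw 0 (-1)
      have a2 := cw 0 (-3)
      rw [zpow_zero, one_mul, inv_one, mul_one] at a1 a2
      apply n1
      rw [← conj_eq_one_iff (a := c), ← conj_mul, ← conj_mul, a1, a2, cz, mul_inv_cancel_right]
      exact o
  have y0 : ∀ m : ℤ, y ^ (m % 7) = y ^ m := fun m => (zpow_eq_zpow_emod m (by exact_mod_cast y7)).symm
  have K := key fun a j => lam b (y ^ a * c ^ j * q * (y ^ a * c ^ j)⁻¹)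
  refine lam_eq.1 ((congrArg (lam b) (by group)).trans (K (fun i hi a => ?_) ?_))
  · have an : y ^ i * c * (y ^ i)⁻¹ ∈ 𝐍 Q := mul_mem (mul_mem (zpow_mem yn i) cn) (inv_mem (zpow_mem yn i))
    have a3 : (y ^ i * c * (y ^ i)⁻¹) ^ 3 = 1 := by rw [conj_pow, c3]; group
    have := nrm p z2 zc k (n := 3) (by norm_num) a3 an
      (fix h p hz z2 zc hb k a3 (fun o => c1 (conj_eq_one_iff.1 o)) an (by rw [c0, cw]; exact N i hi))
      ((mem_normalizer_iff.1 (zpow_mem yn a) q).1 hq)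
    rw [Finset.sum_range_succ, Finset.sum_range_succ, Finset.sum_range_one] at this
    have a1 := ci i a
    have a2 := ci i (2 * a - i)
    simp only [y0]
    generalize y ^ i * c * (y ^ i)⁻¹ = d at *
    rw [pow_one, ← a1, pow_two, ← mul_assoc _ c c, ← a2, mul_assoc d _ c, ← a1]
    simpa [pow_two, mul_assoc] using this
  · have := nrm p z2 zc k (n := 7) (by norm_num) y7 yn
      (fun q hq o => by rw [h.fpf2 (.inr rfl) y7 y1 p hq o.symm, one_mul, mul_one]) hq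
    simpa [Finset.sum_range_succ, zpow_ofNat] using this

theorem r1_seven (h : H8 G) {Q : Subgroup G} (p : IsPGroup 2 Q) {y c z b : G} (yn : y ∈ 𝐍 Q) (y7 : y ^ 7 = 1)
    (y1 : y ≠ 1) (cn : c ∈ 𝐍 Q) (c3 : c ^ 3 = 1) (c1 : c ≠ 1) (e : c * y * c⁻¹ = y ^ 2) (hz : z ∈ Q)
    (z2 : z * z = 1) (zc : ∀ q ∈ Q, z * q = q * z) (cz : c * z = z * c) (hb : b ∈ Q)
    (k : ∀ q ∈ Q, ⁅b, q⁆ ∈ zpowers z) : ∀ q ∈ Q, b * q = q * b := by
  by_cases z1 : z = 1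
  · exact fun q hq => commutatorElement_eq_one_iff_mul_comm.1 (by simpa [z1] using k q hq)
  by_cases n : z * (y⁻¹ * z * y) * ((y ^ 3)⁻¹ * z * y ^ 3) = 1
  · refine core h p (inv_mem yn) (by rw [inv_pow, y7, inv_one]) (inv_ne_one.2 y1) cn c3 c1
      (by rw [inv_pow, ← e]; group) hz z2 zc cz hb k z1 fun o => z1 ?_
    have m : y * z * y⁻¹ ∈ Q := (mem_normalizer_iff.1 yn z).1 hz
    have a1 : y ^ 3 * z * (y ^ 3)⁻¹ * (y * (y * z * y⁻¹) * y⁻¹) * z = 1 := by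
      rw [← conj_eq_one_iff (a := (y ^ 3)⁻¹), ← n]; group
    have a2 : y ^ 3 * z * (y ^ 3)⁻¹ * (y * z * y⁻¹) * z = 1 := by
      rw [inv_inv, inv_pow, inv_inv, zc _ m, mul_eq_one_comm] at o
      rwa [mul_assoc]
    have a3 := mul_left_cancel (mul_right_cancel (a1.trans a2.symm))
    exact conj_eq_one_iff.1 (h.fpf2 (.inr rfl) y7 y1 p m (mul_inv_eq_iff_eq_mul.1 a3))
  · exact core h p yn y7 y1 cn c3 c1 e hz z2 zc cz hb k z1 n

end CL.Ord8.R1b
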