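import Cfsg.Agent.FGS.Ord8.Defs
import Cfsg.Agent.SOLV.CoprimeGen

set_option autoImplicit false
set_option linter.unusedSectionVars false

namespace CL.Ord8

open Subgroup Cfsg CL.MSS CL.Ord6
open scoped commutatorElement

universe u

variable {G : Type*} [Group G] [Finite G]

variable {H : Subgroup G}

namespace Sol1

variable {e f : G}

theorem cen {u : G} (ue : u * e = e * u) (uf : u * f = f * u) {a : G} (ha : a ∈ closure ({e, f} : Set G)) :
    a * u = u * a := by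
  refine mem_c.1 ((closure_le (K := 𝐜 u)).2 ?_ ha)
  rintro _ (rfl | rfl)
  exacts [mem_c.2 ue.symm, mem_c.2 uf.symm]

theorem le (E : E9 H e f) : closure ({e, f} : Set G) ≤ H := by
  refine (closure_le H).2 ?_
  rintro _ (rfl | rfl)
  exacts [E.he, E.hf]

theorem comm (E : E9 H e f) {a b : G} (ha : a ∈ closure ({e, f} : Set G)) (hb : b ∈ closure ({e, f} : Set G)) :
    a * b = b * a :=
  cen (cen rfl E.cm hb) (cen E.cm.symm rfl hb) ha

theorem cube (E : E9 H e f) {a : G} (ha : a ∈ closure ({e, f} : Set G)) : a ^ 3 = 1 := by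
  induction ha using closure_induction with
  | mem x hx =>
    rcases hx with rfl | rfl
    exacts [E.e3, E.f3]
  | one => simp
  | mul x y hx hy a b => rw [Commute.mul_pow (comm E hx hy), a, b, one_mul]
  | inv x _ a => rw [inv_pow, a, inv_one]

theorem pg3 (E : E9 H e f) : IsPGroup 3 (closure ({e, f} : Set G)) :=
  isPGroup_iff_forall_mem.2 fun _ ha => ⟨1, by rw [pow_one]; exact cube E ha⟩

theorem ncyc (E : E9 H e f) : ¬ IsCyclic (closure ({e, f} : Set G)) := fun c => by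
  obtain ⟨g, hg⟩ := c.exists_generator
  have h1 : Nat.card (closure ({e, f} : Set G)) ∣ 3 := by
    rw [← orderOf_eq_card_of_forall_mem_zpowers hg]
    exact orderOf_dvd_of_pow_eq_one (Subtype.ext (cube E g.2))
  have h2 : zpowers e ≤ closure ({e, f} : Set G) := zpowers_le_of_mem (subset_closure (.inl rfl))
  have h3 := eq_of_le_of_card_ge h2 (by
    rw [Nat.card_zpowers, ord3 E.e3 E.e1]; exact Nat.le_of_dvd (by norm_num) h1)
  exact E.ne (h3 ▸ subset_closure (.inr rfl))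

theorem cop {A K : Subgroup G} (pA : IsPGroup 3 A) (pK : IsPGroup 2 K) : (Nat.card A).Coprime (Nat.card K) :=
  haveI := Fact.mk Nat.prime_three
  IsPGroup.coprime_card_of_ne 3 2 (by norm_num) A K pA pK

/-- a `2`-group normalized by a `3²` is generated by the centralizers of its nonidentity elements -/
theorem gen (E : E9 H e f) {K L : Subgroup G} (pK : IsPGroup 2 K) (n : H ≤ 𝐍 K)
    (h : ∀ w ∈ closure ({e, f} : Set G), w ≠ 1 → ∀ q ∈ K, q * w = w * q → q ∈ L) : K ≤ L :=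
  haveI : IsMulCommutative (closure ({e, f} : Set G)) := ⟨⟨fun a b => Subtype.ext (comm E a.2 b.2)⟩⟩
  coprime_le_of_forall_centralizer_le _ K L (ncyc E) ((le E).trans n) (cop (pg3 E) pK)
    fun w hw w1 q hq => h w hw w1 q hq.1 (mem_c.1 hq.2)

theorem pg8 {u : G} (u8 : u ^ 8 = 1) : IsPGroup 2 (zpowers u) := by
  refine IsPGroup.of_card_dvd_pow (n := 3) ?_
  rw [Nat.card_zpowers]
  exact orderOf_dvd_of_pow_eq_one u8

theorem pgO {u : G} (hu : u ∈ H) (u8 : u ^ 8 = 1) : IsPGroup 2 (zpowers u ⊔ 𝐎 H : Subgroup G) :=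
  isPGroup_sup_of_normalizes (pg8 u8) (oP_isPGroup H) ((zpowers_le_of_mem hu).trans (oP_normal H))

theorem cjO {g q : G} (hg : g ∈ H) (hq : q ∈ 𝐎 H) : g * q * g⁻¹ ∈ 𝐎 H :=
  (mem_normalizer_iff.1 (oP_normal H hg) q).1 hq

theorem fix3 {c n ζ : G} (c3 : c ^ 3 = 1) (e : c * n * c⁻¹ = ζ * n) (h1 : c * ζ = ζ * c) (h2 : ζ * ζ = 1) :
    c * n = n * c := by
  have e1 : c * ζ * c⁻¹ = ζ := mul_inv_eq_iff_eq_mul.2 h1
  have : c * (c * (c * n * c⁻¹) * c⁻¹) * c⁻¹ = ζ * n := by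
    rw [e, ← conj_mul (b := c) (a := ζ), e1, e, ← mul_assoc ζ, h2, one_mul, e]
  rw [show c * (c * (c * n * c⁻¹) * c⁻¹) * c⁻¹ = c ^ 3 * n * (c ^ 3)⁻¹ by rw [pow_three]; group, c3] at this
  rw [← mul_inv_eq_iff_eq_mul, e, ← this]; group

theorem zp2 {z w : G} (h2 : z * z = 1) (hw : w ∈ zpowers z) : w = 1 ∨ w = z := by
  obtain ⟨n, rfl⟩ := hw
  have e : z ^ (2 : ℤ) = 1 := by rw [zpow_two, h2]
  rcases Int.emod_two_eq_zero_or_one n with c | c
  · exact .inl (show z ^ n = 1 by rw [zpow_eq_zpow_emod n e, c, zpow_zero])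
  · exact .inr (show z ^ n = z by rw [zpow_eq_zpow_emod n e, c, zpow_one])

theorem zp3 {z w : G} (h3 : z ^ 3 = 1) (hw : w ∈ zpowers z) : w = 1 ∨ w = z ∨ w = z⁻¹ := by
  obtain ⟨n, rfl⟩ := hw
  have e : z ^ (3 : ℤ) = 1 := by exact_mod_cast h3
  have : n % 3 = 0 ∨ n % 3 = 1 ∨ n % 3 = 2 := by omega
  rcases this with c | c | c
  · exact .inl (show z ^ n = 1 by rw [zpow_eq_zpow_emod n e, c, zpow_zero])
  · exact .inr (.inl (show z ^ n = z by rw [zpow_eq_zpow_emod n e, c, zpow_one]))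
  · refine .inr (.inr (show z ^ n = z⁻¹ from ?_))
    rw [zpow_eq_zpow_emod n e, c, eq_inv_iff_mul_eq_one, zpow_two, ← pow_three', h3]

/-- the `3`-part of an element whose cube lies in a `2`-group -/
theorem part3 {K : Subgroup G} (pK : IsPGroup 2 K) {g : G} (g3 : g ^ 3 ∈ K) :
    ∃ k : ℕ, (g ^ k) ^ 3 = 1 ∧ (g ^ k)⁻¹ * g ∈ K := by
  obtain ⟨m, hm⟩ := isPGroup_iff_forall_mem.1 pK _ g3
  obtain ⟨t, ht⟩ : ∃ t, 2 ^ m * 2 ^ m = 3 * t + 1 := by
    refine ⟨2 ^ m * 2 ^ m / 3, ?_⟩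
    have : 2 ^ m * 2 ^ m % 3 = 1 := by rw [← mul_pow, Nat.pow_mod]; simp
    omega
  refine ⟨2 ^ m * 2 ^ m, ?_, ?_⟩
  · rw [← pow_mul, mul_comm, pow_mul, pow_mul, hm, one_pow]
  · rw [ht, pow_succ', pow_mul, mul_inv_rev, inv_mul_cancel_right]
    exact inv_mem (pow_mem g3 t)

end Sol1

open Sol1

/-- **`2`-elements centralizing a `3²` lie in `Z(O₂(H))`.** PROOF. `O = 𝐎 H` is generated by the `C_O(w)`, `1 ≠ w ∈ ⟨e,f⟩`
(coprime action of a non-cyclic abelian group). `u` normalizes `O`, so `⟨u⟩ O` is a `2`-group and `H8.comm3` shows that `u`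
centralizes each `C_O(w)`. So `u ∈ H ⊓ 𝐂 O ≤ O`. -/
theorem ce (h : H8 G) (ch : Ch H) {e f u : G} (E : E9 H e f) (hu : u ∈ H) (u8 : u ^ 8 = 1)
    (ue : u * e = e * u) (uf : u * f = f * u) : u ∈ 𝐎 H ∧ ∀ q ∈ 𝐎 H, u * q = q * u := by
  have k : 𝐎 H ≤ 𝐜 u := gen E (oP_isPGroup H) (oP_normal H) fun w hw w1 q hq c =>
    mem_c.2 (h.comm3 (cube E hw) w1 (pgO hu u8) (mem_sup_right hq) (mem_sup_left (mem_zpowers u)) c
      (cen ue uf hw).symm)
  exact ⟨ch ⟨hu, fun q hq => mem_c.1 (k hq)⟩, fun q hq => (mem_c.1 (k hq)).symm⟩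

/-- **Lemma E.** PROOF. `z ∈ Z(O)` by `ce`. Fix `1 ≠ w ∈ ⟨e,f⟩` and `q ∈ C_O(w)`. `U = {u ∈ O | [u, O] ≤ ⟨z⟩}` is a
`w`-invariant subgroup, `u ↦ ⁅u, q⁆` is a homomorphism `U → ⟨z⟩` which is constant on `w`-orbits, so
`⁅b, q⁆ = ⁅b', q⁆` for `b' = b · b^w · b^(w²)`. `U / ⟨z⟩` is abelian, so `w b' w⁻¹ ∈ b' ⟨z⟩`, hence `w` centralizes `b'`
(`Ord6.fix3` in `Ord6I`: `w² ` fixes it) and `H8.comm3` gives `⁅b', q⁆ = 1`. The `C_O(w)` generate `O`. -/
theorem lemE (h : H8 G) (ch : Ch H) {e f z b : G} (E : E9 H e f) (hz : z ∈ H) (z2 : z * z = 1)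
    (ze : z * e = e * z) (zf : z * f = f * z) (hb : b ∈ 𝐎 H) (c : ∀ q ∈ 𝐎 H, ⁅b, q⁆ ∈ zpowers z) :
    ∀ q ∈ 𝐎 H, b * q = q * b := by
  obtain ⟨-, zc⟩ := ce h ch E hz (by rw [show 8 = 2 * 4 from rfl, pow_mul, pow_two, z2, one_pow]) ze zf
  have k : 𝐎 H ≤ 𝐜 b := gen E (oP_isPGroup H) (oP_normal H) fun w hw w1 q hq wq => by
    have w3 := cube E hw
    have wH := le E hw
    have wz := cen ze zf hw
    have P : ∀ ζ ∈ zpowers z, ζ * ζ = 1 ∧ w * ζ = ζ * w ∧ ∀ q ∈ 𝐎 H, ζ * q = q * ζ := fun ζ hζ => by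
      rcases zp2 z2 hζ with rfl | rfl
      · simp
      · exact ⟨z2, wz, zc⟩
    obtain ⟨a1, a2, a3⟩ := P _ (c q hq)
    have st : ∀ x, x * q = ⁅b, q⁆ * q * x → w * x * w⁻¹ * q = ⁅b, q⁆ * q * (w * x * w⁻¹) := fun x hx => by
      calc w * x * w⁻¹ * q = w * x * w⁻¹ * (q * w) * w⁻¹ := by group
        _ = w * (x * q) * w⁻¹ := by rw [wq]; group
        _ = w * ⁅b, q⁆ * q * x * w⁻¹ := by rw [hx]; group
        _ = ⁅b, q⁆ * (w * q) * x * w⁻¹ := by rw [a2]; group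
        _ = _ := by rw [← wq]; group
    have s0 : b * q = ⁅b, q⁆ * q * b := by rw [commutatorElement_def]; group
    have s1 := st _ s0
    have s2 := st _ s1
    have m1 := cjO wH hb
    have m2 := cjO wH m1
    have s3 : w * (w * (w * b * w⁻¹) * w⁻¹) * w⁻¹ = b := by
      rw [show w * (w * (w * b * w⁻¹) * w⁻¹) * w⁻¹ = w ^ 3 * b * (w ^ 3)⁻¹ by rw [pow_three]; group, w3]
      group
    generalize hb1 : w * b * w⁻¹ = b1 at s1 s2 m1 m2 s3
    generalize hb2 : w * b1 * w⁻¹ = b2 at s2 m2 s3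
    obtain ⟨d1, d2, -⟩ := P _ (inv_mem (c _ (mul_mem m1 m2)))
    have f1 : w * (b * b1 * b2) = b * b1 * b2 * w := fix3 w3 (by
      calc w * (b * b1 * b2) * w⁻¹ = w * b * w⁻¹ * (w * b1 * w⁻¹) * (w * b2 * w⁻¹) := by group
        _ = _ := by rw [hb1, hb2, s3, commutatorElement_def]; group) d2 d1
    have f2 := h.comm3 w3 w1 (oP_isPGroup H) (mul_mem (mul_mem hb m1) m2) hq f1.symm wq
    have f3 : b * b1 * b2 * q = ⁅b, q⁆ * (q * (b * b1 * b2)) := by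
      generalize ⁅b, q⁆ = ζ at *
      calc b * b1 * b2 * q = b * b1 * (b2 * q) := by group
        _ = (b * b1 * ζ) * q * b2 := by rw [s2]; group
        _ = ζ * b * (b1 * q) * b2 := by rw [← a3 _ (mul_mem hb m1)]; group
        _ = ζ * (b * ζ) * q * b1 * b2 := by rw [s1]; group
        _ = ζ * ζ * (b * q) * b1 * b2 := by rw [← a3 _ hb]; group
        _ = _ := by rw [a1, s0]; group
    rw [f2] at f3
    have f4 : ⁅b, q⁆ = 1 := by simpa using f3
    exact mem_c.2 (commutatorElement_eq_one_iff_mul_comm.1 f4).symm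
  exact fun q hq => (mem_c.1 (k hq)).symm

/-- **No `3²` centralizes an involution of `H / O₂(H)`.** PROOF. `D = O ⊔ ⟨s⟩` is a `2`-group normalized by the `3`-group
`E = ⟨e,f⟩`, which fixes the coset `s O`; by coprime action (count: `E` acts on the coset `s O` of `2`-power size, so has a
fixed point) some `s' ∈ s O` centralizes `E`, and `ce` gives `s' ∈ O`. -/
theorem cy (h : H8 G) (ch : Ch H) {e f s : G} (E : E9 H e f) (hs : s ∈ H) (s8 : s ^ 8 = 1)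
    (se : ⁅s, e⁆ ∈ 𝐎 H) (sf : ⁅s, f⁆ ∈ 𝐎 H) : s ∈ 𝐎 H := by
  have k : ∀ a ∈ closure ({e, f} : Set G), a * s * a⁻¹ * s⁻¹ ∈ 𝐎 H := fun a ha => by
    induction ha using closure_induction with
    | mem x hx =>
      rcases hx with rfl | rfl
      · simpa [commutatorElement_def, mul_assoc] using inv_mem se
      · simpa [commutatorElement_def, mul_assoc] using inv_mem sf
    | one => simp
    | mul x y hx hy a b =>
      have := mul_mem (cjO (le E hx) b) a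
      rwa [show x * (y * s * y⁻¹ * s⁻¹) * x⁻¹ * (x * s * x⁻¹ * s⁻¹) = x * y * s * (x * y)⁻¹ * s⁻¹ by group] at this
    | inv x hx a =>
      have := cjO (inv_mem (le E hx)) (inv_mem a)
      rwa [show x⁻¹ * (x * s * x⁻¹ * s⁻¹)⁻¹ * x⁻¹⁻¹ = x⁻¹ * s * x⁻¹⁻¹ * s⁻¹ by group] at this
  obtain ⟨n, hn, c⟩ := coprime_fixed_point_quotient _ (𝐎 H) ((le E).trans (oP_normal H))
    (cop (pg3 E) (oP_isPGroup H)) (.inr (isSolvable_of_isPGroup (oP_isPGroup (p := 2) H))) s (oP_normal H hs) k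
  have := (ce h ch E (mul_mem hs (oP_le H hn))
    (h.p8 (pgO hs s8) (mul_mem (mem_sup_left (mem_zpowers s)) (mem_sup_right hn)))
    (c e (subset_closure (.inl rfl))).symm (c f (subset_closure (.inr rfl))).symm).1
  simpa using mul_mem this (inv_mem hn)

/-- **Lifting a `3²`.** If `H / O₂(H)` contains a `3²`, so does `H`, with the same image. PROOF. A Sylow `3`-subgroup `P` of
`K = O ⊔ ⟨a, b⟩` meets `O` trivially and covers `K / O`; take the elements of `P` in `a O` and `b O`. -/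
theorem e9_lift {a b : G} (ha : a ∈ H) (hb : b ∈ H) (a3 : a ^ 3 ∈ 𝐎 H) (b3 : b ^ 3 ∈ 𝐎 H) (c : ⁅a, b⁆ ∈ 𝐎 H)
    (a1 : a ∉ 𝐎 H) (ne : ∀ i : ℕ, a ^ i * b ∉ 𝐎 H) :
    ∃ e f, E9 H e f ∧ e⁻¹ * a ∈ 𝐎 H ∧ f⁻¹ * b ∈ 𝐎 H := by
  have pO := oP_isPGroup (p := 2) H
  obtain ⟨k, e3, ea⟩ := part3 pO a3
  have he : a ^ k ∈ H := pow_mem ha k
  have cm : ∀ j : ℕ, a ^ j * b * (a ^ j)⁻¹ * b⁻¹ ∈ 𝐎 H := fun j => by
    induction j with
    | zero => simp
    | succ j ih =>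
      have := mul_mem (cjO ha ih) c
      rwa [show a * (a ^ j * b * (a ^ j)⁻¹ * b⁻¹) * a⁻¹ * ⁅a, b⁆ = a ^ (j + 1) * b * (a ^ (j + 1))⁻¹ * b⁻¹ by
        rw [commutatorElement_def, pow_succ']; group] at this
  have p3 : IsPGroup 3 (zpowers (a ^ k)) := by
    refine IsPGroup.of_card_dvd_pow (n := 1) ?_
    rw [Nat.card_zpowers]
    exact orderOf_dvd_of_pow_eq_one e3
  obtain ⟨n, hn, cc⟩ := coprime_fixed_point_quotient (zpowers (a ^ k)) (𝐎 H)
    ((zpowers_le_of_mem he).trans (oP_normal H)) (cop p3 pO) (.inr (isSolvable_of_isPGroup pO)) b (oP_normal H hb)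
    fun x hx => by
      obtain ⟨j, rfl⟩ := mem_powers_iff_mem_zpowers.2 hx
      simpa only [← pow_mul] using cm (k * j)
  have c1 : Commute (a ^ k) (b * n) := cc _ (mem_zpowers _)
  generalize a ^ k = e at *
  have n3 : (b * n) ^ 3 ∈ 𝐎 H := by
    have := mul_mem (mul_mem (mul_mem (cjO hb hn) (cjO hb (cjO hb hn))) (cjO hb (cjO hb (cjO hb hn)))) b3
    rwa [show b * n * b⁻¹ * (b * (b * n * b⁻¹) * b⁻¹) * (b * (b * (b * n * b⁻¹) * b⁻¹) * b⁻¹) * b ^ 3 =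
      (b * n) ^ 3 by rw [pow_three, pow_three]; group] at this
  obtain ⟨l, f3, fb⟩ := part3 pO n3
  have hf : (b * n) ^ l ∈ H := pow_mem (mul_mem hb (oP_le H hn)) l
  have c2 := (c1.pow_right l).eq
  generalize (b * n) ^ l = f at *
  have fb' : f⁻¹ * b ∈ 𝐎 H := by simpa [← mul_assoc] using mul_mem fb (inv_mem hn)
  refine ⟨e, f, ⟨he, hf, e3, f3, c2, fun o => a1 (by simpa [o] using ea), fun o => ?_⟩, ea, fb'⟩
  rcases zp3 e3 o with rfl | rfl | rfl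
  · exact ne 0 (by simpa using fb')
  · refine ne 2 ?_
    have := mul_mem (mul_mem a3 (inv_mem ea)) fb'
    rwa [show a ^ 3 * (f⁻¹ * a)⁻¹ * (f⁻¹ * b) = a ^ 2 * b by group] at this
  · refine ne 1 ?_
    have := mul_mem (cjO he ea) fb'
    rwa [show e * (e⁻¹ * a) * e⁻¹ * (e⁻¹⁻¹ * b) = a ^ 1 * b by group] at this

end CL.Ord8
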