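import Cfsg.Agent.FGS.Ord8.Defs
import Cfsg.Agent.SOLV.CoprimeGen

set_option autoImplicit false
set_option linter.unusedSectionVars false

namespace CL.Ord8.Sol2a

open Subgroup Cfsg CL.MSS CL.Ord6
open scoped commutatorElement

variable {G : Type*} [Group G] [Finite G] {H : Subgroup G}

theorem core [Group.IsSolvable G] (o : pCore 2 G = ⊥) {A : Subgroup G} (el : ∀ a ∈ A, a * a = 1) (n : A ≠ ⊥) :
    ∃ B : Subgroup G, B.relIndex A = 2 ∧ ∃ a ∈ A, ∃ u : G, a ∉ B ∧ (u⁻¹ * a * u * a⁻¹) ^ 8 ≠ 1 ∧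
      ∀ b ∈ A, b ∈ B → b * u = u * b := by
  have F2 : ∀ t ∈ fittingSubgroup G, t ^ 8 = 1 → t = 1 := fun t ht e =>
    mem_bot.1 (o ▸ le_pCore_of_le_fittingSubgroup (zpowers_le.2 ht) (IsPGroup.of_card_dvd_pow (n := 3)
      (by rw [Nat.card_zpowers]; exact orderOf_dvd_of_pow_eq_one e)) (mem_zpowers t))
  have e8 : ∀ {t : G}, t * t = 1 → t ^ 8 = 1 := fun {t} e => by
    rw [show 8 = 2 * 4 from rfl, pow_mul, pow_two, e, one_pow]
  have : IsMulCommutative A := ⟨⟨fun a b => Subtype.ext (comm_sq el a.2 b.2)⟩⟩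
  have cop : (Nat.card A).Coprime (Nat.card (fittingSubgroup G)) := by
    obtain ⟨k, hk⟩ := (show IsPGroup 2 A from fun a => ⟨1, Subtype.ext (by simpa [pow_two] using el _ a.2)⟩).exists_card_eq
    rw [hk]
    refine Nat.Coprime.pow_left _ ((Nat.Prime.coprime_iff_not_dvd Nat.prime_two).2 fun c => ?_)
    obtain ⟨t, ht⟩ := exists_prime_orderOf_dvd_card' 2 c
    have e : t.1 * t.1 = 1 := by
      have := congrArg Subtype.val (pow_orderOf_eq_one t)
      rwa [ht, pow_two] at this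
    rw [show t = 1 from Subtype.ext (F2 _ t.2 (e8 e)), orderOf_one] at ht
    omega
  by_contra c
  push Not at c
  have := coprime_le_of_forall_hyperplane A (fittingSubgroup G) (𝐂 A) Nat.prime_two
    (fun a ha => by rw [pow_two, el a ha]) n le_normalizer_of_normal cop fun B hB i u hu a ha => by
      by_cases aB : a ∈ B
      · exact hu.2 a aB
      by_contra ne
      obtain ⟨b, -, h1, h2⟩ := c B i a ha u aB fun e => ne (by
        have := F2 _ (by
          simpa only [mul_assoc] using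
            mul_mem (inv_mem (mem_inf.1 hu).1) ((fittingSubgroup_normal G).conj_mem u hu.1 a)) e
        calc _ = u * (u⁻¹ * a * u * a⁻¹) * a := by group
          _ = _ := by rw [this, mul_one])
      exact h2 (hu.2 b h1)
  exact n (eq_bot_iff.2 fun a ha => mem_bot.2 (F2 a (centralizer_fittingSubgroup_le G fun u hu => (this hu a ha).symm)
    (e8 (el a ha))))

theorem dih (h : H8 G) (sol : Group.IsSolvable H) {A : Subgroup G} (hA : A ≤ H) (el : ∀ a ∈ A, a * a = 1)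
    (n : ¬ A ≤ 𝐎 H) : ∃ (A1 : Subgroup G) (a x : G), A1 ≤ A ∧ ♯A = 2 * ♯A1 ∧ A ⊓ 𝐎 H ≤ A1 ∧ a ∈ A ∧ a ∉ A1 ∧
      x ∈ H ∧ x ≠ 1 ∧ (x ^ 3 = 1 ∨ x ^ 5 = 1 ∨ x ^ 7 = 1) ∧ a * x * a⁻¹ = x⁻¹ ∧ ∀ b ∈ A1, ⁅b, x⁆ ∈ 𝐎 H := by
  have := Fact.mk Nat.prime_two
  obtain ⟨φ, hφ⟩ : ∃ φ, φ = QuotientGroup.mk' (pCore 2 H) := ⟨_, rfl⟩
  have ker : ∀ g : H, φ g = 1 ↔ g.1 ∈ 𝐎 H := fun g => by
    rw [hφ, QuotientGroup.mk'_apply, QuotientGroup.eq_one_iff, mem_oP_iff]
  obtain ⟨B, i, _, ⟨a, ha, rfl⟩, u, aB, w8, hu⟩ := core (G := H ⧸ pCore 2 H) oP_pCore_quotient_pCore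
    (A := (A.subgroupOf H).map φ) (by
      rintro _ ⟨a, ha, rfl⟩
      rw [← map_mul, show a * a = 1 from Subtype.ext (el _ ha), map_one])
    fun e => n fun a ha => (ker ⟨a, hA ha⟩).1 (mem_bot.1 (e ▸ mem_map_of_mem φ ha))
  obtain ⟨u, rfl⟩ : ∃ v, φ v = u := hφ ▸ QuotientGroup.mk'_surjective _ u
  obtain ⟨w, hw⟩ : ∃ w, w = u⁻¹ * a * u * a⁻¹ := ⟨_, rfl⟩
  have w8' : w.1 ^ 8 ≠ 1 := fun e => w8 (by
    rw [← map_inv, ← map_inv, ← map_mul, ← map_mul, ← map_mul, ← map_pow, ← hw,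
      show w ^ 8 = 1 from Subtype.ext e, map_one])
  have ai : a.1⁻¹ = a := inv_eq_of_mul_eq_one_right (el _ ha)
  refine ⟨(A.subgroupOf H ⊓ B.comap φ).map H.subtype, a, w.1 ^ 4, ?_, ?_, ?_, ha, ?_, pow_mem w.2 _,
    fun e => w8' (by rw [show 8 = 4 * 2 from rfl, pow_mul, e, one_pow]), ?_, ?_, ?_⟩
  · rintro _ ⟨b, hb, rfl⟩; exact hb.1
  · rw [card_map_of_injective H.subtype_injective, ← Nat.card_congr (subgroupOfEquivOfLe hA).toEquiv,
      ← relIndex_comap] at *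
    generalize comap φ B = C at i ⊢
    rw [← i, ← relIndex_bot_left, ← relIndex_bot_left, mul_comm, ← inf_relIndex_left _ C,
      relIndex_mul_relIndex _ _ _ bot_le inf_le_left]
  · exact fun b hb => ⟨⟨b, hA hb.1⟩, mem_inf.2 ⟨hb.1, by rw [mem_comap, (ker _).2 hb.2]; exact one_mem _⟩, rfl⟩
  · rintro ⟨b, hb, e⟩
    exact aB (by rw [← show b = a from Subtype.ext e]; exact hb.2)
  · simp only [← pow_mul, ← orderOf_dvd_iff_pow_eq_one, ne_eq] at w8' ⊢
    have := h w.1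
    have := orderOf_pos w.1
    generalize orderOf w.1 = m at *
    interval_cases m <;> simp_all
  · rw [← conj_pow, ← inv_pow, hw]
    simp only [coe_mul, coe_inv, mul_inv_rev, ai, inv_inv, mul_assoc, show a.1 * a.1 = 1 from el _ ha, mul_one]
  · rintro _ ⟨b, hb, rfl⟩
    refine (ker ⁅b, w ^ 4⁆).1 ?_
    have c1 : Commute (φ b) (φ u) := hu _ (mem_map_of_mem φ hb.1) hb.2
    have c2 : Commute (φ b) (φ a) := Commute.map (Subtype.ext (comm_sq el hb.1 ha)) φ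
    rw [map_commutatorElement, commutatorElement_eq_one_iff_commute, map_pow, hw]
    simp only [map_mul, map_inv]
    exact (((c1.inv_right.mul_right c2).mul_right c1).mul_right c2.inv_right).pow_right _

end CL.Ord8.Sol2a
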