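import Cfsg.Agent.SOLV.Basic
import Cfsg.Agent.SOLV.Core
import Cfsg.Agent.SIG.PBase
import Cfsg.Agent.PERM.SpecSolv
import Cfsg.Agent.S0017
import Cfsg.Agent.SOLV.CoprimeGen
import Cfsg.Agent.FGS.Ord8.Sol1

set_option autoImplicit false
set_option linter.unusedSectionVars false

namespace CL.Ord8

open Subgroup Cfsg CL.MSS CL.Ord6
open scoped commutatorElement

universe u

variable {G : Type*} [Group G] [Finite G]

variable {H : Subgroup G}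

namespace S3x

theorem p24 (h : H8 G) (n : N57 H) {g : G} (hg : g ∈ H) : g ^ 24 = 1 := by
  rw [← orderOf_dvd_iff_pow_eq_one]
  have h1 := h g
  have h2 := orderOf_pos g
  have h5 : orderOf g ≠ 5 := fun e => by
    rw [n g hg (.inl (by rw [← e, pow_orderOf_eq_one])), orderOf_one] at e; omega
  have h7 : orderOf g ≠ 7 := fun e => by
    rw [n g hg (.inr (by rw [← e, pow_orderOf_eq_one])), orderOf_one] at e; omega
  generalize orderOf g = m at *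
  interval_cases m <;> simp_all

theorem zp2 {t z : G} (ht : t * t = 1) (hz : z ∈ zpowers t) : z = 1 ∨ z = t := by
  obtain ⟨k, rfl⟩ := hz
  have e : t ^ (2 : ℤ) = 1 := by rw [zpow_two, ht]
  rcases Int.emod_two_eq_zero_or_one k with c | c
  · exact .inl (show t ^ k = 1 by rw [zpow_eq_zpow_emod k e, c, zpow_zero])
  · exact .inr (show t ^ k = t by rw [zpow_eq_zpow_emod k e, c, zpow_one])

theorem sq3 {t : G} (ht : t ^ 3 = 1) : t * t = t⁻¹ := eq_inv_of_mul_eq_one_left (by rw [← ht, pow_succ, pow_two])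

theorem zp3 {t z : G} (ht : t ^ 3 = 1) (hz : z ∈ zpowers t) : z = 1 ∨ z = t ∨ z = t⁻¹ := by
  obtain ⟨k, rfl⟩ := hz
  have e : t ^ (3 : ℤ) = 1 := by exact_mod_cast ht
  rcases (by omega : k % 3 = 0 ∨ k % 3 = 1 ∨ k % 3 = 2) with c | c | c
  · exact .inl (show t ^ k = 1 by rw [zpow_eq_zpow_emod k e, c, zpow_zero])
  · exact .inr (.inl (show t ^ k = t by rw [zpow_eq_zpow_emod k e, c, zpow_one]))
  · exact .inr (.inr (show t ^ k = t⁻¹ by rw [zpow_eq_zpow_emod k e, c, zpow_two, sq3 ht]))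

theorem gen2 {p : ℕ} [hp : Fact p.Prime] {e f : G} {K L : Subgroup G} (e3 : e ^ p = 1) (f3 : f ^ p = 1) (c : Commute e f) (e1 : e ≠ 1)
    (ne : f ∉ zpowers e) (n1 : e ∈ 𝐍 K) (n2 : f ∈ 𝐍 K) (cop : Nat.Coprime p (♯K))
    (k : ∀ a ∈ zpowers e, ∀ b ∈ zpowers f, a * b ≠ 1 → K ⊓ 𝐜 (a * b) ≤ L) : K ≤ L := by
  have cz : ∀ a ∈ zpowers e, ∀ b ∈ zpowers f, Commute a b := by rintro _ ⟨i, rfl⟩ _ ⟨j, rfl⟩; exact c.zpow_zpow i j
  have nm : zpowers e ≤ 𝐍 (zpowers f) := fun a ha => centralizer_le_normalizer _ fun b hb => (cz a ha b hb).symm.eq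
  have pw : ∀ {t z : G}, t ^ p = 1 → z ∈ zpowers t → z ^ p = 1 := by
    rintro t _ ht ⟨i, rfl⟩
    rw [← zpow_natCast, ← zpow_mul, mul_comm, zpow_mul, zpow_natCast, ht, one_zpow]
  have ex : ∀ w ∈ zpowers e ⊔ zpowers f, w ^ p = 1 := fun w hw => by
    obtain ⟨a, ha, b, hb, rfl⟩ := (mem_sup_of_normalizes_right nm).1 hw
    rw [(cz a ha b hb).mul_pow, pw e3 ha, pw f3 hb, one_mul]
  have : IsMulCommutative ↥(zpowers e ⊔ zpowers f) := ⟨⟨fun v w => Subtype.ext (by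
    obtain ⟨a, ha, b, hb, e1⟩ := (mem_sup_of_normalizes_right nm).1 v.2
    obtain ⟨a', ha', b', hb', e2⟩ := (mem_sup_of_normalizes_right nm).1 w.2
    obtain ⟨i, rfl⟩ := ha
    obtain ⟨i', rfl⟩ := ha'
    obtain ⟨j, rfl⟩ := hb
    obtain ⟨j', rfl⟩ := hb'
    rw [coe_mul, coe_mul, ← e1, ← e2]
    exact (((Commute.zpow_zpow_self e i i').mul_right (c.zpow_zpow i j')).mul_left
      ((c.symm.zpow_zpow j i').mul_right (Commute.zpow_zpow_self f j j'))).eq)⟩⟩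
  obtain ⟨m, hm⟩ := IsPGroup.iff_card.1 (isPGroup_iff_forall_mem.2 fun w hw => ⟨1, by rw [pow_one, ex w hw]⟩ : IsPGroup p ↥(zpowers e ⊔ zpowers f))
  rw [← CL.coprime_iSup_centralizer_noncyclic (zpowers e ⊔ zpowers f) K (fun cy => ne ?_) (sup_le (zpowers_le.2 n1) (zpowers_le.2 n2))
    (by rw [hm]; exact cop.pow_left m)]
  · refine iSup₂_le fun w hw => ?_
    obtain ⟨a, ha, b, hb, rfl⟩ := (mem_sup_of_normalizes_right nm).1 hw.1
    exact k a ha b hb hw.2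
  · obtain ⟨g, hg⟩ := cy.exists_ofOrder_eq_natCard
    have d : Nat.card ↥(zpowers e ⊔ zpowers f) ∣ p := hg ▸ orderOf_dvd_of_pow_eq_one (Subtype.ext (ex g g.2))
    rw [eq_of_le_of_card_ge (le_sup_left : zpowers e ≤ zpowers e ⊔ zpowers f)
      (by rw [Nat.card_zpowers, orderOf_eq_prime e3 e1]; exact Nat.le_of_dvd hp.out.pos d)]
    exact mem_sup_right (mem_zpowers f)

theorem cen3 [Group.IsSolvable G] (o : ∀ g : G, g ^ 24 = 1) (b : pCore 2 G = ⊥) : 𝐂 (pCore 3 G) ≤ pCore 3 G :=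
  Cfsg.Agent.S0017.result 3 (eq_bot_iff.2 (b ▸ PComp.le_pCore (isPGroup_iff_forall_mem.2 fun g hg => ⟨3,
    PComp.eq_one_of_coprime_of_pow (p := 3) (k := 1) (PComp.coprime_orderOf_of_mem (PComp.pPrimeCore_coprime 3) (pow_mem hg _))
      (by rw [← pow_mul]; exact o g)⟩)))

theorem cen2 [Group.IsSolvable G] (o : ∀ g : G, g ^ 24 = 1) (b : pCore 3 G = ⊥) : 𝐂 (pCore 2 G) ≤ pCore 2 G :=
  Cfsg.Agent.S0017.result 2 (eq_bot_iff.2 (b ▸ PComp.le_pCore (isPGroup_iff_forall_mem.2 fun g hg => ⟨1,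
    PComp.eq_one_of_coprime_of_pow (p := 2) (k := 3) (PComp.coprime_orderOf_of_mem (PComp.pPrimeCore_coprime 2) (pow_mem hg _))
      (by rw [← pow_mul]; exact o g)⟩)))

/-- the facts on `H / O₂(H)` -/
structure Qt (G : Type*) [Group G] (R : Subgroup G) : Prop where
  h8 : H8 G
  nm : R.Normal
  pg : IsPGroup 3 R
  cen : 𝐂 R ≤ R
  p1 : ∀ e f s : G, E9 ⊤ e f → s * s = 1 → s * e = e * s → s * f = f * s → s = 1
  p2 : ∀ e f : G, E9 ⊤ e f → (∀ a ∈ zpowers e, ∃ s : G, s * s = 1 ∧ Commute s (a * f) ∧ s * e * s⁻¹ = e⁻¹) → False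

namespace Qt

variable {R : Subgroup G} (q : Qt G R)
include q

theorem cub {r : G} (hr : r ∈ R) : r ^ 3 = 1 := q.h8.pp Nat.prime_three (by decide) q.pg hr

theorem rx {r x : G} (hr : r ∈ R) (x3 : x ^ 3 = 1) : r * (x * r * x⁻¹) * (x * (x * r * x⁻¹) * x⁻¹) = 1 := by
  have := q.nm
  have e := q.h8.pp Nat.prime_three (by decide) (isPGroup_sup_of_normalizes' q.pg (isPGroup_zpowers (k := 1) (by rw [pow_one, x3]))
    le_normalizer_of_normal) (mul_mem (mem_sup_left hr) (mem_sup_right (mem_zpowers x)))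
  calc _ = (r * x) ^ 3 * (x ^ 3)⁻¹ := by simp only [pow_succ, pow_zero]; group
    _ = _ := by rw [e, x3, inv_one, mul_one]

theorem cyc {s r y : G} (ss : s * s = 1) (s1 : s ≠ 1) (hr : r ∈ R ⊓ 𝐜 s) (r1 : r ≠ 1) (hy : y ∈ R ⊓ 𝐜 s) : y = 1 ∨ y = r ∨ y = r⁻¹ := by
  have pP : IsPGroup 3 ↥(R ⊓ 𝐜 s) := q.pg.to_le inf_le_left
  obtain ⟨⟨z, hz, cz⟩, z1⟩ := ne_bot_iff_exists_ne_one.1 (inf_centralizer_ne_bot pP pP le_normalizer fun e => r1 (e.le hr))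
  have z1 : z ≠ 1 := fun e => z1 (Subtype.ext e)
  have k : ∀ w ∈ R ⊓ 𝐜 s, w = 1 ∨ w = z ∨ w = z⁻¹ := fun w hw => zp3 (q.cub hz.1) (by_contra fun n =>
    s1 (q.p1 z w s ⟨trivial, trivial, q.cub hz.1, q.cub hw.1, (cz w hw).symm, z1, n⟩ ss (mem_c.1 hz.2).symm (mem_c.1 hw.2).symm))
  rcases k r hr with e | e | e
  · exact absurd e r1
  · rw [e]; exact k y hy
  · rw [e, inv_inv]; exact (k y hy).imp_right Or.symm

theorem caseA {f x : G} (ff : f * f = 1) (f1 : f ≠ 1) (x3 : x ^ 3 = 1) (c : Commute f (x * f * x⁻¹)) (ne : x * f * x⁻¹ ≠ f)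
    (e3 : x * (x * f * x⁻¹) * x⁻¹ = f * (x * f * x⁻¹)) : False := by
  have := q.nm
  have b1 : x⁻¹ * f * x = f * (x * f * x⁻¹) := by
    rw [← e3]
    calc _ = x⁻¹ * (x ^ 3 * f * (x ^ 3)⁻¹) * x := by rw [x3]; group
      _ = _ := by simp only [pow_succ, pow_zero]; group
  have key : ∀ r ∈ R ⊓ 𝐜 f, Commute (x * f * x⁻¹) r := fun r hr => by_contra fun n => by
    have cf : Commute f r := (mem_c.1 hr.2).symm
    have r1 : r ≠ 1 := fun e => n (e ▸ Commute.one_right _)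
    have i2 : x * f * x⁻¹ * r * (x * f * x⁻¹)⁻¹ = r⁻¹ := by
      rcases q.cyc ff f1 hr r1 (y := x * f * x⁻¹ * r * (x * f * x⁻¹)⁻¹)
        ⟨q.nm.conj_mem r hr.1 _, mem_c.2 ((c.mul_right cf).mul_right c.inv_right).symm⟩ with e | e | e
      · exact absurd (conj_eq_one_iff.1 e) r1
      · exact absurd (mul_inv_eq_iff_eq_mul.1 e) n
      · exact e
    have i3 : x⁻¹ * f * x * r * (x⁻¹ * f * x)⁻¹ = r⁻¹ := by
      rw [b1]
      calc _ = f * (x * f * x⁻¹ * r * (x * f * x⁻¹)⁻¹) * f⁻¹ := by group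
        _ = _ := by rw [i2, cf.inv_right.eq, mul_inv_cancel_right]
    have j2 : f * (x * r * x⁻¹) * f⁻¹ = (x * r * x⁻¹)⁻¹ := by
      calc _ = x * (x⁻¹ * f * x * r * (x⁻¹ * f * x)⁻¹) * x⁻¹ := by group
        _ = _ := by rw [i3]; group
    have j3 : f * (x * (x * r * x⁻¹) * x⁻¹) * f⁻¹ = (x * (x * r * x⁻¹) * x⁻¹)⁻¹ := by
      calc _ = x * x * ((x * x)⁻¹ * f * (x * x) * r * ((x * x)⁻¹ * f * (x * x))⁻¹) * (x * x)⁻¹ := by simp [mul_assoc]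
        _ = _ := by rw [show (x * x)⁻¹ * f * (x * x) = x * f * x⁻¹ by rw [sq3 x3, inv_inv], i2]; simp [mul_assoc]
    have e := q.rx hr.1 x3
    have c2 := sq3 (q.cub (q.nm.conj_mem r hr.1 x))
    have c3 := sq3 (q.cub (q.nm.conj_mem _ (q.nm.conj_mem r hr.1 x) x))
    generalize x * r * x⁻¹ = r2 at e c2 c3 j2 j3
    generalize x * r2 * x⁻¹ = r3 at e c3 j3
    have e' : r * (r2⁻¹ * r3⁻¹) = 1 := by
      rw [← j2, ← j3]
      calc _ = (r * f * r⁻¹ * f⁻¹) * (f * (r * r2 * r3) * f⁻¹) := by group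
        _ = _ := by rw [e, ← cf.eq]; group
    have e2 : r2⁻¹ * r3⁻¹ = 1 := by
      calc _ = r2 * (r⁻¹ * (r * r2 * r3)) * r3 := by rw [← c2, ← c3]; group
        _ = r2 * (r⁻¹ * (r * (r2⁻¹ * r3⁻¹))) * r3 := by rw [e, e']
        _ = _ := by group
    rw [e2, mul_one] at e'
    exact r1 e'
  obtain ⟨m, hm⟩ := IsPGroup.iff_card.1 q.pg
  have gg : x * f * x⁻¹ * (x * f * x⁻¹) = 1 := by rw [conj_mul, ff, mul_one, mul_inv_cancel]
  have le : R ≤ 𝐜 f := by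
    refine gen2 (p := 2) (by rw [pow_two, ff]) (by rw [pow_two, gg]) c f1 (fun m => ?_) (le_normalizer_of_normal (mem_top _))
      (le_normalizer_of_normal (mem_top _)) (by rw [hm]; exact Nat.Coprime.pow_right m (by decide)) fun a ha b hb n y hy => ?_
    · exact (zp2 ff m).elim (fun e => f1 (conj_eq_one_iff.1 e)) ne
    have cy : Commute y (a * b) := mem_c.1 hy.2
    rcases zp2 ff ha with e | e <;> rcases zp2 gg hb with e' | e' <;> rw [e, e'] at n cy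
    · exact absurd (one_mul _) n
    · rw [one_mul] at cy
      have c1 : Commute f (x⁻¹ * y * x) := by
        calc f * (x⁻¹ * y * x) = x⁻¹ * (x * f * x⁻¹ * y) * x := by group
          _ = _ := by rw [← cy.eq]; group
      have := (c1.mul_left (key _ ⟨by simpa using q.nm.conj_mem y hy.1 x⁻¹, mem_c.2 c1.symm⟩)).eq
      rw [← b1] at this
      refine mem_c.2 ?_
      calc y * f = x * (x⁻¹ * y * x * (x⁻¹ * f * x)) * x⁻¹ := by group
        _ = _ := by rw [← this]; group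
    · rw [mul_one] at cy; exact mem_c.2 cy
    · rw [← b1] at cy
      have c1 : Commute f (x * y * x⁻¹) := by
        calc f * (x * y * x⁻¹) = x * (x⁻¹ * f * x * y) * x⁻¹ := by group
          _ = _ := by rw [← cy.eq]; group
      have := (key _ ⟨q.nm.conj_mem y hy.1 x, mem_c.2 c1.symm⟩).eq
      rw [conj_mul, conj_mul] at this
      exact mem_c.2 (by simpa using this.symm)
  have := q.cub (q.cen fun r hr => mem_c.1 (le hr))
  rw [pow_succ, pow_two, ff, one_mul] at this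
  exact f1 this

theorem caseB {s x : G} (ss : s * s = 1) (s1 : s ≠ 1) (x3 : x ^ 3 = 1) (c : Commute s x) (xR : x ∉ R) : False := by
  have := q.nm
  have b : R ⊓ 𝐜 s = ⊥ := by_contra fun n => by
    obtain ⟨⟨z, hz, cz⟩, z1⟩ := ne_bot_iff_exists_ne_one.1 (inf_centralizer_ne_bot (isPGroup_zpowers (k := 1) (by rw [pow_one, x3]))
      (q.pg.to_le inf_le_left) (le_normalizer_inf le_normalizer_of_normal ((zpowers_le.2 (mem_c.2 c.symm.eq)).trans le_normalizer)) n)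
    exact s1 (q.p1 z x s ⟨trivial, trivial, q.cub hz.1, x3, (cz x (mem_zpowers x)).symm, fun e => z1 (Subtype.ext e),
      fun m => xR (zpowers_le.2 hz.1 m)⟩ ss (mem_c.1 hz.2).symm c.eq)
  have iv : ∀ r ∈ R, s * r * s⁻¹ = r⁻¹ := fun r hr => by
    have mw : r⁻¹ * (s * r * s⁻¹) ∈ R := mul_mem (inv_mem hr) (q.nm.conj_mem r hr s)
    have iw : s * (r⁻¹ * (s * r * s⁻¹)) * s⁻¹ = (r⁻¹ * (s * r * s⁻¹))⁻¹ := by
      calc _ = s * r⁻¹ * s⁻¹ * (s * s * r * (s * s)⁻¹) := by group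
        _ = _ := by rw [ss]; group
    have e : s * r * s⁻¹ = r * (r⁻¹ * (s * r * s⁻¹)) := by group
    generalize r⁻¹ * (s * r * s⁻¹) = w at mw iw e
    have : r * w⁻¹ ∈ R ⊓ 𝐜 s := ⟨R.mul_mem hr (R.inv_mem mw), mem_c.2 (mul_inv_eq_iff_eq_mul.1 (by
      rw [← conj_mul, ← conj_inv, iw, e, inv_inv, mul_assoc, sq3 (q.cub mw)])).symm⟩
    rw [b, mem_bot, mul_inv_eq_one] at this
    rw [this, iw]
  have ab : ∀ r ∈ R, ∀ r' ∈ R, Commute r r' := fun r hr r' hr' => by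
    have := iv _ (mul_mem hr hr')
    rw [← conj_mul, iv r hr, iv r' hr', ← mul_inv_rev, inv_inj] at this
    exact this.symm
  obtain ⟨r, hr, n⟩ : ∃ r ∈ R, r * x ≠ x * r := by_contra fun k => xR (q.cen fun r hr => by_contra fun e => k ⟨r, hr, e⟩)
  have m2 := q.nm.conj_mem r hr x
  have mζ : x * r * x⁻¹ * r⁻¹ ∈ R := mul_mem m2 (inv_mem hr)
  have cx : x * (x * r * x⁻¹ * r⁻¹) * x⁻¹ = x * r * x⁻¹ * r⁻¹ := by
    rw [← conj_mul, ← conj_inv, eq_inv_of_mul_eq_one_right (q.rx hr x3), mul_inv_rev, mul_assoc, ← (ab _ m2 _ hr).inv_inv.eq, ← mul_assoc,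
      ← mul_inv_rev, sq3 (q.cub m2), inv_inv]
  have e1 : r * x * r⁻¹ = (x * r * x⁻¹ * r⁻¹)⁻¹ * x := by group
  have z1 : x * r * x⁻¹ * r⁻¹ ≠ 1 := fun e => n (mul_inv_eq_iff_eq_mul.1 (mul_inv_eq_one.1 e)).symm
  generalize x * r * x⁻¹ * r⁻¹ = ζ at mζ cx e1 z1
  have e2 : r⁻¹ * x * r⁻¹⁻¹ = ζ * x := by
    calc _ = s * r * s⁻¹ * (s * x * s⁻¹) * (s * r * s⁻¹)⁻¹ := by rw [iv r hr, c.eq, mul_inv_cancel_right]
      _ = (s * ζ * s⁻¹)⁻¹ * (s * x * s⁻¹) := by rw [conj_inv, conj_inv, conj_mul, conj_mul, conj_mul, e1]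
      _ = _ := by rw [iv ζ mζ, c.eq, mul_inv_cancel_right, inv_inv]
  refine q.p2 ζ x ⟨trivial, trivial, q.cub mζ, x3, (mul_inv_eq_iff_eq_mul.1 cx).symm, z1, fun m => xR (zpowers_le.2 mζ m)⟩ fun a ha => ?_
  obtain ⟨ρ, hρ, e⟩ : ∃ ρ ∈ R, ρ * x * ρ⁻¹ = a * x := by
    rcases zp3 (q.cub mζ) ha with e | e | e <;> rw [e]
    exacts [⟨1, one_mem _, by group⟩, ⟨r⁻¹, inv_mem hr, e2⟩, ⟨r, hr, e1⟩]
  refine ⟨ρ * s * ρ⁻¹, by rw [conj_mul, ss]; group, e ▸ c.map (MulAut.conj ρ), ?_⟩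
  have k : ρ * ζ * ρ⁻¹ = ζ := by rw [(ab _ hρ _ mζ).eq, mul_inv_cancel_right]
  rw [← k, conj_inv, conj_mul, conj_mul, iv ζ mζ, conj_inv]

end Qt

theorem closed [Group.IsSolvable G] (o : ∀ g : G, g ^ 24 = 1) (q : Qt G (pCore 3 G)) {x : G} (x3 : x ^ 3 = 1) : x ∈ pCore 3 G := by
  by_contra xR
  let ρ := QuotientGroup.mk' (pCore 3 G)
  have sρ : Function.Surjective ρ := QuotientGroup.mk'_surjective _
  have x1 : ρ x ≠ 1 := fun e => xR ((QuotientGroup.eq_one_iff x).1 e)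
  have cn := cen2 (G := G ⧸ pCore 3 G) (fun g => by obtain ⟨g, rfl⟩ := sρ g; rw [← map_pow, o, map_one]) (CL.pCore_quotient_pCore 3 G)
  obtain ⟨D, hD⟩ := exists_sylIn 2 ((pCore 2 (G ⧸ pCore 3 G)).comap ρ)
  have eD := hD.map ρ
  rw [map_comap_eq_self_of_surjective sρ] at eD
  have eD := eD.eq_of_isPGroup (PComp.pCore_isPGroup 2)
  have D1 : D ≠ ⊥ := fun e => by
    rw [← eD, e, Subgroup.map_bot] at cn
    exact x1 (cn fun _ m => by rw [mem_bot.1 m, one_mul, mul_one])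
  obtain ⟨n, hn, y, hy, e⟩ := hD.frattini (x := x) (le_normalizer_of_normal (mem_top x))
  obtain ⟨d, hd, ed⟩ : ρ n ∈ D.map ρ := eD ▸ hn
  have ey : ρ (d * y) = ρ x := by rw [e, map_mul, map_mul, ed]
  obtain ⟨w3, ew⟩ := q.h8.lift3 ρ (g := d * y) (by rw [ey, ← map_pow, x3, map_one]) (ey ▸ x1)
  have wN : (d * y) ^ 4 ∈ 𝐍 (D ⊓ 𝐂 D) := le_normalizer_inf le_rfl (normalizer_le_normalizer_centralizer D)
    (pow_mem (mul_mem (le_normalizer hd) hy) _)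
  have wR : (d * y) ^ 4 ∉ pCore 3 G := fun m => x1 (by rw [← ey, ← ew]; exact (QuotientGroup.eq_one_iff _).2 m)
  generalize (d * y) ^ 4 = w at w3 wN wR
  obtain ⟨⟨s, hs⟩, os⟩ := exists_prime_orderOf_dvd_card' 2 (dvd_card_of_isPGroup_le (hD.pgroup.to_le inf_le_left)
    (inf_centralizer_ne_bot hD.pgroup hD.pgroup le_normalizer D1) le_rfl)
  rw [← orderOf_coe] at os
  have ss : s * s = 1 := by rw [← pow_two, ← os]; exact pow_orderOf_eq_one s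
  have s1 : s ≠ 1 := fun e => by rw [coe_mk, e, orderOf_one] at os; omega
  have m1 := (mem_normalizer_iff.1 wN _).1 hs
  have m2 := (mem_normalizer_iff.1 wN _).1 m1
  have c1 : Commute s (w * s * w⁻¹) := m1.2 s hs.1
  have c2 : Commute s (w * (w * s * w⁻¹) * w⁻¹) := m2.2 s hs.1
  have c3 : Commute (w * s * w⁻¹) (w * (w * s * w⁻¹) * w⁻¹) := m2.2 _ m1.1
  have e3 : w * (w * (w * s * w⁻¹) * w⁻¹) * w⁻¹ = s := by
    calc _ = w ^ 3 * s * (w ^ 3)⁻¹ := by simp only [pow_succ, pow_zero]; group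
      _ = _ := by rw [w3]; group
  have t2 : w * s * w⁻¹ * (w * s * w⁻¹) = 1 := by rw [conj_mul, ss]; group
  by_cases f1 : s * (w * s * w⁻¹) = 1
  · exact q.caseB ss s1 w3 (mul_inv_eq_iff_eq_mul.1 (mul_left_cancel (f1.trans ss.symm))).symm wR
  have ff : s * (w * s * w⁻¹) * (s * (w * s * w⁻¹)) = 1 := by rw [← c1.mul_mul_mul_comm, ss, t2, one_mul]
  by_cases ne : w * (s * (w * s * w⁻¹)) * w⁻¹ = s * (w * s * w⁻¹)
  · exact q.caseB ff f1 w3 (mul_inv_eq_iff_eq_mul.1 ne).symm wR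
  refine q.caseA ff f1 w3 ?_ ne ?_
  · rw [← conj_mul]; exact (c1.mul_right c2).mul_left ((Commute.refl _).mul_right c3)
  · rw [← conj_mul (a := s), ← conj_mul, e3, mul_assoc s, ← mul_assoc (w * s * w⁻¹), t2, one_mul, c2.eq]

theorem lift9 {e f : G ⧸ pCore 2 G} (E : E9 ⊤ e f) : ∃ a b : G, E9 ⊤ a b ∧ (a : G ⧸ pCore 2 G) = e ∧ (b : G ⧸ pCore 2 G) = f := by
  obtain ⟨a, rfl⟩ := QuotientGroup.mk_surjective e
  obtain ⟨b, rfl⟩ := QuotientGroup.mk_surjective f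
  have m : ∀ g : G, g ∈ 𝐎 (⊤ : Subgroup G) ↔ (g : G ⧸ pCore 2 G) = 1 := fun g => by rw [PComp.pCoreOf_top, QuotientGroup.eq_one_iff]
  obtain ⟨e, f, E', h1, h2⟩ := e9_lift (H := ⊤) (a := a) (b := b) trivial trivial ((m _).2 E.e3) ((m _).2 E.f3)
    ((m _).2 (commutatorElement_eq_one_iff_mul_comm.2 E.cm :)) (fun k => E.e1 ((m _).1 k)) fun i k =>
      E.ne (eq_inv_of_mul_eq_one_right (show (a : G ⧸ pCore 2 G) ^ i * b = 1 from (m _).1 k) ▸ inv_mem (pow_mem (mem_zpowers _) i))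
  rw [PComp.pCoreOf_top] at h1 h2
  exact ⟨e, f, E', QuotientGroup.eq.2 h1, QuotientGroup.eq.2 h2⟩

theorem keyK (h : H8 G) {y ζ : G} (y3 : y ^ 3 = 1) (y1 : y ≠ 1) (z3 : ζ ^ 3 = 1) (c : Commute ζ y) {t : G ⧸ pCore 2 G} (tt : t * t = 1)
    (ty : Commute t y) (tz : t * ζ * t⁻¹ = (ζ : G ⧸ pCore 2 G)⁻¹) : pCore 2 G ⊓ 𝐜 y ≤ 𝐜 ζ := by
  have pO := PComp.pCore_isPGroup (G := G) 2
  obtain ⟨m, hm⟩ := IsPGroup.iff_card.1 pO
  have mt : t ∈ 𝐂 ((zpowers y).map (QuotientGroup.mk' (pCore 2 G))) := by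
    rintro _ ⟨_, ⟨i, rfl⟩, rfl⟩
    rw [map_zpow]
    exact (ty.zpow_right i).symm.eq
  rw [CL.centralizer_map_mk'_of_coprime _ _ (by rw [Nat.card_zpowers, ord3 y3 y1, hm]; exact Nat.Coprime.pow_right m (by decide))
    (.inl inferInstance)] at mt
  obtain ⟨s, hs, rfl⟩ := mt
  have sy : s * y = y * s := (hs y (mem_zpowers y)).symm
  have s2 : s ^ 2 ^ 4 = 1 := by
    rw [show 2 ^ 4 = 2 * 8 from rfl, pow_mul, pow_two]
    exact h.p8 pO ((QuotientGroup.eq_one_iff _).1 tt)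
  have k : ∀ u ∈ pCore 2 G ⊓ 𝐜 y, Commute s u := fun u hu =>
    h.comm3 y3 y1 (isPGroup_sup_of_normalizes' pO (isPGroup_zpowers s2) le_normalizer_of_normal) (mem_sup_right (mem_zpowers s))
      (mem_sup_left hu.1) sy (mem_c.1 hu.2)
  intro u hu
  have c1 : Commute (ζ * s * ζ⁻¹) u := by
    have := (k (ζ⁻¹ * u * ζ) ⟨by simpa using (inferInstance : (pCore 2 G).Normal).conj_mem u hu.1 ζ⁻¹,
      mem_c.2 ((c.inv_left.mul_left (mem_c.1 hu.2)).mul_left c)⟩).eq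
    calc ζ * s * ζ⁻¹ * u = ζ * (s * (ζ⁻¹ * u * ζ)) * ζ⁻¹ := by group
      _ = _ := by rw [this]; group
  have c2 := (k u hu).mul_left c1.inv_left
  have mo : ζ⁻¹ * (s * (ζ * s * ζ⁻¹)⁻¹) ∈ pCore 2 G := by
    refine QuotientGroup.eq.1 ?_
    have e : ((s * (ζ * s * ζ⁻¹)⁻¹ : G) : G ⧸ pCore 2 G) = (s : G ⧸ pCore 2 G) * ζ * (s : G ⧸ pCore 2 G)⁻¹ * (ζ : G ⧸ pCore 2 G)⁻¹ := by
      simp only [QuotientGroup.mk_mul, QuotientGroup.mk_inv]; group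
    rw [e, show (s : G ⧸ pCore 2 G) * ζ * (s : G ⧸ pCore 2 G)⁻¹ = (ζ : G ⧸ pCore 2 G)⁻¹ from tz, ← mul_inv_rev,
      sq3 (by rw [← QuotientGroup.mk_pow, z3, QuotientGroup.mk_one]), inv_inv]
  have c3 : Commute (ζ⁻¹ * (s * (ζ * s * ζ⁻¹)⁻¹)) u := h.comm3 y3 y1 pO mo hu.1
    (c.inv_left.mul_left ((show Commute s y from sy).mul_left ((c.mul_left sy).mul_left c.inv_left).inv_left)) (mem_c.1 hu.2)
  generalize s * (ζ * s * ζ⁻¹)⁻¹ = w at c2 c3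
  have := c2.mul_left c3.inv_left
  rw [mul_inv_rev, mul_inv_cancel_left, inv_inv] at this
  exact mem_c.2 this.symm

theorem qt [Group.IsSolvable G] (h : H8 G) (ch : Ch (⊤ : Subgroup G)) (o : ∀ g : G, g ^ 24 = 1) : Qt (G ⧸ pCore 2 G) (pCore 3 _) := by
  have m : ∀ g : G, g ∈ 𝐎 (⊤ : Subgroup G) ↔ (g : G ⧸ pCore 2 G) = 1 := fun g => by rw [PComp.pCoreOf_top, QuotientGroup.eq_one_iff]
  have pO := PComp.pCore_isPGroup (G := G) 2
  refine ⟨h.quot _, inferInstance, PComp.pCore_isPGroup 3, cen3 (fun g => ?_) (CL.pCore_quotient_pCore 2 G), fun e f s E ss se sf => ?_,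
    fun e f E k => ?_⟩
  · obtain ⟨g, rfl⟩ := QuotientGroup.mk_surjective g
    rw [← QuotientGroup.mk_pow, o, QuotientGroup.mk_one]
  · obtain ⟨a, b, E', rfl, rfl⟩ := lift9 E
    obtain ⟨s, rfl⟩ := QuotientGroup.mk_surjective s
    refine (m s).1 (cy h ch E' trivial (h.pow_p (b := 3) (k := 4) Nat.prime_two (by norm_num) ?_)
      ((m _).2 (commutatorElement_eq_one_iff_mul_comm.2 se :)) ((m _).2 (commutatorElement_eq_one_iff_mul_comm.2 sf :)))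
    rw [show 2 ^ 4 = 2 * 8 from rfl, pow_mul, pow_two]
    exact h.p8 pO ((QuotientGroup.eq_one_iff _).1 ss)
  · obtain ⟨a, b, E', rfl, rfl⟩ := lift9 E
    have c : Commute a b := E'.cm
    have key : ∀ u ∈ zpowers a, pCore 2 G ⊓ 𝐜 (u * b) ≤ 𝐜 a := by
      rintro _ ⟨i, rfl⟩
      obtain ⟨t, tt, ty, tz⟩ := k ((a : G ⧸ pCore 2 G) ^ i) ⟨i, rfl⟩
      refine keyK h ?_ (fun e => E'.ne (eq_inv_of_mul_eq_one_right e ▸ inv_mem ⟨i, rfl⟩)) E'.e3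
        ((Commute.self_zpow a i).mul_right c) tt ty tz
      rw [(c.zpow_left i).mul_pow, E'.f3, mul_one, ← zpow_natCast, ← zpow_mul, mul_comm, zpow_mul, zpow_natCast, E'.e3, one_zpow]
    obtain ⟨n, hn⟩ := IsPGroup.iff_card.1 pO
    have le : pCore 2 G ≤ 𝐜 a := by
      refine gen2 (p := 3) E'.e3 E'.f3 c E'.e1 E'.ne (le_normalizer_of_normal (mem_top _)) (le_normalizer_of_normal (mem_top _))
        (by rw [hn]; exact Nat.Coprime.pow_right n (by decide)) fun u hu v hv n1 y hy => ?_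
      have cy : Commute y (u * v) := mem_c.1 hy.2
      rcases zp3 E'.f3 hv with e | e | e <;> rw [e] at n1 cy
      · rw [mul_one] at n1 cy
        rcases zp3 E'.e3 hu with e | e | e <;> rw [e] at n1 cy
        exacts [absurd rfl n1, mem_c.2 cy, mem_c.2 (Commute.inv_right_iff.1 cy)]
      · exact key u hu ⟨hy.1, mem_c.2 cy⟩
      · refine key u⁻¹ (inv_mem hu) ⟨hy.1, mem_c.2 ?_⟩
        obtain ⟨i, rfl⟩ := hu
        have := cy.inv_right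
        rwa [mul_inv_rev, inv_inv, (c.symm.zpow_right i).inv_right.eq] at this
    exact E.e1 ((m a).1 (ch ⟨trivial, fun g hg => mem_c.1 (le (by rwa [PComp.pCoreOf_top] at hg))⟩))

end S3x

open S3x


/-- Burnside's `p^a q^b` theorem (`H8.prime`, Cauchy). -/
theorem N57.solv (h : H8 G) (n : N57 H) : Group.IsSolvable H := by
  exact CL.Spec.solvable_of_orders (a := 3) (b := 1) Nat.prime_two Nat.prime_three fun g =>
    orderOf_dvd_of_pow_eq_one (Subtype.ext (p24 h n g.2))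

/-- **`H / O₂(H)` is `3`-closed.** PROOF. Bars modulo `O = 𝐎 H`; `H̄` is a solvable `{2,3}`-group with `O₂(H̄) = 1` and `H8`,
`R̄ = O₃(H̄) = F(H̄) ≥ C(R̄)`; `3`-subgroups have exponent `3`. Let `R̄ D̄ = O_{3,2}(H̄)`, `D̄` a `2`-group, `H̄ = R̄ N(D̄)`.
If `H̄` is not `3`-closed, some `x̄ ∈ N(D̄)` of order `3` lies outside `R̄`, and `D̄ ≠ 1` (`C(O₂(H̄/R̄)) ≤ O₂(H̄/R̄)`).
By `cy` + `e9_lift` the centralizer in `H̄` of an involution contains no `3²`, so its `3`-subgroups have order `≤ 3`.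
Let `Z̄ = Ω₁Z(D̄)`.
(a) `x̄` moves some `s ∈ Z̄`: `f₁ = s · s^x`, `f₂ = f₁^x`, `f₃ = f₂^x = f₁f₂` form a four-group acting faithfully on `R̄`, so
`R̄ = ⟨C(f₁), C(f₂), C(f₃)⟩`, `C_R̄(fᵢ) = ⟨rᵢ⟩` of order `3`, `r₂ = r₁^x`, `r₃ = r₂^x`; they are not equal (`Aut Z₃` has order
`2`), so `fⱼ` inverts `rᵢ` for `i ≠ j`. `(r₁ x)³ = 1` gives `r₁r₂r₃ = 1` (in some order); conjugating by `f₁, f₂` gives
`r₁² = r₃⁻²`-type relations, so `⟨r₁⟩ = ⟨r₃⟩`, contradiction.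
(b) `x̄` centralizes an involution `s̄ ∈ Z̄`. Then `C_R̄(s̄) = 1` (else `C(s̄) ⊓ R̄⟨x̄⟩` has order `≥ 9`, exponent `3`), so `s̄`
inverts `R̄`, which is abelian. `x̄ ∉ R̄` moves some `r̄`; `ζ̄ = [x̄, r̄] ≠ 1` commutes with `x̄` (`(r x)³ = 1` gives
`(x-1)² = 0`). Lift (`e9_lift`) to `E9 H x ζ`, and lift `s̄` to `s ∈ C_H(x)` (coprime action on the coset). `C_O(x)` is
centralized by `s` (`comm3`) and by its conjugate under `ζ`, hence by `ζ` (`⟨s, s^ζ⟩` covers `ζ̄`; its elements of order `3`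
in `C(x)` are conjugate to `ζ^±` under `C_O(x)`). So `C_O(x) = C_O(x, ζ)`. `x ζ` and `x ζ⁻¹` are conjugate to `x` in `H`
(`x̄^r̄ = x̄ ζ̄^±`, Sylow in `O⟨x ζ⟩`), so by orders `C_O(x ζ^±) = C_O(x, ζ)` too. The `C_O(w)` generate `O`, so `ζ`
centralizes `O`, against `ch`. -/
theorem exists_tc (h : H8 G) (ch : Ch H) (n : N57 H) : ∃ R, Tc H R := by
  have := n.solv h
  have o : ∀ g : H, g ^ 24 = 1 := fun g => Subtype.ext (p24 h n g.2)
  have mO : ∀ g : H, (g : G) ∈ 𝐎 H ↔ (g : H ⧸ pCore 2 H) = 1 := fun g => by rw [PComp.mem_pCoreOf, QuotientGroup.eq_one_iff]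
  have q := qt (h.subgroup H) (fun g hg => by
    rw [PComp.pCoreOf_top] at hg ⊢
    refine (PComp.mem_pCoreOf g).1 (ch ⟨g.2, ?_⟩)
    rintro _ ⟨u, hu, rfl⟩
    exact congrArg Subtype.val (hg.2 u hu)) o
  refine ⟨((pCore 3 _).comap (QuotientGroup.mk' (pCore 2 H))).map H.subtype, fun g hg => ?_, map_subtype_le _,
    CL.le_normalizer_map_subtype _ _, ?_, fun x hx x3 => ⟨⟨x, hx⟩, ?_, rfl⟩, fun s hs k => ⟨⟨s, hs⟩, q.cen fun r hr => ?_, rfl⟩⟩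
  · obtain ⟨u, hu, rfl⟩ := hg
    exact ⟨u, by rw [SetLike.mem_coe, mem_comap, show QuotientGroup.mk' _ u = 1 from (QuotientGroup.eq_one_iff u).2 hu]; exact one_mem _, rfl⟩
  · rintro _ ⟨r, hr, rfl⟩
    exact (mO (r ^ 3)).2 (q.cub hr)
  · refine closed (fun g => ?_) q ((mO ((⟨x, hx⟩ : H) ^ 3)).1 x3 :)
    obtain ⟨g, rfl⟩ := QuotientGroup.mk_surjective g
    rw [← QuotientGroup.mk_pow, o, QuotientGroup.mk_one]
  · obtain ⟨r, rfl⟩ := QuotientGroup.mk_surjective r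
    exact (commutatorElement_eq_one_iff_mul_comm.1 ((mO ⁅(⟨s, hs⟩ : H), r⁆).1 (k r ⟨r, hr, rfl⟩) :)).symm

/-- PROOF. `x ∈ R`, so `⁅d, x⁆ ∈ R ⊓ D` is a `2`-element whose cube lies in `O`. -/
theorem tc (h : H8 G) (ch : Ch H) (n : N57 H) {D : Subgroup G} (hD : D ≤ H) (p : IsPGroup 2 D) {x : G}
    (hx : x ∈ H) (x3 : x ^ 3 = 1) (xn : x ∈ 𝐍 D) {d : G} (hd : d ∈ D) : ⁅d, x⁆ ∈ 𝐎 H := by
  obtain ⟨R, t⟩ := exists_tc h ch n
  have xR := t.all x hx (x3.symm ▸ one_mem _)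
  have m1 : ⁅d, x⁆ ∈ R := mul_mem ((mem_normalizer_iff.1 (t.nm (hD hd)) x).1 xR) (inv_mem xR)
  have m2 : ⁅d, x⁆ ∈ D := by
    rw [commutatorElement_def, mul_assoc, mul_assoc, ← mul_assoc x]
    exact mul_mem hd ((mem_normalizer_iff.1 xn _).1 (inv_mem hd))
  have := pow_mem (t.cub _ m1) 3
  rwa [← pow_mul, show 3 * 3 = 8 + 1 from rfl, pow_succ, h.p8 p m2, one_mul] at this

end CL.Ord8
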