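import Cfsg.Agent.FGS.Ord8.Sol3
import Cfsg.Agent.SOLV.CoprimeGen

set_option autoImplicit false
set_option linter.unusedSectionVars false

namespace CL.Ord8

open Subgroup Cfsg CL.MSS CL.Ord6
open scoped commutatorElement

universe u

namespace Sol4

variable {X : Type*} [Group X] [Finite X]

/-- the facts on `H / O₂(H)` -/
structure Qd (R : Subgroup X) : Prop where
  h8 : H8 X
  nm : R.Normal
  cub : ∀ r ∈ R, r ^ 3 = 1
  all : ∀ x, x ^ 3 = 1 → x ∈ R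
  cen : ∀ s, (∀ r ∈ R, Commute s r) → s ∈ R
  cy : ∀ s a b : X, s ^ 8 = 1 → a ^ 3 = 1 → b ^ 3 = 1 → Commute a b → a ≠ 1 → b ∉ zpowers a → Commute s a → Commute s b →
    s = 1

theorem nz {P : Subgroup X} (cub : ∀ r ∈ P, r ^ 3 = 1) {c : X} (hc : c ∈ P) (n : ¬ P ≤ zpowers c) :
    ∃ u ∈ P, u ∉ zpowers c ∧ Commute c u := by
  have := Fact.mk Nat.prime_three
  obtain ⟨u, hu, nu⟩ := SetLike.not_le_iff_exists.1 n
  have : Nontrivial P := ⟨⟨⟨u, hu⟩, 1, fun e => nu (by rw [show u = 1 from congrArg Subtype.val e]; exact one_mem _)⟩⟩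
  have hP : IsPGroup 3 P := fun g => ⟨1, Subtype.ext (cub g g.2)⟩
  have := hP.center_nontrivial
  obtain ⟨⟨z, hz⟩, z1⟩ := exists_ne (1 : center P)
  have zc : ∀ g ∈ P, Commute g z := fun g hg => congrArg Subtype.val (mem_center_iff.1 hz ⟨g, hg⟩)
  by_cases k : (z : X) ∈ zpowers c
  · have z1' : (z : X) ≠ 1 := fun e => z1 (Subtype.ext (Subtype.ext e))
    have c1 : c ≠ 1 := fun e => z1' (by simpa [e] using k)
    have e : zpowers (z : X) = zpowers c := eq_of_le_of_card_ge (zpowers_le_of_mem k) (by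
      rw [Nat.card_zpowers, Nat.card_zpowers, ord3 (cub _ hc) c1, ord3 (cub _ z.2) z1'])
    obtain ⟨i, rfl⟩ := e.ge (mem_zpowers c)
    exact ⟨u, hu, nu, ((zc u hu).zpow_right i).symm⟩
  · exact ⟨z, z.2, k, zc c hc⟩

theorem one_of {s : X} (h8 : s ^ 8 = 1) (h3 : s ^ 3 = 1) : s = 1 :=
  calc s = s ^ 8 * s := by rw [h8, one_mul]
    _ = (s ^ 3) ^ 3 := by rw [← pow_succ, ← pow_mul]
    _ = 1 := by rw [h3, one_pow]

namespace Qd

variable {R : Subgroup X} (Q : Qd R)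
include Q

theorem cyc {s c : X} (s8 : s ^ 8 = 1) (s1 : s ≠ 1) (c3 : c ^ 3 = 1) (c1 : c ≠ 1) (e : Commute s c) :
    R ⊓ 𝐜 s ≤ zpowers c := by
  by_contra n
  obtain ⟨u, hu, nu, k⟩ := nz (P := R ⊓ 𝐜 s) (fun r hr => Q.cub r hr.1) ⟨Q.all c c3, mem_c.2 e.symm⟩ n
  exact s1 (Q.cy s c u s8 c3 (Q.cub u hu.1) k c1 nu e (mem_c.1 hu.2).symm)

theorem not_le {s c : X} (s8 : s ^ 8 = 1) (s1 : s ≠ 1) (e : Commute s c) : ¬ R ≤ zpowers c := fun h =>
  s1 (one_of s8 (Q.cub s (Q.cen s fun _ hr => let ⟨i, k⟩ := h hr; k ▸ e.zpow_right i)))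

theorem cop {A : Subgroup X} (el : ∀ a ∈ A, a * a = 1) : (♯A).Coprime (♯R) :=
  have := Fact.mk Nat.prime_three
  IsPGroup.coprime_card_of_ne 2 3 (by norm_num) A R (fun g => ⟨1, Subtype.ext ((pow_two _).trans (el g g.2))⟩)
    fun g => ⟨1, Subtype.ext (Q.cub g g.2)⟩

theorem two {B : Subgroup X} (p : IsPGroup 2 B) {c : X} (c3 : c ^ 3 = 1) (c1 : c ≠ 1) (e : ∀ b ∈ B, Commute b c) :
    ♯B ≤ 2 := by
  by_contra! n
  have el : ∀ b ∈ B, b * b = 1 := fun b hb => Q.h8.no12 c3 c1 (e b hb).symm (Q.h8.p8 p hb)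
  have : IsMulCommutative B := ⟨⟨fun a b => Subtype.ext (comm_sq el a.2 b.2)⟩⟩
  have := Q.nm
  obtain ⟨b, hb, b1⟩ := (bot_or_exists_ne_one B).resolve_left fun k => by simp [k] at n
  refine Q.not_le (Q.h8.p8 p hb) b1 (e b hb) (coprime_le_of_forall_centralizer_le B R _ (fun k => ?_) le_normalizer_of_normal
    (Q.cop el) fun a ha a1 => Q.cyc (Q.h8.p8 p ha) a1 c3 c1 (e a ha))
  obtain ⟨g, hg⟩ := k.exists_ofOrder_eq_natCard
  exact absurd (hg ▸ orderOf_le_of_pow_eq_one two_pos (Subtype.ext ((pow_two _).trans (el g g.2)))) n.not_ge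

theorem four {A : Subgroup X} (el : ∀ a ∈ A, a * a = 1) : ♯A ≤ 4 := by
  by_contra! n
  have : IsMulCommutative A := ⟨⟨fun a b => Subtype.ext (comm_sq el a.2 b.2)⟩⟩
  have := Q.nm
  have p : IsPGroup 2 A := fun g => ⟨1, Subtype.ext ((pow_two _).trans (el g g.2))⟩
  have n0 : A ≠ ⊥ := fun k => by simp [k] at n
  obtain ⟨b, hb, b1⟩ := (bot_or_exists_ne_one A).resolve_left n0
  refine Q.not_le (Q.h8.p8 p hb) b1 (Commute.one_right b) (coprime_le_of_forall_hyperplane A R _ Nat.prime_two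
    (fun a ha => (pow_two a).trans (el a ha)) n0 le_normalizer_of_normal (Q.cop el) fun B hB i c hc => ?_)
  by_contra c1
  have h1 := Q.two (p.to_le hB) (Q.cub c hc.1) (fun e => c1 (by rw [e]; exact one_mem _)) fun b hb => hc.2 b hb
  have h2 := card_mul_index (B.subgroupOf A)
  rw [Nat.card_congr (subgroupOfEquivOfLe hB).toEquiv, show (B.subgroupOf A).index = 2 from i] at h2
  omega

theorem six (k : ∀ a b : X, a ^ 3 = 1 → b ^ 3 = 1 → Commute a b → a ≠ 1 → b ∈ zpowers a) : Nat.card X ∣ 6 := by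
  have := Q.nm
  rcases bot_or_exists_ne_one R with e | ⟨c, hc, c1⟩
  · have : (⊤ : Subgroup X) = ⊥ := le_bot_iff.1 fun s _ => e ▸ Q.cen s fun r hr => by
      rw [e, mem_bot] at hr
      exact hr ▸ Commute.one_right s
    rw [← card_top, this, card_bot]
    exact one_dvd _
  have e : R = zpowers c := le_antisymm (by_contra fun n =>
    let ⟨u, hu, nu, h⟩ := nz Q.cub hc n
    nu (k c u (Q.cub c hc) (Q.cub u hu) h c1)) (zpowers_le_of_mem hc)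
  have h3 : ♯R = 3 := by rw [e, Nat.card_zpowers, ord3 (Q.cub c hc) c1]
  have : IsCyclic R := e ▸ inferInstance
  have h1 : (MulAut.conjNormal : X →* MulAut R).ker ≤ R := fun s hs => Q.cen s fun r hr => by
    have := congrArg Subtype.val (DFunLike.congr_fun (MonoidHom.mem_ker.1 hs) (⟨r, hr⟩ : R))
    exact mul_inv_eq_iff_eq_mul.1 (by simpa using this)
  rw [← card_mul_index (MulAut.conjNormal : X →* MulAut R).ker, index_ker]
  refine mul_dvd_mul (h3 ▸ card_dvd_of_le h1) (?_ : _ ∣ 2)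
  have := card_subgroup_dvd_card (MulAut.conjNormal : X →* MulAut R).range
  rwa [IsCyclic.card_mulAut, h3] at this

end Qd

variable {G : Type*} [Group G] [Finite G] {H : Subgroup G}

/-- the quotient map -/
abbrev π (H : Subgroup G) := QuotientGroup.mk' (pCore 2 H)

theorem π_one {g : H} : π H g = 1 ↔ g.1 ∈ 𝐎 H := (QuotientGroup.eq_one_iff g).trans mem_oP_iff.symm

theorem π_comm {a b : H} : Commute (π H a) (π H b) ↔ ⁅a.1, b.1⁆ ∈ 𝐎 H := by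
  rw [← commutatorElement_eq_one_iff_commute, ← map_commutatorElement, π_one]; rfl

theorem π_surj : Function.Surjective (π H) := QuotientGroup.mk'_surjective _

theorem lift9 {a b : H} (a3 : π H a ^ 3 = 1) (b3 : π H b ^ 3 = 1) (c : Commute (π H a) (π H b)) (a1 : π H a ≠ 1)
    (n : π H b ∉ zpowers (π H a)) : ∃ e f : H, E9 H e f ∧ π H e = π H a ∧ π H f = π H b := by
  obtain ⟨e, f, E, h1, h2⟩ := e9_lift a.2 b.2 (π_one.1 ((map_pow _ a 3).trans a3)) (π_one.1 ((map_pow _ b 3).trans b3))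
    (π_comm.1 c) (fun k => a1 (π_one.2 k)) fun i k => n (by
      have := (π_one (g := a ^ i * b)).2 k
      rw [map_mul, map_pow, mul_eq_one_iff_inv_eq] at this
      exact this ▸ inv_mem (pow_mem (mem_zpowers _) i))
  refine ⟨⟨e, E.he⟩, ⟨f, E.hf⟩, E, inv_mul_eq_one.1 ?_, inv_mul_eq_one.1 ?_⟩ <;> rw [← map_inv, ← map_mul, π_one]
  exacts [h1, h2]

theorem qd (h : H8 G) (ch : Ch H) (n : N57 H) : ∃ R : Subgroup (H ⧸ pCore 2 H), Qd R := by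
  obtain ⟨R, T⟩ := exists_tc h ch n
  have : (R.subgroupOf H).Normal := (normal_subgroupOf_iff_le_normalizer T.le).2 T.nm
  refine ⟨(R.subgroupOf H).map (π H), (h.subgroup H).quot _, this.map _ π_surj, ?_, fun x hx => ?_, fun s hs => ?_,
    fun s a b s8 a3 b3 c a1 k sa sb => ?_⟩
  · rintro _ ⟨r, hr, rfl⟩
    rw [← map_pow, π_one]
    exact T.cub r hr
  · obtain ⟨x, rfl⟩ := π_surj x
    exact mem_map_of_mem _ (T.all x x.2 (π_one.1 ((map_pow _ x 3).trans hx)))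
  · obtain ⟨s, rfl⟩ := π_surj s
    exact mem_map_of_mem _ (T.cen s s.2 fun r hr => (π_comm (b := ⟨r, T.le hr⟩)).1 (hs _ (mem_map_of_mem _ hr)))
  · obtain ⟨s, rfl⟩ := π_surj s
    obtain ⟨a, rfl⟩ := π_surj a
    obtain ⟨b, rfl⟩ := π_surj b
    obtain ⟨e, f, E, h1, h2⟩ := lift9 a3 b3 c a1 k
    have h3 := h.p8 (oP_isPGroup H) (π_one.1 ((map_pow _ s 8).trans s8))
    exact π_one.2 (cy h ch E s.2 (h.pow_p (b := 3) (k := 6) Nat.prime_two (by norm_num) ((pow_mul s.1 8 8).trans h3))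
      (π_comm.1 (h1 ▸ sa)) (π_comm.1 (h2 ▸ sb)))

theorem card_range {B : Subgroup G} (hB : B ≤ H) : ♯B = ♯(B ⊓ 𝐎 H) * ♯((π H).comp (inclusion hB)).range := by
  have e : ((π H).comp (inclusion hB)).ker = (B ⊓ 𝐎 H).subgroupOf B := by
    ext g
    exact π_one.trans ⟨fun k => ⟨g.2, k⟩, fun k => k.2⟩
  rw [← index_ker, e, ← Nat.card_congr (subgroupOfEquivOfLe (inf_le_left : B ⊓ 𝐎 H ≤ B)).toEquiv, card_mul_index]

end Sol4

open Sol4

variable {G : Type*} [Group G] [Finite G]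

variable {H : Subgroup G}

/-- `R̄` has no `3²`, so `|R̄| ≤ 3` and `H̄ / R̄` embeds in `Aut R̄`. -/
theorem sm (h : H8 G) (ch : Ch H) (n : N57 H) (c : ∀ e f, ¬ E9 H e f) : ♯H ∣ 6 * ♯(𝐎 H) := by
  obtain ⟨R, Q⟩ := qd h ch n
  rw [card_range le_rfl, inf_of_le_right (oP_le H), mul_comm]
  refine mul_dvd_mul_right ((card_subgroup_dvd_card _).trans (Q.six fun a b a3 b3 k a1 => by_contra fun m => ?_)) _
  obtain ⟨a, rfl⟩ := π_surj a
  obtain ⟨b, rfl⟩ := π_surj b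
  obtain ⟨e, f, E, -⟩ := lift9 a3 b3 k a1 m
  exact c e f E

/-- `q̄` moves some `ū ∈ C_R̄(c̄)`; lift `ū` to `u ∈ C_H(c)`; `ρ = (u⁻¹ q u q⁻¹)⁴`. -/
theorem ci (h : H8 G) (ch : Ch H) (n : N57 H) {c q : G} (hc : c ∈ H) (c3 : c ^ 3 = 1) (c1 : c ≠ 1) (hq : q ∈ H)
    (q2 : q * q = 1) (e : q * c = c * q) (nq : q ∉ 𝐎 H) :
    ∃ ρ ∈ H, ρ ^ 3 = 1 ∧ ρ ≠ 1 ∧ ρ * c = c * ρ ∧ q * ρ * q⁻¹ = ρ⁻¹ := by
  obtain ⟨R, Q⟩ := qd h ch n
  have := Q.nm
  have c3' : π H ⟨c, hc⟩ ^ 3 = 1 := by rw [← map_pow, show (⟨c, hc⟩ : H) ^ 3 = 1 from Subtype.ext c3, map_one]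
  have c1' : π H ⟨c, hc⟩ ≠ 1 := fun k => c1 (one_of (h.p8 (oP_isPGroup H) (π_one.1 k)) c3)
  have q8 : π H ⟨q, hq⟩ ^ 8 = 1 := by
    rw [← map_pow, show (⟨q, hq⟩ : H) ^ 8 = 1 from Subtype.ext (h.p8 (pg_zpowers q2) (mem_zpowers q)), map_one]
  have q1 : π H ⟨q, hq⟩ ≠ 1 := fun k => nq (π_one.1 k)
  have e' : Commute (π H ⟨q, hq⟩) (π H ⟨c, hc⟩) := Commute.map (Subtype.ext e) _
  obtain ⟨v, hv, nv, k⟩ := nz Q.cub (Q.all _ c3') (Q.not_le q8 q1 e')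
  have k1 : v ∈ centralizer (((zpowers (⟨c, hc⟩ : H)).map (π H) : Subgroup _) : Set (H ⧸ pCore 2 H)) := by
    rw [MonoidHom.map_zpowers]
    rintro _ ⟨i, rfl⟩
    exact k.zpow_left i
  rw [centralizer_map_mk'_of_coprime _ _ (by
    rw [Nat.card_zpowers, ord3 (Subtype.ext c3) fun k => c1 (congrArg Subtype.val k)]
    exact coprime_card_of_isPGroup oP_pCore_isPGroup (by norm_num)) (.inr (isSolvable_of_isPGroup oP_pCore_isPGroup))] at k1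
  obtain ⟨u, hu, rfl⟩ := k1
  have uc : Commute c u := congrArg Subtype.val (hu _ (mem_zpowers _))
  have w3 : π H (u⁻¹ * (⟨q, hq⟩ * u * ⟨q, hq⟩⁻¹)) ^ 3 = 1 := by
    rw [map_mul, map_mul, map_mul, map_inv, map_inv]
    exact Q.cub _ (mul_mem (inv_mem hv) (this.conj_mem _ hv _))
  have w1 : π H (u⁻¹ * (⟨q, hq⟩ * u * ⟨q, hq⟩⁻¹)) ≠ 1 := fun m => nv (Q.cyc q8 q1 c3' c1' e' ⟨hv, mem_c.2 (by
    rw [map_mul, map_mul, map_mul, map_inv, map_inv, inv_mul_eq_one, eq_mul_inv_iff_mul_eq] at m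
    exact m)⟩)
  obtain ⟨r3, r1⟩ := (h.subgroup H).lift3 (π H) w3 w1
  have qc : Commute c q := Eq.symm e
  refine ⟨_, ((u⁻¹ * ((⟨q, hq⟩ : H) * u * (⟨q, hq⟩ : H)⁻¹)) ^ 4).2, congrArg Subtype.val r3,
    fun m => w1 (by rw [← r1, show (u⁻¹ * ((⟨q, hq⟩ : H) * u * (⟨q, hq⟩ : H)⁻¹)) ^ 4 = 1 from Subtype.ext m, map_one]),
    ((uc.inv_right.mul_right ((qc.mul_right uc).mul_right qc.inv_right)).pow_right 4).symm, ?_⟩
  change q * ((u : G)⁻¹ * (q * u * q⁻¹)) ^ 4 * q⁻¹ = (((u : G)⁻¹ * (q * u * q⁻¹)) ^ 4)⁻¹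
  rw [← conj_pow, ← inv_pow]
  congr 1
  calc _ = q * (u : G)⁻¹ * q * u * (q * q)⁻¹ := by group
    _ = _ := by rw [q2, mul_inv_rev, mul_inv_rev, mul_inv_rev, inv_inv, inv_inv, inv_eq_of_mul_eq_one_right q2]; group

/-- `B̄` is elementary abelian (`no12`); if it is not cyclic, `R̄ = ⟨c̄⟩` is centralized by `B̄`. -/
theorem ci2 (h : H8 G) (ch : Ch H) (n : N57 H) {c : G} (hc : c ∈ H) (c3 : c ^ 3 ∈ 𝐎 H) (c1 : c ∉ 𝐎 H)
    {B : Subgroup G} (hB : B ≤ H) (p : IsPGroup 2 B) (e : ∀ b ∈ B, ⁅b, c⁆ ∈ 𝐎 H) : ♯B ≤ 2 * ♯(B ⊓ 𝐎 H) := by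
  obtain ⟨R, Q⟩ := qd h ch n
  rw [card_range hB, mul_comm]
  refine Nat.mul_le_mul_right _ (Q.two (p.of_surjective _ (MonoidHom.rangeRestrict_surjective _)) (c := π H ⟨c, hc⟩)
    ((map_pow _ _ 3).symm.trans (π_one.2 c3)) (fun k => c1 (π_one.1 k)) ?_)
  rintro _ ⟨b, rfl⟩
  exact π_comm.2 (e b b.2)

/-- `R̄ ≠ 1` is generated by the `C_R̄(B)`, `|A : B| = 2`. -/
theorem rk3 (h : H8 G) (ch : Ch H) (n : N57 H) {A : Subgroup G} (hA : A ≤ H) (el : ∀ a ∈ A, a * a = 1)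
    (c : A ⊓ 𝐎 H = ⊥) : ♯A ≤ 4 := by
  obtain ⟨R, Q⟩ := qd h ch n
  rw [card_range hA, c, card_bot, one_mul]
  refine Q.four ?_
  rintro _ ⟨b, rfl⟩
  rw [← map_mul, show b * b = 1 from Subtype.ext (el b b.2), map_one]

end CL.Ord8
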