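import Cfsg.Agent.FGS.Ord8.Defs

set_option autoImplicit false
set_option linter.unusedSectionVars false

namespace CL.Ord8

open Subgroup Cfsg CL.MSS CL.Ord6
open scoped commutatorElement

universe u

variable {G : Type*} [Group G] [Finite G]

/-- A TI-subgroup `V`, a `2`-group `O`, `N = V ⊓ O` of index two in `V`, `a ∈ V - N` inverting `x` of odd order. -/
structure Pr (V O : Subgroup G) (a x : G) : Prop where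
  ti : TI V
  pO : IsPGroup 2 O
  nV : O ≤ 𝐍 V
  nO : V ≤ 𝐍 O
  ha : a ∈ V
  two : ∀ v ∈ V, v ∈ O ∨ v * a ∈ O
  xn : x ∈ 𝐍 O
  odd : Odd (orderOf x)
  x1 : x ≠ 1
  inv : a * x * a⁻¹ = x⁻¹

namespace Pr

variable {V O : Subgroup G} {a x : G}

theorem ti_sq (h : Pr V O a x) : x * a * x⁻¹ * a = x * x := by
  have e : a * x⁻¹ * a = x := by
    calc a * x⁻¹ * a = a * (a * x * a⁻¹) * a := by rw [h.inv]
      _ = (a * a) * x := by group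
      _ = x := by rw [h.ti.el a h.ha, one_mul]
  rw [show x * a * x⁻¹ * a = x * (a * x⁻¹ * a) by group, e]

theorem ti_mem (h : Pr V O a x) {K : Subgroup G} (c : x * x ∈ K) : x ∈ K :=
  oU_mem_of_pow_mem (n := 2) (Nat.coprime_two_right.2 h.odd) (by rwa [pow_two])

theorem ti_nN (h : Pr V O a x) : O ≤ 𝐍 (V ⊓ O) := le_normalizer_inf h.nV le_normalizer

theorem ti_le (h : Pr V O a x) : x •ᶜ (V ⊓ O) ≤ O := cj_le_of_mem_normalizer inf_le_right h.xn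

theorem ti_UO (h : Pr V O a x) : (V ⊓ O) ⊔ x •ᶜ (V ⊓ O) ≤ O := sup_le inf_le_right h.ti_le

theorem ti_nU (h : Pr V O a x) : O ≤ 𝐍 ((V ⊓ O) ⊔ x •ᶜ (V ⊓ O)) := by
  refine le_normalizer_sup h.ti_nN ?_
  rw [← cj_normalizer]
  exact (cj_eq_of_mem_normalizer h.xn).ge.trans (cj_mono x h.ti_nN)

theorem ti_mul (h : Pr V O a x) {g k : G}
    (hg : ∀ q ∈ O, g * q * g⁻¹ * q⁻¹ ∈ (V ⊓ O) ⊔ x •ᶜ (V ⊓ O))
    (hk : ∀ q ∈ O, k * q * k⁻¹ * q⁻¹ ∈ (V ⊓ O) ⊔ x •ᶜ (V ⊓ O)) :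
    ∀ q ∈ O, g * k * q * (g * k)⁻¹ * q⁻¹ ∈ (V ⊓ O) ⊔ x •ᶜ (V ⊓ O) := fun q hq => by
  rw [show g * k * q * (g * k)⁻¹ * q⁻¹ = g * (k * q * k⁻¹ * q⁻¹) * g⁻¹ * (k * q * k⁻¹ * q⁻¹)⁻¹ *
    (k * q * k⁻¹ * q⁻¹) * (g * q * g⁻¹ * q⁻¹) by group]
  exact mul_mem (mul_mem (hg _ (h.ti_UO (hk q hq))) (hk q hq)) (hg q hq)

theorem ti_ca (h : Pr V O a x) {q : G} (hq : q ∈ O) : a * q * a⁻¹ * q⁻¹ ∈ V ⊓ O := by
  refine mem_inf.2 ⟨?_, mul_mem (conj_mem_of_normalizes h.nO h.ha hq) (inv_mem hq)⟩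
  rw [show a * q * a⁻¹ * q⁻¹ = a * (q * a⁻¹ * q⁻¹) by group]
  exact mul_mem h.ha (conj_mem_of_normalizes h.nV hq (inv_mem h.ha))

theorem ti_cx (h : Pr V O a x) : ∀ q ∈ O, x * q * x⁻¹ * q⁻¹ ∈ (V ⊓ O) ⊔ x •ᶜ (V ⊓ O) := by
  have h1 : ∀ q ∈ O, a * q * a⁻¹ * q⁻¹ ∈ (V ⊓ O) ⊔ x •ᶜ (V ⊓ O) := fun q hq => mem_sup_left (h.ti_ca hq)
  have h2 : ∀ q ∈ O, x * a * x⁻¹ * q * (x * a * x⁻¹)⁻¹ * q⁻¹ ∈ (V ⊓ O) ⊔ x •ᶜ (V ⊓ O) := fun q hq => by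
    rw [show x * a * x⁻¹ * q * (x * a * x⁻¹)⁻¹ * q⁻¹ =
      x * (a * (x⁻¹ * q * x) * a⁻¹ * (x⁻¹ * q * x)⁻¹) * x⁻¹ by group]
    exact mem_sup_right (conj_mem_cj (h.ti_ca ((mem_normalizer_iff''.1 h.xn q).1 hq)))
  have h3 := h.ti_mul h2 h1
  rw [h.ti_sq] at h3
  have h4 : ∀ k : ℕ, ∀ q ∈ O, (x * x) ^ k * q * ((x * x) ^ k)⁻¹ * q⁻¹ ∈ (V ⊓ O) ⊔ x •ᶜ (V ⊓ O) := by
    intro k
    induction k with
    | zero => intro q _; simp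
    | succ k ih => rw [pow_succ]; exact h.ti_mul ih h3
  obtain ⟨k, hk⟩ := h.odd
  have e : (x * x) ^ (k + 1) = x := by
    rw [← pow_two, ← pow_mul, show 2 * (k + 1) = orderOf x + 1 by omega, pow_succ, pow_orderOf_eq_one, one_mul]
  have := h4 (k + 1)
  rwa [e] at this

/-- PROOF. Else `⁅x, a⁆ = x²` lies in `V`, so `x⁴ = 1`. -/
theorem not_n (h : Pr V O a x) : x ∉ 𝐍 V := by
  intro c
  have m : x * a * x⁻¹ * a ∈ V := mul_mem ((mem_normalizer_iff.1 c a).1 h.ha) h.ha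
  rw [h.ti_sq] at m
  have e : x * x * (x * x) ∈ (⊥ : Subgroup G) := mem_bot.2 (h.ti.el _ m)
  have e2 : x ^ 4 ∈ (⊥ : Subgroup G) := by
    rwa [show x ^ 4 = x * x * (x * x) by simp only [pow_succ, pow_zero, one_mul, mul_assoc]]
  exact h.x1 (mem_bot.1 (oU_mem_of_pow_mem (n := 4)
    (Nat.Coprime.pow_right 2 (Nat.coprime_two_right.2 h.odd)) e2))

theorem disj (h : Pr V O a x) {n : G} (hn : n ∈ V) (c : x * n * x⁻¹ ∈ V) : n = 1 := by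
  by_contra n1
  exact h.not_n (h.ti.ti x n hn n1 c)

/-- PROOF. `x n x⁻¹` commutes with `a` and with `x a x⁻¹`, so with `a · x a x⁻¹ = x⁻²`, so with `x`; use `disj`. -/
theorem p4 (h : Pr V O a x) {n : G} (hn : n ∈ V) (c : a * (x * n * x⁻¹) = x * n * x⁻¹ * a) : n = 1 := by
  have h1 : a ∈ 𝐜 (x * n * x⁻¹) := mem_c.2 c
  have h2 : x * a * x⁻¹ ∈ 𝐜 (x * n * x⁻¹) := mem_c.2 (by
    rw [show x * a * x⁻¹ * (x * n * x⁻¹) = x * (a * n) * x⁻¹ by group, comm_sq h.ti.el h.ha hn]; group)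
  have h3 := mem_c.1 (h.ti_mem (h.ti_sq ▸ mul_mem h2 h1))
  have h4 : x * n * x⁻¹ = n := by
    have : x * (x * n * x⁻¹) = x * n := by rw [h3]; group
    exact mul_left_cancel this
  exact h.disj hn (h4.symm ▸ hn)

/-- PROOF. `⁅c, a⁆ ∈ V` commutes with `x`; use `disj`. -/
theorem p5 (h : Pr V O a x) {c : G} (hc : c ∈ O) (e : c * x = x * c) : c * a = a * c := by
  have m : c * a * c⁻¹ * a ∈ V := mul_mem ((mem_normalizer_iff.1 (h.nV hc) a).1 h.ha) h.ha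
  have e1 : x * a = a * x⁻¹ := by
    have := h.inv
    calc x * a = a * (a * x * a⁻¹) * (a * a) := by
          rw [show a * (a * x * a⁻¹) * (a * a) = (a * a) * x * a by group, h.ti.el a h.ha, one_mul]
      _ = a * x⁻¹ := by rw [this, h.ti.el a h.ha, mul_one]
  have e2 : x⁻¹ * a = a * x := by
    rw [← h.inv]; group
  have e3 : x * c = c * x := e.symm
  have e4 : x⁻¹ * c⁻¹ = c⁻¹ * x⁻¹ := by rw [← mul_inv_rev, e, mul_inv_rev]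
  have k : x * (c * a * c⁻¹ * a) * x⁻¹ = c * a * c⁻¹ * a := by
    calc x * (c * a * c⁻¹ * a) * x⁻¹ = (x * c) * a * c⁻¹ * a * x⁻¹ := by group
      _ = c * (x * a) * c⁻¹ * a * x⁻¹ := by rw [e3]; group
      _ = c * a * (x⁻¹ * c⁻¹) * a * x⁻¹ := by rw [e1]; group
      _ = c * a * c⁻¹ * (x⁻¹ * a) * x⁻¹ := by rw [e4]; group
      _ = c * a * c⁻¹ * a := by rw [e2]; group
  have z := h.disj m (k.symm ▸ m)
  calc c * a = c * a * c⁻¹ * (a * a) * c := by rw [h.ti.el a h.ha]; group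
    _ = (c * a * c⁻¹ * a) * (a * c) := by group
    _ = a * c := by rw [z, one_mul]

/-- `U = N ⊔ x N x⁻¹`. PROOF. `N`, `x N x⁻¹` are normal in `O` and meet trivially, so `U = N × x N x⁻¹`. -/
theorem mem_U (h : Pr V O a x) {u : G} : u ∈ (V ⊓ O) ⊔ x •ᶜ (V ⊓ O) ↔
    ∃ n ∈ V ⊓ O, ∃ n' ∈ V ⊓ O, u = n * (x * n' * x⁻¹) := by
  rw [mem_sup_of_normalizes_left (h.ti_le.trans h.ti_nN)]
  constructor
  · rintro ⟨n, hn, z, hz, rfl⟩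
    obtain ⟨n', hn', rfl⟩ := mem_cj'.1 hz
    exact ⟨n, hn, n', hn', rfl⟩
  · rintro ⟨n, hn, n', hn', rfl⟩
    exact ⟨n, hn, _, conj_mem_cj hn', rfl⟩

theorem card_U (h : Pr V O a x) : ♯((V ⊓ O) ⊔ x •ᶜ (V ⊓ O)) = ♯(V ⊓ O) * ♯(V ⊓ O) := by
  rw [← Nat.card_prod]
  refine (Nat.card_eq_of_bijective (fun p : (V ⊓ O : Subgroup G) × (V ⊓ O : Subgroup G) =>
    (⟨p.1.1 * (x * p.2.1 * x⁻¹), h.mem_U.2 ⟨_, p.1.2, _, p.2.2, rfl⟩⟩ :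
      ((V ⊓ O) ⊔ x •ᶜ (V ⊓ O) : Subgroup G))) ⟨?_, ?_⟩).symm
  · rintro ⟨⟨n, hn⟩, ⟨n', hn'⟩⟩ ⟨⟨m, hm⟩, ⟨m', hm'⟩⟩ e
    have e : n * (x * n' * x⁻¹) = m * (x * m' * x⁻¹) := congrArg Subtype.val e
    have e1 : x * (m' * n'⁻¹) * x⁻¹ = m⁻¹ * n := by
      rw [show n = m * (x * m' * x⁻¹) * (x * n' * x⁻¹)⁻¹ by rw [← e]; group]; group
    have e2 := h.disj (mul_mem hm'.1 (inv_mem hn'.1)) (e1.symm ▸ mul_mem (inv_mem hm.1) hn.1)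
    obtain rfl : m' = n' := mul_inv_eq_one.1 e2
    obtain rfl : n = m := mul_right_cancel e
    rfl
  · rintro ⟨u, hu⟩
    obtain ⟨n, hn, n', hn', rfl⟩ := h.mem_U.1 hu
    exact ⟨(⟨n, hn⟩, ⟨n', hn'⟩), rfl⟩

theorem ti_fpf (h : Pr V O a x) {u : G} (hu : u ∈ (V ⊓ O) ⊔ x •ᶜ (V ⊓ O)) (e : u * x = x * u) : u = 1 := by
  have h0 : u ∈ 𝐜 a := mem_c.2 (h.p5 (h.ti_UO hu) e)
  obtain ⟨n, hn, n', hn', rfl⟩ := h.mem_U.1 hu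
  have h1 : n ∈ 𝐜 a := mem_c.2 (comm_sq h.ti.el hn.1 h.ha)
  have h3 : x * n' * x⁻¹ ∈ 𝐜 a := by
    rw [show x * n' * x⁻¹ = n⁻¹ * (n * (x * n' * x⁻¹)) by group]
    exact mul_mem (inv_mem h1) h0
  obtain rfl := h.p4 hn'.1 (mem_c.1 h3).symm
  rw [show n * (x * 1 * x⁻¹) = n by group] at e ⊢
  exact h.disj hn.1 (by rw [← e, mul_inv_cancel_right]; exact hn.1)

theorem ti_surj (h : Pr V O a x) {u : G} (hu : u ∈ (V ⊓ O) ⊔ x •ᶜ (V ⊓ O)) :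
    ∃ v ∈ (V ⊓ O) ⊔ x •ᶜ (V ⊓ O), u = x * v * x⁻¹ * v⁻¹ := by
  have inj : Function.Injective fun v : ((V ⊓ O) ⊔ x •ᶜ (V ⊓ O) : Subgroup G) =>
      (⟨x * v * x⁻¹ * (v : G)⁻¹, h.ti_cx _ (h.ti_UO v.2)⟩ : ((V ⊓ O) ⊔ x •ᶜ (V ⊓ O) : Subgroup G)) := by
    rintro ⟨v, hv⟩ ⟨w, hw⟩ e
    have e : x * v * x⁻¹ * v⁻¹ = x * w * x⁻¹ * w⁻¹ := congrArg Subtype.val e
    have e1 : w⁻¹ * v * x = x * (w⁻¹ * v) := by
      calc w⁻¹ * v * x = w⁻¹ * (x * v * x⁻¹ * v⁻¹)⁻¹ * (x * v) := by group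
        _ = x * (w⁻¹ * v) := by rw [e]; group
    exact Subtype.ext (inv_mul_eq_one.1 (h.ti_fpf (mul_mem (inv_mem hw) hv) e1)).symm
  obtain ⟨v, e⟩ := Finite.surjective_of_injective inj ⟨u, hu⟩
  exact ⟨v, v.2, (congrArg Subtype.val e).symm⟩

/-- PROOF. `⁅q, a⁆ ∈ N` and `⁅q, x a x⁻¹⁆ ∈ x N x⁻¹` for `q ∈ O`. So `a`, `x a x⁻¹` normalize `U` and centralize `O / U`, and
so does `x`, a power of `a · x a x⁻¹`. `⟨x⟩` acts on the coset `q U` of `2`-power size... use coprime action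
(`O = [O, x] C_O(x)`). -/
theorem p3 (h : Pr V O a x) {q : G} (hq : q ∈ O) :
    ∃ n ∈ V ⊓ O, ∃ n' ∈ V ⊓ O, ∃ c ∈ O, c * x = x * c ∧ q = n * (x * n' * x⁻¹) * c := by
  obtain ⟨v, hv, e⟩ := h.ti_surj (h.ti_cx q hq)
  obtain ⟨n, hn, n', hn', e1⟩ := h.mem_U.1 hv
  refine ⟨n, hn, n', hn', v⁻¹ * q, mul_mem (inv_mem (h.ti_UO hv)) hq, ?_, by rw [← e1]; group⟩
  calc v⁻¹ * q * x = v⁻¹ * (x * q * x⁻¹ * q⁻¹)⁻¹ * (x * q) := by group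
    _ = x * (v⁻¹ * q) := by rw [e]; group

/-- PROOF. `q = n · x n' x⁻¹ · c`; `a` commutes with `q, n, c` (`p5`), so `n' = 1` (`p4`). -/
theorem p6 (h : Pr V O a x) {q : G} (hq : q ∈ O) (e : q * a = a * q) :
    ∃ n ∈ V ⊓ O, ∃ c ∈ O, c * x = x * c ∧ q = n * c := by
  obtain ⟨n, hn, n', hn', c, hc, ec, rfl⟩ := h.p3 hq
  have h1 : n ∈ 𝐜 a := mem_c.2 (comm_sq h.ti.el hn.1 h.ha)
  have h2 : c ∈ 𝐜 a := mem_c.2 (h.p5 hc ec)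
  have h3 : x * n' * x⁻¹ ∈ 𝐜 a := by
    rw [show x * n' * x⁻¹ = n⁻¹ * (n * (x * n' * x⁻¹) * c) * c⁻¹ by group]
    exact mul_mem (mul_mem (inv_mem h1) (mem_c.2 e)) (inv_mem h2)
  obtain rfl := h.p4 hn'.1 (mem_c.1 h3).symm
  exact ⟨n, hn, c, hc, ec, by group⟩

/-- PROOF. `x` has no fixed point on `U` (`p5`, `p4`, `disj`), so every `u ∈ U` is `⁅v, x⁆`, `v ∈ U`, and `U = ⁅O, ⟨x⟩⁆`.
`x' = e x e⁻¹ ∈ O x` has the order of `x`, so `⟨x'⟩ = q ⟨x⟩ q⁻¹` with `q ∈ O` (Schur-Zassenhaus or Sylow in `O ⟨x⟩`; if you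
prefer, show that `x'` centralizes `O / U`-cosets: `U ⟨x⟩ = O²(O ⟨x⟩)` is characteristic in `O ⟨x⟩` and
`U = O ⊓ O²(O ⟨x⟩)`). -/
theorem p7 (h : Pr V O a x) {e : G} (he : e ∈ 𝐍 O) (c : ⁅e, x⁆ ∈ O) : e ∈ 𝐍 ((V ⊓ O) ⊔ x •ᶜ (V ⊓ O)) := by
  obtain ⟨n, hn, n', hn', d, hd, ed, e1⟩ := h.p3 c
  have hu : n * (x * n' * x⁻¹) ∈ (V ⊓ O) ⊔ x •ᶜ (V ⊓ O) := h.mem_U.2 ⟨n, hn, n', hn', rfl⟩
  generalize n * (x * n' * x⁻¹) = u at hu e1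
  have e2 : e * x * e⁻¹ = u * (d * x) := by
    rw [← mul_assoc, ← e1, commutatorElement_def]; group
  have ny : ∀ w ∈ (V ⊓ O) ⊔ x •ᶜ (V ⊓ O), d * x * w * (d * x)⁻¹ ∈ (V ⊓ O) ⊔ x •ᶜ (V ⊓ O) := fun w hw => by
    rw [show d * x * w * (d * x)⁻¹ = d * (x * w * x⁻¹ * w⁻¹ * w) * d⁻¹ by group]
    exact conj_mem_of_normalizes h.ti_nU hd (mul_mem (h.ti_cx w (h.ti_UO hw)) hw)
  have key : ∀ k : ℕ, (u * (d * x)) ^ k * ((d * x) ^ k)⁻¹ ∈ (V ⊓ O) ⊔ x •ᶜ (V ⊓ O) := by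
    intro k
    induction k with
    | zero => simp
    | succ k ih =>
      rw [pow_succ' (d * x), pow_succ']
      generalize (u * (d * x)) ^ k = A at ih ⊢
      generalize (d * x) ^ k = B at ih ⊢
      rw [show u * (d * x) * A * (d * x * B)⁻¹ = u * (d * x * (A * B⁻¹) * (d * x)⁻¹) by group]
      exact mul_mem hu (ny _ ih)
  have k1 := key (orderOf x)
  rw [← e2, conj_pow, pow_orderOf_eq_one, (show Commute d x from ed).mul_pow, pow_orderOf_eq_one] at k1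
  have k2 : d ^ orderOf x ∈ (V ⊓ O) ⊔ x •ᶜ (V ⊓ O) := by simpa using k1
  obtain ⟨j, hj⟩ := isPGroup_iff_forall_mem.1 h.pO d hd
  have dU : d ∈ (V ⊓ O) ⊔ x •ᶜ (V ⊓ O) := oU_mem_of_pow_mem
    (Nat.Coprime.coprime_dvd_left (orderOf_dvd_of_pow_eq_one hj)
      (Nat.Coprime.pow_left j (Nat.coprime_two_left.2 h.odd))) k2
  have cx : ∀ q ∈ O, e * x * e⁻¹ * q * (e * x * e⁻¹)⁻¹ * q⁻¹ ∈ (V ⊓ O) ⊔ x •ᶜ (V ⊓ O) := by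
    rw [e2, ← mul_assoc]
    refine h.ti_mul (fun q hq => ?_) h.ti_cx
    rw [show u * d * q * (u * d)⁻¹ * q⁻¹ = u * d * (q * (u * d)⁻¹ * q⁻¹) by group]
    exact mul_mem (mul_mem hu dU) (conj_mem_of_normalizes h.ti_nU hq (inv_mem (mul_mem hu dU)))
  refine mem_normalizer_of_cj_le (cj_le_iff_forall.2 fun w hw => ?_)
  obtain ⟨v, hv, rfl⟩ := h.ti_surj hw
  rw [show e * (x * v * x⁻¹ * v⁻¹) * e⁻¹ =
    e * x * e⁻¹ * (e * v * e⁻¹) * (e * x * e⁻¹)⁻¹ * (e * v * e⁻¹)⁻¹ by group]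
  exact cx _ ((mem_normalizer_iff.1 he v).1 (h.ti_UO hv))

end Pr

end CL.Ord8
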